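import Mathlib
import Cfsg.Agent.Helper13.UnitGen
import Cfsg.Agent.Helper44.PSUI

/-!
# Two-generation of `SU_n(q)` (S2412): definitions and the basic toolkit (helper65)

`sugPhi hF M` is the set of *full transvection centres* of a subgroup `M` of `SU_n(q)`: the nonzero
isotropic vectors `v` all of whose unitary transvections `utv hF v c` lie in `M`.
-/

set_option autoImplicit false
set_option linter.unusedSimpArgs false
set_option linter.unusedSectionVars false
set_option linter.unusedVariables false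

namespace Cfsg.Agent.Helper65

open Matrix
open Cfsg.Agent.Helper5 (frobQ frobQ_apply frobQ_frobQ)
open Cfsg.Agent.Helper13

section sugdefs
variable {F : Type*} [Field F] [Fintype F] {q n : ℕ}

/-- the full transvection centres of a subgroup `M` of `SU_n(q)` -/
def sugPhi (hF : Fintype.card F = q ^ 2) (M : Subgroup ↥(Cfsg.SU n F q)) : Set (Fin n → F) :=
  {v | v ≠ 0 ∧ Cfsg.hermForm n F q v v = 0 ∧ ∀ c : F, frobQ hF c = -c → utv hF v c ∈ M}

/-- a set of nonzero isotropic vectors closed under scalars and under the transvections centred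
in it -/
structure SugClosed (hF : Fintype.card F = q ^ 2) (Φ : Set (Fin n → F)) : Prop where
  iso : ∀ v ∈ Φ, v ≠ 0 ∧ Cfsg.hermForm n F q v v = 0
  smul : ∀ v ∈ Φ, ∀ l : F, l ≠ 0 → l • v ∈ Φ
  tv : ∀ v ∈ Φ, ∀ x ∈ Φ, ∀ c : F, frobQ hF c = -c →
    x + (c * Cfsg.hermForm n F q x v) • v ∈ Φ

/-- extension by zero `F^k → F^n` -/
def sugExt (k n : ℕ) (x : Fin k → F) : Fin n → F :=
  fun i => if h : i.val < k then x ⟨i.val, h⟩ else 0

/-- `Φ` contains every nonzero isotropic vector supported on the first `k` coordinates -/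
def SugFull (q : ℕ) (Φ : Set (Fin n → F)) (k : ℕ) : Prop :=
  ∀ v : Fin n → F, v ≠ 0 → Cfsg.hermForm n F q v v = 0 →
    (∀ i : Fin n, k ≤ i.val → v i = 0) → v ∈ Φ

theorem sug_uact_ne_zero (g : ↥(Cfsg.SU n F q)) (v : Fin n → F) (hv : v ≠ 0) : uact g v ≠ 0 := by
  intro h
  apply hv
  have := congrArg (uact g⁻¹) h
  rwa [uact_inv_uact, uact_zero] at this

/-- `sugPhi M` is `M`-invariant. -/
theorem sug_phi_act (hF : Fintype.card F = q ^ 2) (M : Subgroup ↥(Cfsg.SU n F q))
    (g : ↥(Cfsg.SU n F q)) (hg : g ∈ M) (v : Fin n → F) (hv : v ∈ sugPhi hF M) :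
    uact g v ∈ sugPhi hF M := by
  obtain ⟨hv0, hvv, hc⟩ := hv
  refine ⟨sug_uact_ne_zero g v hv0, by rw [uact_herm]; exact hvv, fun c hcs => ?_⟩
  rw [← utv_conj hF g v c]
  exact M.mul_mem (M.mul_mem hg (hc c hcs)) (M.inv_mem hg)

/-- `sugPhi M` is closed under nonzero scalars. -/
theorem sug_phi_smul (hF : Fintype.card F = q ^ 2) (M : Subgroup ↥(Cfsg.SU n F q))
    (v : Fin n → F) (hv : v ∈ sugPhi hF M) (l : F) (hl : l ≠ 0) : l • v ∈ sugPhi hF M := by
  obtain ⟨hv0, hvv, hc⟩ := hv
  refine ⟨smul_ne_zero hl hv0, ?_, fun c hcs => ?_⟩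
  · rw [uh_smul_left, uh_smul_right hF, hvv]; ring
  · rw [utv_smul hF l hl v c]
    apply hc
    rw [map_mul, map_mul, frobQ_frobQ, hcs]; ring

/-- `sugPhi M` is a closed system. -/
theorem sug_phi_closed (hF : Fintype.card F = q ^ 2) (M : Subgroup ↥(Cfsg.SU n F q)) :
    SugClosed hF (sugPhi hF M) where
  iso := fun v hv => ⟨hv.1, hv.2.1⟩
  smul := fun v hv l hl => sug_phi_smul hF M v hv l hl
  tv := by
    intro v hv x hx c hc
    have h1 := sug_phi_act hF M (utv hF v c) (hv.2.2 c hc) x hx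
    rwa [uact_utv hF v c hv.2.1 hc] at h1

/-- if every nonzero isotropic vector is a full centre of `M` then `M = SU_n(q)`. -/
theorem sug_top (hF : Fintype.card F = q ^ 2) (hn : 3 ≤ n) (h32 : ¬ (n = 3 ∧ q = 2))
    (M : Subgroup ↥(Cfsg.SU n F q))
    (h : ∀ v : Fin n → F, v ≠ 0 → Cfsg.hermForm n F q v v = 0 → v ∈ sugPhi hF M) : M = ⊤ := by
  rw [eq_top_iff, ← su_eq_utT hF n hn h32]
  unfold utT
  rw [Subgroup.closure_le]
  intro A hA
  rcases utGen_cases A hA with h1 | h1
  · rw [h1]; exact Subgroup.one_mem _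
  · obtain ⟨v, c, hv0, hc0, hv, hc, rfl⟩ := su_rank_one hF A h1
    exact (h v hv0 hv).2.2 c hc

/-- plane closure: the isotropic vectors of the plane spanned by two non-orthogonal members. -/
theorem sug_plane (hF : Fintype.card F = q ^ 2) (Φ : Set (Fin n → F)) (hΦ : SugClosed hF Φ)
    (v w : Fin n → F) (hv : v ∈ Φ) (hw : w ∈ Φ) (hvw : Cfsg.hermForm n F q v w ≠ 0)
    (a b : F) (hx0 : a • v + b • w ≠ 0)
    (hx : Cfsg.hermForm n F q (a • v + b • w) (a • v + b • w) = 0) : a • v + b • w ∈ Φ := by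
  have hvv := (hΦ.iso v hv).2
  have hww := (hΦ.iso w hw).2
  by_cases hb : b = 0
  · subst hb
    rw [zero_smul, add_zero] at hx0 ⊢
    have ha : a ≠ 0 := by rintro rfl; simp at hx0
    exact hΦ.smul v hv a ha
  · have hwv : Cfsg.hermForm n F q w v = frobQ hF (Cfsg.hermForm n F q v w) := (uh_conj hF v w).symm
    have hwv0 : Cfsg.hermForm n F q w v ≠ 0 := by
      rw [hwv]; exact fun h => hvw ((ufrob_eq_zero hF).1 h)
    have hfb : frobQ hF b ≠ 0 := fun h => hb ((ufrob_eq_zero hF).1 h)
    -- isotropy: a * conj b * h(v,w) + b * conj a * h(w,v) = 0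
    have hiso : a * frobQ hF b * Cfsg.hermForm n F q v w
        + b * frobQ hF a * Cfsg.hermForm n F q w v = 0 := by
      have := hx
      simp only [uh_add_left, uh_add_right hF, uh_smul_left, uh_smul_right hF, hvv, hww] at this
      linear_combination this
    set c : F := a / (b * Cfsg.hermForm n F q w v) with hcdef
    have hc : frobQ hF c = -c := by
      rw [hcdef, map_div₀, map_mul, hwv, frobQ_frobQ, ← hwv]
      rw [hwv] at hiso hwv0
      have h1 : frobQ hF (Cfsg.hermForm n F q v w) ≠ 0 := hwv0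
      rw [hwv]
      field_simp
      linear_combination hiso
    have h2 := hΦ.tv v hv w hw c hc
    have h3 := hΦ.smul _ h2 b hb
    have : b • (w + (c * Cfsg.hermForm n F q w v) • v) = a • v + b • w := by
      rw [hcdef, smul_add, smul_smul]
      have : b * (a / (b * Cfsg.hermForm n F q w v) * Cfsg.hermForm n F q w v) = a := by
        field_simp
      rw [this, add_comm]
    rwa [this] at h3

end sugdefs

section sugdefs2
variable {F : Type*} [Field F] [Fintype F] {q n : ℕ}

/-- the standard basis vector `ε_i` of `F^n` (zero when `n ≤ i`) -/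
def sugE (F : Type*) [Field F] (n i : ℕ) : Fin n → F := fun j => if j.val = i then 1 else 0

theorem sugE_apply (i : ℕ) (j : Fin n) : sugE F n i j = if j.val = i then 1 else 0 := rfl

theorem sugE_eq (i : ℕ) (h : i < n) : sugE F n i = Pi.single (⟨i, h⟩ : Fin n) (1 : F) := by
  funext j
  rw [sugE_apply, Pi.single_apply]
  by_cases hj : j.val = i
  · rw [if_pos hj, if_pos (Fin.ext hj)]
  · rw [if_neg hj, if_neg (fun h' => hj (congrArg Fin.val h'))]

theorem sug_herm_E_right (hF : Fintype.card F = q ^ 2) (u : Fin n → F) (i : ℕ) (h : i < n) :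
    Cfsg.hermForm n F q u (sugE F n i) = u ⟨i, h⟩ := by
  rw [sugE_eq i h, uh_single_right hF]

theorem sug_herm_E_left (hF : Fintype.card F = q ^ 2) (u : Fin n → F) (i : ℕ) (h : i < n) :
    Cfsg.hermForm n F q (sugE F n i) u = frobQ hF (u ⟨i, h⟩) := by
  rw [sugE_eq i h, uh_single_left hF]

theorem sug_herm_EE (hF : Fintype.card F = q ^ 2) (i j : ℕ) (hi : i < n) (hj : j < n) :
    Cfsg.hermForm n F q (sugE F n i) (sugE F n j) = if i = j then 1 else 0 := by
  rw [sug_herm_E_right hF _ j hj, sugE_apply]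
  by_cases h : i = j
  · rw [if_pos h, if_pos h.symm]
  · rw [if_neg h, if_neg (fun h' => h h'.symm)]

theorem sug_ext_add (k n : ℕ) (x y : Fin k → F) :
    sugExt k n (x + y) = sugExt k n x + sugExt k n y := by
  funext i
  unfold sugExt
  by_cases h : i.val < k
  · simp [h]
  · simp [h]

theorem sug_ext_smul (k n : ℕ) (a : F) (x : Fin k → F) :
    sugExt k n (a • x) = a • sugExt k n x := by
  funext i
  unfold sugExt
  by_cases h : i.val < k
  · simp [h]
  · simp [h]

theorem sug_ext_restr (k n : ℕ) (hk : k ≤ n) (v : Fin n → F)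
    (hv : ∀ i : Fin n, k ≤ i.val → v i = 0) :
    sugExt k n (fun i : Fin k => v ⟨i.val, lt_of_lt_of_le i.isLt hk⟩) = v := by
  funext i
  unfold sugExt
  by_cases h : i.val < k
  · simp [h]
  · simp only [h, dif_neg, not_false_eq_true]
    exact (hv i (not_lt.1 h)).symm

theorem sug_ext_apply_of_le (k n : ℕ) (x : Fin k → F) (i : Fin n) (h : k ≤ i.val) :
    sugExt k n x i = 0 := by
  unfold sugExt
  rw [dif_neg (not_lt.2 h)]

/-- powers act on eigenvectors by powers of the eigenvalue -/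
theorem sug_pow_eig (g : ↥(Cfsg.SU n F q)) (v : Fin n → F) (l : F) (h : uact g v = l • v)
    (k : ℕ) : uact (g ^ k) v = l ^ k • v := by
  induction k with
  | zero => rw [pow_zero, pow_zero, uact_one, one_smul]
  | succ k ih => rw [pow_succ, uact_mul, h, uact_smul, ih, smul_smul, pow_succ, mul_comm]

/-- a unitary transvection has order dividing `q ^ 2` -/
theorem sug_tv_order (hF : Fintype.card F = q ^ 2) (v : Fin n → F) (c : F)
    (hv : Cfsg.hermForm n F q v v = 0) (hc : frobQ hF c = -c) : (utv hF v c) ^ (q ^ 2) = 1 := by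
  rw [Cfsg.Agent.Helper44.PSUn.utv_pow hF v c hv hc (q ^ 2)]
  have h0 : ((q ^ 2 : ℕ) : F) = 0 := by
    rw [← hF]; exact Nat.cast_card_eq_zero F
  rw [nsmul_eq_mul, h0, zero_mul, utv_zero_right]

end sugdefs2

end Cfsg.Agent.Helper65
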