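import Mathlib
import Cfsg.Prelude.Def_GeometricClasses
import Cfsg.Prelude.Def_Classical

set_option autoImplicit false
set_option linter.unusedSectionVars false

/-!
# Definitions for CALL S74 (helper65; row S5974: `PΩ⁺_{2d}(q)` on HYPERBOLIC `m`-spaces, all `q`)

`InvHyp Q x m`: the matrix `x` leaves invariant some hyperbolic `m`-space of the quadratic form `Q`,
written exactly as in the row (one-sided nondegeneracy; a totally singular subspace of dimension
`m / 2`).  `AllHyp Q r m`: every element of order `r` of `PΩ(Q)` (an `x ∈ Ω(Q)` with `x ^ r` scalar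
and `x` not scalar) fixes a hyperbolic `m`-space.  `invHyp_iff`: the bridge to the Prelude notions
`IsNondegenerateOn (polar Q)` / `IsPlusTypeOn Q` used by all the S5992 / S5988 libraries.
-/

namespace Cfsg.Agent.Helper65.S74

open Module Cfsg Cfsg.Geo
open scoped MatrixGroups

variable {ι : Type} [Fintype ι] [DecidableEq ι] {F : Type*} [Field F]

/-- `W` is a hyperbolic `m`-space of `Q` (the wording of row S5974). -/
def HypM (Q : (ι → F) → F) (m : ℕ) (W : Submodule F (ι → F)) : Prop :=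
  Module.finrank F ↥W = m ∧ (∀ u ∈ W, u ≠ 0 → ∃ v ∈ W, QuadraticMap.polar Q u v ≠ 0) ∧
    ∃ U : Submodule F (ι → F), U ≤ W ∧ 2 * Module.finrank F ↥U = m ∧ ∀ u ∈ U, Q u = 0

/-- `x` fixes a hyperbolic `m`-space of `Q`. -/
def InvHyp (Q : (ι → F) → F) (x : Matrix ι ι F) (m : ℕ) : Prop :=
  ∃ W : Submodule F (ι → F),
    (Module.finrank F ↥W = m ∧ (∀ u ∈ W, u ≠ 0 → ∃ v ∈ W, QuadraticMap.polar Q u v ≠ 0) ∧
      ∃ U : Submodule F (ι → F), U ≤ W ∧ 2 * Module.finrank F ↥U = m ∧ ∀ u ∈ U, Q u = 0) ∧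
    W.map (Matrix.toLin' x) ≤ W

/-- every element of order `r` of `PΩ(Q)` fixes a hyperbolic `m`-space. -/
def AllHyp (Q : (ι → F) → F) (r m : ℕ) : Prop :=
  ∀ x : GL ι F, x ∈ Cfsg.Geo.omegaGL Q →
    (∃ z : F, ((x ^ r : GL ι F) : Matrix ι ι F) = z • (1 : Matrix ι ι F)) →
    (∀ z : F, (x : Matrix ι ι F) ≠ z • (1 : Matrix ι ι F)) →
    InvHyp Q (x : Matrix ι ι F) m

/-- bridge: the row's wording is `finrank = m`, Prelude-nondegenerate, Prelude-plus-type. -/
theorem hypM_iff (Q : (ι → F) → F) (m : ℕ) (W : Submodule F (ι → F)) :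
    HypM Q m W ↔ (Module.finrank F ↥W = m ∧ IsNondegenerateOn (QuadraticMap.polar Q) W ∧
      IsPlusTypeOn Q W) := by
  constructor
  · rintro ⟨hdim, hnd, U, hU, hUdim, hts⟩
    refine ⟨hdim, ?_, U, hU, hts, by rw [hUdim, hdim]⟩
    intro w hw hw0
    obtain ⟨v, hv, hwv⟩ := hnd w hw hw0
    exact ⟨⟨v, hv, by rw [QuadraticMap.polar_comm]; exact hwv⟩, ⟨v, hv, hwv⟩⟩
  · rintro ⟨hdim, hnd, U, hU, hts, hUdim⟩
    refine ⟨hdim, ?_, U, hU, by rw [hUdim, hdim], hts⟩
    intro u hu hu0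
    exact (hnd u hu hu0).2

/-- bridge for `InvHyp`. -/
theorem invHyp_iff (Q : (ι → F) → F) (x : Matrix ι ι F) (m : ℕ) :
    InvHyp Q x m ↔ ∃ W : Submodule F (ι → F),
      (Module.finrank F ↥W = m ∧ IsNondegenerateOn (QuadraticMap.polar Q) W ∧
        IsPlusTypeOn Q W) ∧ W.map (Matrix.toLin' x) ≤ W := by
  constructor
  · rintro ⟨W, hW, hinv⟩
    exact ⟨W, (hypM_iff Q m W).mp hW, hinv⟩
  · rintro ⟨W, hW, hinv⟩
    exact ⟨W, (hypM_iff Q m W).mpr hW, hinv⟩

end Cfsg.Agent.Helper65.S74
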