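import Mathlib
import Cfsg.Agent.Helper96.OHDefs
import Cfsg.Agent.Helper31.OHOPERP
import Cfsg.Agent.Helper70.OHONONISO
import Cfsg.Agent.Helper70.OHOPLANES
import Cfsg.Agent.Helper70.OHOSUB
import Cfsg.Agent.Helper31.OHOGROW

set_option autoImplicit false
set_option linter.unusedSectionVars false
set_option linter.unusedVariables false

/-!
# All-characteristic type freedom (helper65, for CALL S88 / row S5988)

`o_planes_all`, `o_sub_all`: the S5992 pieces OPLANES / OSUB without the hypothesis `2 ≠ 0`.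
-/

namespace Cfsg.Agent.Helper65.OHAll

open Module Polynomial Cfsg Cfsg.Geo
open Cfsg.Agent.Helper13.TIu Cfsg.Agent.Helper96.OH

variable {ι : Type} [Fintype ι] [DecidableEq ι] {F : Type*} [Field F] (Q : (ι → F) → F)

/-- a value `γ` with `a s² + s + γ ≠ 0` for all `s` (finite field, `a ≠ 0`). -/
theorem exists_no_root [Finite F] (a : F) (ha : a ≠ 0) :
    ∃ γ : F, ∀ s : F, a * s ^ 2 + s + γ ≠ 0 := by
  by_contra hcon
  push Not at hcon
  have hsurj : Function.Surjective (fun s : F => -(a * s ^ 2 + s)) := by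
    intro γ
    obtain ⟨s, hs⟩ := hcon γ
    exact ⟨s, by
      show -(a * s ^ 2 + s) = γ
      linear_combination -hs⟩
  have hinj := Finite.injective_iff_surjective.mpr hsurj
  have h0 : (fun s : F => -(a * s ^ 2 + s)) 0 = (fun s : F => -(a * s ^ 2 + s)) (-a⁻¹) := by
    show -(a * (0 : F) ^ 2 + 0) = -(a * (-a⁻¹) ^ 2 + -a⁻¹)
    field_simp
    ring
  have h1 := hinj h0
  have h2 : a⁻¹ = 0 := by
    have := congrArg Neg.neg h1
    simpa using this.symm
  exact ha (inv_eq_zero.mp h2)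

/-- OPLANES in every characteristic: a nondegenerate subspace of dimension `≥ 3` contains a
hyperbolic plane and an anisotropic plane. -/
theorem o_planes_all [Fintype F] (hQ : IsNondegenerateQuadraticForm Q)
    (K : Submodule F (ι → F)) (hK : ONd Q K) (hdim : 3 ≤ finrank F K) :
    (∃ H : Submodule F (ι → F), H ≤ K ∧ ONd Q H ∧ finrank F H = 2 ∧ OPl Q H) ∧
    (∃ A : Submodule F (ι → F), A ≤ K ∧ ONd Q A ∧ finrank F A = 2 ∧ ¬ OPl Q A) := by
  classical
  have hsm : ∀ (c : F) (v : ι → F), Q (c • v) = c ^ 2 * Q v := hQ.smul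
  have hadd : ∀ x y : ι → F, Q (x + y) = Q x + Q y + QuadraticMap.polar Q x y := q_add Q
  have pl_add_l : ∀ x y z : ι → F, QuadraticMap.polar Q (x + y) z =
      QuadraticMap.polar Q x z + QuadraticMap.polar Q y z :=
    fun x y z => (pB Q hQ).map_add₂ x y z
  have pl_smul_l : ∀ (c : F) (x z : ι → F), QuadraticMap.polar Q (c • x) z =
      c * QuadraticMap.polar Q x z :=
    fun c x z => (pB Q hQ).map_smul₂ c x z
  have pl_add_r : ∀ x y z : ι → F, QuadraticMap.polar Q x (y + z) =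
      QuadraticMap.polar Q x y + QuadraticMap.polar Q x z :=
    fun x y z => (pB Q hQ x).map_add y z
  have pl_smul_r : ∀ (c : F) (x z : ι → F), QuadraticMap.polar Q x (c • z) =
      c * QuadraticMap.polar Q x z :=
    fun c x z => (pB Q hQ x).map_smul c z
  have pl_comm : ∀ x y : ι → F, QuadraticMap.polar Q x y = QuadraticMap.polar Q y x :=
    fun x y => QuadraticMap.polar_comm Q x y
  have pl_self : ∀ x : ι → F, QuadraticMap.polar Q x x = 2 * Q x := fun x => pB_self Q hQ x
  have hQ0 : Q 0 = 0 := q_zero Q hQ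
  have hz : ∀ v : ι → F, QuadraticMap.polar Q 0 v = 0 := fun v => by
    have := pl_smul_l 0 0 v
    simpa using this
  -- singular vector and hyperbolic pair
  obtain ⟨u', hu'0, hu'Q⟩ := Cfsg.Agent.Helper43.exists_singular
    (Cfsg.Agent.Helper33.OType.restr Q hQ K) hdim
  obtain ⟨w', hw'Q, hpol⟩ := Cfsg.Agent.Helper43.exists_hyperbolic_pair
    (Cfsg.Agent.Helper33.OType.restr Q hQ K)
    (Cfsg.Agent.Helper33.OType.polarNondeg_restr Q hQ K hK) hu'0 hu'Q
  obtain ⟨u, hu⟩ := u'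
  obtain ⟨w, hw⟩ := w'
  have hu0 : u ≠ 0 := fun h => hu'0 (Subtype.ext h)
  have hQu : Q u = 0 := hu'Q
  have hQw : Q w = 0 := hw'Q
  have hp : QuadraticMap.polar Q u w = 1 := hpol
  have hpuu : QuadraticMap.polar Q u u = 0 := by rw [pl_self, hQu, mul_zero]
  have hpww : QuadraticMap.polar Q w w = 0 := by rw [pl_self, hQw, mul_zero]
  have hpwu : QuadraticMap.polar Q w u = 1 := by rw [pl_comm, hp]
  have hQH : ∀ x s : F, Q (x • u + s • w) = x * s := by
    intro x s
    rw [hadd, hsm, hsm, hQu, hQw, pl_smul_l, pl_smul_r, hp]; ring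
  -- H
  obtain ⟨H, hHdef⟩ : ∃ H : Submodule F (ι → F), H = Submodule.span F {u, w} := ⟨_, rfl⟩
  have huH : u ∈ H := by rw [hHdef]; exact Submodule.subset_span (by simp)
  have hwH : w ∈ H := by rw [hHdef]; exact Submodule.subset_span (by simp)
  have hHK : H ≤ K := by
    rw [hHdef, Submodule.span_le]
    intro x hx
    rcases hx with rfl | rfl
    · exact hu
    · exact hw
  have hpolH_u : ∀ x s : F, QuadraticMap.polar Q (x • u + s • w) u = s := by
    intro x s
    rw [pl_add_l, pl_smul_l, pl_smul_l, hpuu, hpwu]; ring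
  have hpolH_w : ∀ x s : F, QuadraticMap.polar Q (x • u + s • w) w = x := by
    intro x s
    rw [pl_add_l, pl_smul_l, pl_smul_l, hp, hpww]; ring
  have hHdim : finrank F H = 2 := by
    rw [hHdef]
    apply Cfsg.Agent.Helper70.OH5992.oh_finrank_span_pair
    intro x s hxs
    have h1 := hpolH_u x s
    have h2' := hpolH_w x s
    rw [hxs, hz] at h1 h2'
    exact ⟨h2'.symm, h1.symm⟩
  have hHnd : ONd Q H := by
    intro v hv hv0
    rw [hHdef] at hv
    obtain ⟨x, s, rfl⟩ := Submodule.mem_span_pair.mp hv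
    have hx : x ≠ 0 ∨ s ≠ 0 := by
      by_contra hcon
      push Not at hcon
      apply hv0
      rw [hcon.1, hcon.2]; simp
    rcases hx with hx | hs
    · exact ⟨⟨w, hwH, by rw [pl_comm, hpolH_w]; exact hx⟩, ⟨w, hwH, by rw [hpolH_w]; exact hx⟩⟩
    · exact ⟨⟨u, huH, by rw [pl_comm, hpolH_u]; exact hs⟩, ⟨u, huH, by rw [hpolH_u]; exact hs⟩⟩
  have hHpl : OPl Q H := by
    refine ⟨Submodule.span F {u}, ?_, ?_, ?_⟩
    · rw [Submodule.span_le]
      intro x hx
      rw [Set.mem_singleton_iff] at hx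
      rw [hx]; exact huH
    · intro v hv
      obtain ⟨c, rfl⟩ := Submodule.mem_span_singleton.mp hv
      rw [hsm, hQu, mul_zero]
    · rw [finrank_span_singleton hu0, hHdim]
  refine ⟨⟨H, hHK, hHnd, hHdim, hHpl⟩, ?_⟩
  -- the perp of H in K
  obtain ⟨P, hPK, -, hPnd, hHP, hsup, horth, -, hPdim⟩ :=
    Cfsg.Agent.Helper73.TI5954.u_perp (pB Q hQ) id2 ⟨fun x y => pB_comm Q hQ x y⟩
      (1 : Module.End F (ι → F))
      (upres_of Q hQ 1 (opres_one Q)) 1 one_pos (pow_one 1) K H ((und_iff Q hQ K).mpr hK)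
      ((und_iff Q hQ H).mpr hHnd) hHK (by rw [Module.End.one_eq_id, Submodule.map_id])
      (by rw [Module.End.one_eq_id, Submodule.map_id])
  have hP0 : P ≠ ⊥ := by
    intro h
    rw [h, finrank_bot] at hPdim
    omega
  have hPnd' : ONd Q P := (und_iff Q hQ P).mp hPnd
  obtain ⟨z, hzP, hQz⟩ := Cfsg.Agent.Helper70.OH5992.o_noniso Q hQ P hPnd' hP0
  have hz0 : z ≠ 0 := by
    rintro rfl
    exact hQz hQ0
  have hpuz : QuadraticMap.polar Q u z = 0 := horth u huH z hzP
  have hpwz : QuadraticMap.polar Q w z = 0 := horth w hwH z hzP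
  -- a partner of z inside P
  obtain ⟨-, x₁, hx₁P, hx₁⟩ := hPnd' z hzP hz0
  obtain ⟨z₁, hz₁def⟩ : ∃ z₁ : ι → F, z₁ = (QuadraticMap.polar Q z x₁)⁻¹ • x₁ := ⟨_, rfl⟩
  have hz₁P : z₁ ∈ P := by rw [hz₁def]; exact P.smul_mem _ hx₁P
  have hpzz₁ : QuadraticMap.polar Q z z₁ = 1 := by
    rw [hz₁def, pl_smul_r, inv_mul_cancel₀ hx₁]
  have hpuz₁ : QuadraticMap.polar Q u z₁ = 0 := horth u huH z₁ hz₁P
  have hpwz₁ : QuadraticMap.polar Q w z₁ = 0 := horth w hwH z₁ hz₁P
  obtain ⟨a, ha⟩ : ∃ a : F, a = Q z := ⟨_, rfl⟩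
  rw [← ha] at hQz
  obtain ⟨γ, hγ⟩ := exists_no_root a hQz
  obtain ⟨y, hy⟩ : ∃ y : ι → F, y = z₁ + (u + (γ - Q z₁) • w) := ⟨_, rfl⟩
  have hyK : y ∈ K := by
    rw [hy]
    exact K.add_mem (hPK hz₁P) (K.add_mem hu (K.smul_mem _ hw))
  have hQuw : Q (u + (γ - Q z₁) • w) = γ - Q z₁ := by
    have := hQH 1 (γ - Q z₁)
    rw [one_smul, one_mul] at this
    exact this
  have hQy : Q y = γ := by
    rw [hy, hadd, hQuw, pl_add_r, pl_smul_r, pl_comm z₁ u, pl_comm z₁ w, hpuz₁, hpwz₁]; ring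
  have hpzy : QuadraticMap.polar Q z y = 1 := by
    rw [hy, pl_add_r, pl_add_r, pl_smul_r, pl_comm z u, pl_comm z w, hpuz, hpwz, hpzz₁]; ring
  have hpyz : QuadraticMap.polar Q y z = 1 := by rw [pl_comm, hpzy]
  have hQA : ∀ x s : F, Q (x • z + s • y) = a * x ^ 2 + x * s + γ * s ^ 2 := by
    intro x s
    rw [hadd, hsm, hsm, hQy, pl_smul_l, pl_smul_r, hpzy, ← ha]; ring
  have haniso : ∀ x s : F, Q (x • z + s • y) = 0 → x = 0 ∧ s = 0 := by
    intro x s h
    rw [hQA] at h
    have hs : s = 0 := by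
      by_contra hs
      apply hγ (x / s)
      field_simp
      linear_combination h
    subst hs
    have h5 : a * x ^ 2 = 0 := by linear_combination h
    rcases mul_eq_zero.mp h5 with h6 | h6
    · exact absurd h6 hQz
    · exact ⟨(pow_eq_zero_iff two_ne_zero).mp h6, rfl⟩
  obtain ⟨A, hAdef⟩ : ∃ A : Submodule F (ι → F), A = Submodule.span F {z, y} := ⟨_, rfl⟩
  have hzA : z ∈ A := by rw [hAdef]; exact Submodule.subset_span (by simp)
  have hyA : y ∈ A := by rw [hAdef]; exact Submodule.subset_span (by simp)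
  have hAK : A ≤ K := by
    rw [hAdef, Submodule.span_le]
    intro x hx
    rcases hx with rfl | rfl
    · exact hPK hzP
    · exact hyK
  have hAdim : finrank F A = 2 := by
    rw [hAdef]
    apply Cfsg.Agent.Helper70.OH5992.oh_finrank_span_pair
    intro x s hxs
    apply haniso
    rw [hxs, hQ0]
  have hAan : ∀ v ∈ A, v ≠ 0 → Q v ≠ 0 := by
    intro v hv hv0 hQv
    rw [hAdef] at hv
    obtain ⟨x, s, rfl⟩ := Submodule.mem_span_pair.mp hv
    obtain ⟨rfl, rfl⟩ := haniso x s hQv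
    apply hv0; simp
  -- polar values against z and y
  have hpolA_z : ∀ x s : F, QuadraticMap.polar Q (x • z + s • y) z = 2 * a * x + s := by
    intro x s
    rw [pl_add_l, pl_smul_l, pl_smul_l, pl_self, hpyz, ← ha]; ring
  have hpolA_y : ∀ x s : F, QuadraticMap.polar Q (x • z + s • y) y = x + 2 * γ * s := by
    intro x s
    rw [pl_add_l, pl_smul_l, pl_smul_l, pl_self, hpzy, hQy]; ring
  have hrad : ∀ x s : F, 2 * a * x + s = 0 → x + 2 * γ * s = 0 → x = 0 ∧ s = 0 := by
    intro x s h1 h2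
    have hx : x = 0 := by
      by_contra hx
      have hs : s = -(2 * a * x) := by linear_combination h1
      have h4 : x * (1 - 4 * a * γ) = 0 := by rw [hs] at h2; linear_combination h2
      have h5 : 4 * a * γ = 1 := by
        rcases mul_eq_zero.mp h4 with h | h
        · exact absurd h hx
        · linear_combination -h
      have h2a : 2 * a ≠ 0 := by
        intro h
        have : (4 : F) * a * γ = 0 := by
          have : (4 : F) * a * γ = 2 * (2 * a) * γ := by ring
          rw [this, h]; ring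
        rw [this] at h5
        exact zero_ne_one h5
      have ht : 2 * a * (2 * a)⁻¹ = 1 := mul_inv_cancel₀ h2a
      have h4a : (4 : F) * a ≠ 0 := by
        intro h
        apply h2a
        have h22 : (2 : F) * (2 * a) = 0 := by linear_combination h
        rcases mul_eq_zero.mp h22 with h | h
        · rw [h, zero_mul]
        · exact h
      have key : 4 * a * (a * (-(2 * a)⁻¹) ^ 2 + -(2 * a)⁻¹ + γ) = 0 := by
        linear_combination (2 * a * (2 * a)⁻¹ - 1) * ht + h5
      exact hγ (-(2 * a)⁻¹) ((mul_eq_zero.mp key).resolve_left h4a)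
    subst hx
    refine ⟨rfl, ?_⟩
    linear_combination h1
  have hAnd : ONd Q A := by
    intro v hv hv0
    have hv' := hv
    rw [hAdef] at hv'
    obtain ⟨x, s, rfl⟩ := Submodule.mem_span_pair.mp hv'
    by_cases h1 : QuadraticMap.polar Q (x • z + s • y) z = 0
    · have h2 : QuadraticMap.polar Q (x • z + s • y) y ≠ 0 := by
        intro h2
        rw [hpolA_z] at h1
        rw [hpolA_y] at h2
        obtain ⟨rfl, rfl⟩ := hrad x s h1 h2
        apply hv0; simp
      exact ⟨⟨y, hyA, by rw [pl_comm]; exact h2⟩, ⟨y, hyA, h2⟩⟩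
    · exact ⟨⟨z, hzA, by rw [pl_comm]; exact h1⟩, ⟨z, hzA, h1⟩⟩
  refine ⟨A, hAK, hAnd, hAdim, ?_⟩
  rintro ⟨U, hUA, hts, hd⟩
  have hU1 : finrank F U = 1 := by omega
  have hU0 : U ≠ ⊥ := by
    intro h
    rw [h, finrank_bot] at hU1
    omega
  obtain ⟨v, hv, hv0⟩ := (Submodule.ne_bot_iff U).mp hU0
  exact hAan v (hUA hv) hv0 (hts v hv)

/-- characteristic 2: a nonzero nondegenerate subspace contains a nondegenerate plane. -/
theorem o_plane_char2 (hQ : IsNondegenerateQuadraticForm Q) (h2 : (2 : F) = 0)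
    (N : Submodule F (ι → F)) (hN : ONd Q N) (hN0 : N ≠ ⊥) :
    ∃ E : Submodule F (ι → F), E ≤ N ∧ ONd Q E ∧ finrank F E = 2 := by
  classical
  have pl_add_l : ∀ x y z : ι → F, QuadraticMap.polar Q (x + y) z =
      QuadraticMap.polar Q x z + QuadraticMap.polar Q y z :=
    fun x y z => (pB Q hQ).map_add₂ x y z
  have pl_smul_l : ∀ (c : F) (x z : ι → F), QuadraticMap.polar Q (c • x) z =
      c * QuadraticMap.polar Q x z :=
    fun c x z => (pB Q hQ).map_smul₂ c x z
  have pl_comm : ∀ x y : ι → F, QuadraticMap.polar Q x y = QuadraticMap.polar Q y x :=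
    fun x y => QuadraticMap.polar_comm Q x y
  have pl_self : ∀ x : ι → F, QuadraticMap.polar Q x x = 0 := fun x => by
    have h := pB_self Q hQ x
    rw [pB_apply, h2, zero_mul] at h
    exact h
  have hz : ∀ v : ι → F, QuadraticMap.polar Q 0 v = 0 := fun v => by
    have := pl_smul_l 0 0 v
    simpa using this
  obtain ⟨z, hzN, hz0⟩ := (Submodule.ne_bot_iff N).mp hN0
  obtain ⟨-, x, hxN, hzx⟩ := hN z hzN hz0
  have hxz : QuadraticMap.polar Q x z ≠ 0 := by rw [pl_comm]; exact hzx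
  have hpol_z : ∀ α β : F, QuadraticMap.polar Q (α • z + β • x) z =
      β * QuadraticMap.polar Q x z := by
    intro α β
    rw [pl_add_l, pl_smul_l, pl_smul_l, pl_self]; ring
  have hpol_x : ∀ α β : F, QuadraticMap.polar Q (α • z + β • x) x =
      α * QuadraticMap.polar Q z x := by
    intro α β
    rw [pl_add_l, pl_smul_l, pl_smul_l, pl_self]; ring
  obtain ⟨E, hEdef⟩ : ∃ E : Submodule F (ι → F), E = Submodule.span F {z, x} := ⟨_, rfl⟩
  have hzE : z ∈ E := by rw [hEdef]; exact Submodule.subset_span (by simp)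
  have hxE : x ∈ E := by rw [hEdef]; exact Submodule.subset_span (by simp)
  refine ⟨E, ?_, ?_, ?_⟩
  · rw [hEdef, Submodule.span_le]
    intro v hv
    rcases hv with rfl | rfl
    · exact hzN
    · exact hxN
  · intro v hv hv0
    have hv' := hv
    rw [hEdef] at hv'
    obtain ⟨α, β, rfl⟩ := Submodule.mem_span_pair.mp hv'
    by_cases hβ : β = 0
    · have hα : α ≠ 0 := by
        rintro rfl
        apply hv0
        rw [hβ]; simp
      have h1 : QuadraticMap.polar Q (α • z + β • x) x ≠ 0 := by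
        rw [hpol_x]
        exact mul_ne_zero hα hzx
      exact ⟨⟨x, hxE, by rw [pl_comm]; exact h1⟩, ⟨x, hxE, h1⟩⟩
    · have h1 : QuadraticMap.polar Q (α • z + β • x) z ≠ 0 := by
        rw [hpol_z]
        exact mul_ne_zero hβ hxz
      exact ⟨⟨z, hzE, by rw [pl_comm]; exact h1⟩, ⟨z, hzE, h1⟩⟩
  · rw [hEdef]
    apply Cfsg.Agent.Helper70.OH5992.oh_finrank_span_pair
    intro α β hαβ
    have h1 := hpol_z α β
    have h2' := hpol_x α β
    rw [hαβ, hz] at h1 h2'
    refine ⟨?_, ?_⟩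
    · rcases mul_eq_zero.mp h2'.symm with h | h
      · exact h
      · exact absurd h hzx
    · rcases mul_eq_zero.mp h1.symm with h | h
      · exact h
      · exact absurd h hxz

/-- characteristic 2: nondegenerate subspaces of every even dimension. -/
theorem o_exists_nd_even2 (hQ : IsNondegenerateQuadraticForm Q) (h2 : (2 : F) = 0)
    (E : Submodule F (ι → F)) (hE : ONd Q E) (k : ℕ) (hk : 2 * k ≤ finrank F E) :
    ∃ W : Submodule F (ι → F), W ≤ E ∧ ONd Q W ∧ finrank F W = 2 * k := by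
  have hmap : ∀ N : Submodule F (ι → F), N.map (1 : Module.End F (ι → F)) ≤ N := by
    rintro N _ ⟨v, hv, rfl⟩
    simpa using hv
  obtain ⟨W, hWE, -, hWnd, hWdim⟩ := Cfsg.Agent.Helper31.OH5992.o_grow Q hQ 1 (opres_one Q) 1
    Nat.one_pos (pow_one 1) 2 (by norm_num) E
    (fun N hNE _ hNnd hN0 => by
      obtain ⟨P, hPN, hPnd, hPdim⟩ := o_plane_char2 Q hQ h2 N hNnd hN0
      exact ⟨P, hPN, hmap P, hPnd, hPdim⟩)
    E le_rfl (hmap E) hE k hk
  exact ⟨W, hWE, hWnd, hWdim⟩

/-- OSUB in every characteristic: type freedom. -/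
theorem o_sub_all [Fintype F] (hQ : IsNondegenerateQuadraticForm Q)
    (K : Submodule F (ι → F)) (hK : ONd Q K) (e : ℕ) (hev : Even e) (he0 : 0 < e)
    (heK : e < finrank F K) (b : Prop) :
    ∃ X : Submodule F (ι → F), X ≤ K ∧ ONd Q X ∧ finrank F X = e ∧ (OPl Q X ↔ b) := by
  classical
  by_cases h2 : (2 : F) = 0
  · obtain ⟨k, hk⟩ := hev
    have he2 : 2 ≤ e := by omega
    obtain ⟨X₀, hX₀K, hX₀nd, hX₀dim⟩ := o_exists_nd_even2 Q hQ h2 K hK (k - 1) (by omega)
    obtain ⟨K₁, hK₁K, -, hK₁nd, hinf, hsup, horth, hdim⟩ :=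
      Cfsg.Agent.Helper31.OH5992.o_perp Q hQ (1 : Module.End F (ι → F)) (opres_one Q) 1 one_pos
        (pow_one 1) K X₀ hK hX₀nd hX₀K
        (by rw [Module.End.one_eq_id, Submodule.map_id])
        (by rw [Module.End.one_eq_id, Submodule.map_id])
    have hK₁3 : 3 ≤ finrank F K₁ := by omega
    obtain ⟨⟨H, hHK₁, hHnd, hHdim, hHpl⟩, ⟨A, hAK₁, hAnd, hAdim, hApl⟩⟩ :=
      o_planes_all Q hQ K₁ hK₁nd hK₁3
    have hX₀ev : Even (finrank F X₀) := by rw [hX₀dim]; exact ⟨k - 1, by omega⟩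
    by_cases hb : (OPl Q X₀ ↔ b)
    · have horthH : OOrth Q X₀ H := fun u hu v hv => horth u hu v (hHK₁ hv)
      refine ⟨X₀ ⊔ H, sup_le hX₀K (hHK₁.trans hK₁K),
        Cfsg.Agent.Helper33.OType.nondeg_sup Q hQ X₀ H hX₀nd hHnd horthH, ?_, ?_⟩
      · rw [Cfsg.Agent.Helper33.OType.finrank_sup_of_orth Q X₀ H hX₀nd horthH, hX₀dim, hHdim]
        omega
      · refine Iff.trans (Cfsg.Agent.Helper33.o_type_mul Q hQ X₀ H hX₀nd hHnd horthH hX₀ev
          (by rw [hHdim]; exact even_two)) ?_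
        constructor
        · intro h; exact hb.mp (h.mpr hHpl)
        · intro hb'; exact ⟨fun _ => hHpl, fun _ => hb.mpr hb'⟩
    · have horthA : OOrth Q X₀ A := fun u hu v hv => horth u hu v (hAK₁ hv)
      refine ⟨X₀ ⊔ A, sup_le hX₀K (hAK₁.trans hK₁K),
        Cfsg.Agent.Helper33.OType.nondeg_sup Q hQ X₀ A hX₀nd hAnd horthA, ?_, ?_⟩
      · rw [Cfsg.Agent.Helper33.OType.finrank_sup_of_orth Q X₀ A hX₀nd horthA, hX₀dim, hAdim]
        omega
      · refine Iff.trans (Cfsg.Agent.Helper33.o_type_mul Q hQ X₀ A hX₀nd hAnd horthA hX₀ev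
          (by rw [hAdim]; exact even_two)) ?_
        constructor
        · intro h
          by_contra hnb
          apply hb
          constructor
          · intro hX; exact absurd (h.mp hX) hApl
          · intro hb'; exact absurd hb' hnb
        · intro hb'
          constructor
          · intro hX; exact absurd ⟨fun _ => hb', fun _ => hX⟩ hb
          · intro hA; exact absurd hA hApl
  · exact Cfsg.Agent.Helper70.OH5992.o_sub Q hQ h2 K hK e hev he0 heK b

end Cfsg.Agent.Helper65.OHAll
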