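import Mathlib
import Cfsg.Prelude.Def_KGroupFacts

set_option autoImplicit false

namespace Cfsg.Agent.Helper65

open Subgroup
open scoped commutatorElement

/-- A homomorphism from a perfect group with pairwise commuting values is trivial. -/
theorem eq_one_of_perfect_of_commute {G H : Type*} [Group G] [Group H] (hG : commutator G = ⊤)
    (f : G →* H) (hf : ∀ a b : G, f a * f b = f b * f a) (g : G) : f g = 1 := by
  have hker : commutator G ≤ f.ker := by
    rw [commutator_def, Subgroup.commutator_le]
    intro a _ b _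
    rw [MonoidHom.mem_ker, commutatorElement_def]
    simp only [map_mul, map_inv]
    rw [hf a b]
    group
  have : g ∈ f.ker := hker (hG ▸ Subgroup.mem_top g)
  exact this

/-- A map `d : G → H` into a commutative set of values which is "multiplicative" is trivial on a
perfect group: packaged version for maps given as functions with central values. -/
theorem eq_one_of_perfect_of_central {G H : Type*} [Group G] [Group H] (hG : commutator G = ⊤)
    (d : G → H) (hmul : ∀ a b : G, d (a * b) = d a * d b)
    (hcomm : ∀ a b : G, d a * d b = d b * d a) (g : G) : d g = 1 := by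
  have h1 : d 1 = 1 := by
    have := hmul 1 1
    rw [mul_one] at this
    exact (mul_eq_left.mp this.symm)
  exact eq_one_of_perfect_of_commute hG
    { toFun := d, map_one' := h1, map_mul' := hmul } hcomm g

/-- In a perfect group, an element all of whose commutators are central is central. -/
theorem mem_center_of_perfect {G : Type*} [Group G] (hG : commutator G = ⊤) (x : G)
    (hx : ∀ g : G, x * g * x⁻¹ * g⁻¹ ∈ Subgroup.center G) : x ∈ Subgroup.center G := by
  have hmul : ∀ a b : G, x * (a * b) * x⁻¹ * (a * b)⁻¹ =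
      (x * a * x⁻¹ * a⁻¹) * (x * b * x⁻¹ * b⁻¹) := by
    intro a b
    have hb := Subgroup.mem_center_iff.mp (hx b) a⁻¹
    have : x * (a * b) * x⁻¹ * (a * b)⁻¹ = x * a * x⁻¹ * ((x * b * x⁻¹ * b⁻¹) * a⁻¹) := by group
    rw [this, ← hb]
    group
  have hcomm : ∀ a b : G, (x * a * x⁻¹ * a⁻¹) * (x * b * x⁻¹ * b⁻¹) =
      (x * b * x⁻¹ * b⁻¹) * (x * a * x⁻¹ * a⁻¹) := by
    intro a b
    exact (Subgroup.mem_center_iff.mp (hx a) _).symm
  rw [Subgroup.mem_center_iff]
  intro h
  have h1 := eq_one_of_perfect_of_central hG (fun g => x * g * x⁻¹ * g⁻¹) hmul hcomm h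
  have h2 : x * h * x⁻¹ * h⁻¹ * h * x = 1 * h * x := by rw [h1]
  have : x * h = h * x := by simpa using h2
  exact this.symm

/-- Commutators only depend on the factors modulo the centre. -/
theorem commutatorElement_eq_of_central {P : Type*} [Group P] {a a' b b' : P}
    (hza : a'⁻¹ * a ∈ Subgroup.center P) (hzb : b'⁻¹ * b ∈ Subgroup.center P) :
    ⁅a, b⁆ = ⁅a', b'⁆ := by
  have ha := Subgroup.mem_center_iff.mp hza
  have hb := Subgroup.mem_center_iff.mp hzb
  set za := a'⁻¹ * a with hza'
  set zb := b'⁻¹ * b with hzb'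
  have ea : a = a' * za := by rw [hza']; group
  have eb : b = b' * zb := by rw [hzb']; group
  rw [commutatorElement_def, commutatorElement_def]
  have e1 : za * (b' * zb) = (b' * zb) * za := (ha _).symm
  have e2 : zb * a'⁻¹ = a'⁻¹ * zb := (hb _).symm
  calc a * b * a⁻¹ * b⁻¹ = a' * za * (b' * zb) * (a' * za)⁻¹ * (b' * zb)⁻¹ := by rw [← ea, ← eb]
    _ = a' * (za * (b' * zb)) * za⁻¹ * a'⁻¹ * zb⁻¹ * b'⁻¹ := by group
    _ = a' * (b' * zb * za) * za⁻¹ * a'⁻¹ * zb⁻¹ * b'⁻¹ := by rw [e1]
    _ = a' * b' * (zb * a'⁻¹) * zb⁻¹ * b'⁻¹ := by group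
    _ = a' * b' * (a'⁻¹ * zb) * zb⁻¹ * b'⁻¹ := by rw [e2]
    _ = a' * b' * a'⁻¹ * b'⁻¹ := by group

/-- If `f : P →* G` has central kernel and `G` is finite, then the commutator subgroup of `P` is
finite (Schur). -/
theorem finite_commutator_of_central_ker {P G : Type*} [Group P] [Group G] [Finite G] (f : P →* G)
    (hf : f.ker ≤ Subgroup.center P) : Finite (commutator P) := by
  classical
  let s : G → P := fun g => if h : ∃ a, f a = g then h.choose else 1
  have hs : ∀ a : P, f (s (f a)) = f a := by
    intro a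
    have h : ∃ a', f a' = f a := ⟨a, rfl⟩
    simp only [s, dif_pos h]
    exact h.choose_spec
  have hz : ∀ a : P, (s (f a))⁻¹ * a ∈ Subgroup.center P := by
    intro a
    apply hf
    rw [MonoidHom.mem_ker, map_mul, map_inv, hs, inv_mul_cancel]
  have hsub : commutatorSet P ⊆ Set.range (fun p : G × G => ⁅s p.1, s p.2⁆) := by
    rintro _ ⟨a, b, rfl⟩
    exact ⟨(f a, f b), (commutatorElement_eq_of_central (hz a) (hz b)).symm⟩
  have hfin : Finite (commutatorSet P) := (Set.finite_range _).subset hsub
  infer_instance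

end Cfsg.Agent.Helper65
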