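import Mathlib
import Cfsg.Prelude.Def_KGroupFacts
import Cfsg.Agent.Helper65.Central

set_option autoImplicit false

namespace Cfsg.Agent.Helper65

open Subgroup
open scoped commutatorElement

/-- The kernel of a homomorphism from an abelian group to a free abelian group of finite rank
has a complement. -/
theorem exists_addSubgroup_complement_ker {B L : Type*} [AddCommGroup B] [AddCommGroup L]
    [Module.Free ℤ L] [Module.Finite ℤ L] (f : B →+ L) :
    ∃ S : AddSubgroup B, S ⊓ f.ker = ⊥ ∧ S ⊔ f.ker = ⊤ := by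
  classical
  let fl : B →ₗ[ℤ] L := f.toIntLinearMap
  let b := Module.Free.chooseBasis ℤ L
  obtain ⟨n, ⟨bN⟩⟩ := Submodule.nonempty_basis_of_pid b (LinearMap.range fl)
  have : Module.Free ℤ (LinearMap.range fl) := Module.Free.of_basis bN
  obtain ⟨h, hh⟩ := Module.projective_lifting_property fl.rangeRestrict LinearMap.id
    (LinearMap.surjective_rangeRestrict fl)
  have hh' : ∀ y : LinearMap.range fl, f (h y) = (y : L) := by
    intro y
    have := congrArg (fun g => ((g y : LinearMap.range fl) : L)) hh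
    exact this
  refine ⟨(LinearMap.range h).toAddSubgroup, ?_, ?_⟩
  · rw [eq_bot_iff]
    rintro x ⟨⟨y, rfl⟩, hx⟩
    have h0 : f (h y) = 0 := hx
    rw [hh'] at h0
    have : y = 0 := Subtype.ext h0
    rw [this, map_zero]
    exact AddSubgroup.zero_mem _
  · rw [eq_top_iff]
    intro x _
    have hx : x = h (fl.rangeRestrict x) + (x - h (fl.rangeRestrict x)) := by abel
    rw [hx]
    have h1 : h (fl.rangeRestrict x) ∈ (LinearMap.range h).toAddSubgroup := ⟨_, rfl⟩
    have h2 : x - h (fl.rangeRestrict x) ∈ f.ker := by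
      rw [AddMonoidHom.mem_ker, map_sub, hh']
      exact sub_self _
    exact AddSubgroup.add_mem _ (AddSubgroup.mem_sup_left h1) (AddSubgroup.mem_sup_right h2)

/-- Multiplicative version: for a central subgroup `N₀` of a group `E` and a homomorphism `lam` from
`E` to an abelian group embedding additively in a free abelian group of finite rank, the subgroup
`N₀ ⊓ lam.ker` has a complement in `N₀`. -/
theorem exists_subgroup_complement_ker {E A L : Type*} [Group E] [CommGroup A] [AddCommGroup L]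
    [Module.Free ℤ L] [Module.Finite ℤ L] (lam : E →* A) (e : Additive A →+ L)
    (he : Function.Injective e) (N₀ : Subgroup E) (hN₀ : N₀ ≤ Subgroup.center E) :
    ∃ S : Subgroup E, S ≤ N₀ ∧ S ⊓ lam.ker = ⊥ ∧ S ⊔ (N₀ ⊓ lam.ker) = N₀ := by
  let cg : CommGroup N₀ :=
    { (inferInstance : Group N₀) with
      mul_comm := fun a b => Subtype.ext ((Subgroup.mem_center_iff.mp (hN₀ b.2) a)) }
  let f : Additive N₀ →+ L := e.comp (MonoidHom.toAdditive (lam.comp N₀.subtype))
  have hf : ∀ y : N₀, f (Additive.ofMul y) = e (Additive.ofMul (lam (y : E))) := fun y => rfl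
  obtain ⟨S₀, hS1, hS2⟩ := exists_addSubgroup_complement_ker f
  let S₁ : Subgroup N₀ :=
    { carrier := {x | Additive.ofMul x ∈ S₀}
      mul_mem' := fun {a b} ha hb => S₀.add_mem ha hb
      one_mem' := S₀.zero_mem
      inv_mem' := fun {a} ha => S₀.neg_mem ha }
  have hS₁ : ∀ y : N₀, y ∈ S₁ ↔ Additive.ofMul y ∈ S₀ := fun y => Iff.rfl
  refine ⟨S₁.map N₀.subtype, Subgroup.map_subtype_le _, ?_, ?_⟩
  · rw [eq_bot_iff]
    rintro x ⟨⟨y, hy, rfl⟩, hx⟩
    have hker : Additive.ofMul y ∈ f.ker := by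
      rw [AddMonoidHom.mem_ker, hf]
      have : lam (y : E) = 1 := hx
      rw [this]; exact map_zero e
    have hmem : Additive.ofMul y ∈ S₀ ⊓ f.ker := ⟨(hS₁ y).mp hy, hker⟩
    rw [hS1] at hmem
    have hy1 : y = 1 := hmem
    rw [hy1]
    exact Subgroup.one_mem _
  · apply le_antisymm
    · exact sup_le (Subgroup.map_subtype_le _) inf_le_left
    · intro x hx
      have hmem : Additive.ofMul (⟨x, hx⟩ : N₀) ∈ S₀ ⊔ f.ker := by rw [hS2]; trivial
      obtain ⟨a, ha, b, hb, hab⟩ := AddSubgroup.mem_sup.mp hmem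
      have hx' : x = ((Additive.toMul a : N₀) : E) * ((Additive.toMul b : N₀) : E) := by
        have := congrArg (fun t : Additive N₀ => ((Additive.toMul t : N₀) : E)) hab
        exact this.symm
      rw [hx']
      refine Subgroup.mul_mem _ (Subgroup.mem_sup_left ⟨Additive.toMul a, ha, rfl⟩)
        (Subgroup.mem_sup_right ⟨(Additive.toMul b).2, ?_⟩)
      show lam ((Additive.toMul b : N₀) : E) = 1
      have hb' : f b = 0 := hb
      have hb2 : e (Additive.ofMul (lam ((Additive.toMul b : N₀) : E))) = 0 := hb'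
      have hb3 := he (hb2.trans (map_zero e).symm)
      exact hb3

/-- If `f : P →* G` has central kernel and every value of `f` is attained on the commutator
subgroup, then the commutator subgroup of `P` is perfect. -/
theorem commutator_commutator_eq_top_of_central {P G : Type*} [Group P] [Group G] (f : P →* G)
    (hf : f.ker ≤ Subgroup.center P) (hsurj : ∀ g : P, ∃ d ∈ commutator P, f d = f g) :
    commutator (commutator P) = ⊤ := by
  have hle : commutator P ≤ (commutator (commutator P)).map (commutator P).subtype := by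
    rw [commutator_def, Subgroup.commutator_le]
    intro a _ b _
    obtain ⟨a', ha', hfa⟩ := hsurj a
    obtain ⟨b', hb', hfb⟩ := hsurj b
    have hza : a'⁻¹ * a ∈ Subgroup.center P := by
      apply hf
      rw [MonoidHom.mem_ker, map_mul, map_inv, hfa, inv_mul_cancel]
    have hzb : b'⁻¹ * b ∈ Subgroup.center P := by
      apply hf
      rw [MonoidHom.mem_ker, map_mul, map_inv, hfb, inv_mul_cancel]
    refine ⟨(⁅(⟨a', ha'⟩ : commutator P), (⟨b', hb'⟩ : commutator P)⁆ : commutator P), ?_, ?_⟩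
    · exact Subgroup.commutator_mem_commutator (Subgroup.mem_top _) (Subgroup.mem_top _)
    · rw [commutatorElement_eq_of_central hza hzb]
      simp [commutatorElement_def]
  rw [eq_top_iff]
  intro d _
  obtain ⟨e, he, hed⟩ := hle d.2
  have : e = d := Subtype.ext hed
  rw [← this]; exact he

section Hopf

universe w u

variable {α : Type w} {Q : Type u} [Group Q] (φ : FreeGroup α →* Q)

/-- The subgroup `[F, R]` of the free group `F`, where `R` is the kernel of `φ`. -/
def hopfC : Subgroup (FreeGroup α) := ⁅(⊤ : Subgroup (FreeGroup α)), φ.ker⁆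

instance hopfC_normal : (hopfC φ).Normal := by
  unfold hopfC; infer_instance

/-- The group `F / [F, R]`. -/
abbrev HopfE : Type w := FreeGroup α ⧸ hopfC φ

/-- The projection `F → F / [F, R]`. -/
def hopfMk : FreeGroup α →* HopfE φ := QuotientGroup.mk' (hopfC φ)

theorem hopfC_le_ker : hopfC φ ≤ φ.ker := by
  unfold hopfC
  exact Subgroup.commutator_le_right _ _

/-- The map `F / [F, R] → Q` induced by `φ`. -/
def hopfBar : HopfE φ →* Q := QuotientGroup.lift (hopfC φ) φ (fun _ hx => hopfC_le_ker φ hx)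

theorem hopfBar_mk (f : FreeGroup α) : hopfBar φ (hopfMk φ f) = φ f := rfl

theorem hopfMk_surjective : Function.Surjective (hopfMk φ) := QuotientGroup.mk'_surjective _

theorem hopfBar_surjective (hφ : Function.Surjective φ) : Function.Surjective (hopfBar φ) := by
  intro q
  obtain ⟨f, rfl⟩ := hφ q
  exact ⟨hopfMk φ f, rfl⟩

theorem hopfBar_ker_le_center : (hopfBar φ).ker ≤ Subgroup.center (HopfE φ) := by
  intro x hx
  obtain ⟨r, rfl⟩ := hopfMk_surjective φ x
  rw [Subgroup.mem_center_iff]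
  intro y
  obtain ⟨f, rfl⟩ := hopfMk_surjective φ y
  have hr : r ∈ φ.ker := hx
  have hc : ⁅f, r⁆ ∈ hopfC φ := Subgroup.commutator_mem_commutator (Subgroup.mem_top f) hr
  have h1 : hopfMk φ ⁅f, r⁆ = 1 := (QuotientGroup.eq_one_iff _).mpr hc
  rw [commutatorElement_def, map_mul, map_mul, map_mul, map_inv, map_inv] at h1
  calc hopfMk φ f * hopfMk φ r
      = (hopfMk φ f * hopfMk φ r * (hopfMk φ f)⁻¹ * (hopfMk φ r)⁻¹) * hopfMk φ r * hopfMk φ f := by
        group
    _ = hopfMk φ r * hopfMk φ f := by rw [h1, one_mul]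

/-- The map `F / [F, R] → F / F'`. -/
def hopfAb : HopfE φ →* Abelianization (FreeGroup α) :=
  QuotientGroup.lift (hopfC φ) Abelianization.of (by
    intro x hx
    have h1 : hopfC φ ≤ commutator (FreeGroup α) := by
      unfold hopfC
      rw [commutator_def]
      exact Subgroup.commutator_mono le_rfl le_top
    have h2 := h1 hx
    rw [← Abelianization.ker_of] at h2
    exact h2)

theorem hopfAb_mk (f : FreeGroup α) : hopfAb φ (hopfMk φ f) = Abelianization.of f := rfl

theorem map_hopfMk_commutator :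
    (commutator (FreeGroup α)).map (hopfMk φ) = commutator (HopfE φ) := by
  rw [map_commutator_eq, MonoidHom.range_eq_top.mpr (hopfMk_surjective φ), commutator_def]

theorem hopfAb_ker : (hopfAb φ).ker = commutator (HopfE φ) := by
  apply le_antisymm
  · intro x hx
    obtain ⟨f, rfl⟩ := hopfMk_surjective φ x
    rw [MonoidHom.mem_ker, hopfAb_mk] at hx
    have hf : f ∈ commutator (FreeGroup α) := by
      rw [← Abelianization.ker_of]; exact hx
    rw [← map_hopfMk_commutator]
    exact ⟨f, hf, rfl⟩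
  · exact Abelianization.commutator_subset_ker _

/-- The Hopf model of the Schur multiplier: `(R ∩ F') / [F, R]`. -/
def hopfM : Subgroup (HopfE φ) := (hopfBar φ).ker ⊓ commutator (HopfE φ)

theorem finite_commutator_hopfE [Finite Q] : Finite (commutator (HopfE φ)) :=
  finite_commutator_of_central_ker (hopfBar φ) (hopfBar_ker_le_center φ)

theorem finite_hopfM [Finite Q] : Finite (hopfM φ) := by
  have := finite_commutator_hopfE φ
  exact Finite.of_injective (fun x : hopfM φ => (⟨x.1, x.2.2⟩ : commutator (HopfE φ)))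
    (fun a b h => Subtype.ext (congrArg (fun t : commutator (HopfE φ) => (t : HopfE φ)) h))

/-- Every central extension of `Q` receives a map from `F / [F, R]`. -/
theorem exists_hopf_lift {Γ : Type*} [Group Γ] (σ : Γ →* Q) (hσ : Function.Surjective σ)
    (hc : σ.ker ≤ Subgroup.center Γ) : ∃ ψ : HopfE φ →* Γ, σ.comp ψ = hopfBar φ := by
  choose s hs using hσ
  let ψ₀ : FreeGroup α →* Γ := FreeGroup.lift (fun a => s (φ (FreeGroup.of a)))
  have h1 : σ.comp ψ₀ = φ := by
    ext a
    simp [ψ₀, hs]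
  have hker : hopfC φ ≤ ψ₀.ker := by
    unfold hopfC
    rw [Subgroup.commutator_le]
    intro f _ r hr
    rw [MonoidHom.mem_ker, map_commutatorElement]
    have hr' : ψ₀ r ∈ Subgroup.center Γ := hc (by
      rw [MonoidHom.mem_ker, ← MonoidHom.comp_apply, h1]; exact hr)
    rw [commutatorElement_def, (Subgroup.mem_center_iff.mp hr' (ψ₀ f))]
    group
  refine ⟨QuotientGroup.lift (hopfC φ) ψ₀ hker, ?_⟩
  apply MonoidHom.ext
  intro x
  obtain ⟨f, rfl⟩ := hopfMk_surjective φ x
  show σ (ψ₀ f) = φ f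
  rw [← MonoidHom.comp_apply, h1]

/-- A map from `F / [F, R]` to a stem extension over `Q` is surjective and maps the Hopf
multiplier onto the kernel. -/
theorem hopf_lift_stem (hφ : Function.Surjective φ) {Γ : Type*} [Group Γ] (σ : Γ →* Q)
    (hσ : Cfsg.IsStemExtension σ) (ψ : HopfE φ →* Γ) (hψ : σ.comp ψ = hopfBar φ) :
    Function.Surjective ψ ∧ (hopfM φ).map ψ = σ.ker := by
  obtain ⟨hσs, hσc, hσd⟩ := hσ
  have hψ' : ∀ x, σ (ψ x) = hopfBar φ x := fun x => congrArg (fun f => f x) hψ
  -- every element is a central element times an element of the range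
  have hdec : ∀ g : Γ, ∃ x : HopfE φ, (ψ x)⁻¹ * g ∈ Subgroup.center Γ := by
    intro g
    obtain ⟨x, hx⟩ := hopfBar_surjective φ hφ (σ g)
    refine ⟨x, hσc ?_⟩
    rw [MonoidHom.mem_ker, map_mul, map_inv, hψ', hx, inv_mul_cancel]
  have hcomm : commutator Γ ≤ ψ.range := by
    rw [commutator_def, Subgroup.commutator_le]
    intro a _ b _
    obtain ⟨x, hx⟩ := hdec a
    obtain ⟨y, hy⟩ := hdec b
    rw [commutatorElement_eq_of_central hx hy]
    exact ⟨⁅x, y⁆, by rw [map_commutatorElement]⟩
  have hsurj : Function.Surjective ψ := by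
    intro g
    obtain ⟨x, hx⟩ := hopfBar_surjective φ hφ (σ g)
    have hk : (ψ x)⁻¹ * g ∈ σ.ker := by
      rw [MonoidHom.mem_ker, map_mul, map_inv, hψ', hx, inv_mul_cancel]
    obtain ⟨y, hy⟩ := hcomm (hσd hk)
    refine ⟨x * y, ?_⟩
    rw [map_mul, hy]
    group
  refine ⟨hsurj, ?_⟩
  apply le_antisymm
  · rintro _ ⟨m, hm, rfl⟩
    rw [MonoidHom.mem_ker, hψ']
    exact hm.1
  · intro k hk
    have hk' : k ∈ (commutator (HopfE φ)).map ψ := by
      rw [map_commutator_eq, MonoidHom.range_eq_top.mpr hsurj, ← commutator_def]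
      exact hσd hk
    obtain ⟨x, hx, rfl⟩ := hk'
    refine ⟨x, ⟨?_, hx⟩, rfl⟩
    show hopfBar φ x = 1
    rw [← hψ']
    exact hk

/-- Complements: inside a subgroup `N₀` of `R / [F, R]`, the part in the commutator subgroup has a
complement. -/
theorem exists_hopf_complement [Finite α] (N₀ : Subgroup (HopfE φ))
    (hN₀ : N₀ ≤ (hopfBar φ).ker) :
    ∃ S : Subgroup (HopfE φ), S ≤ N₀ ∧ S ⊓ commutator (HopfE φ) = ⊥ ∧
      S ⊔ (N₀ ⊓ commutator (HopfE φ)) = N₀ := by
  have := exists_subgroup_complement_ker (hopfAb φ)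
    (FreeAbelianGroup.equivFinsupp α).toAddMonoidHom (FreeAbelianGroup.equivFinsupp α).injective
    N₀ (hN₀.trans (hopfBar_ker_le_center φ))
  rwa [hopfAb_ker] at this

/-- A central subgroup is normal. -/
theorem normal_of_le_center_aux {G : Type*} [Group G] (S : Subgroup G)
    (h : S ≤ Subgroup.center G) : S.Normal :=
  ⟨fun n hn g => by
    have := Subgroup.mem_center_iff.mp (h hn) g
    rw [this, mul_inv_cancel_right]; exact hn⟩

/-- The quotient of `F / [F, R]` by a complement `S` of the Hopf multiplier in `R / [F, R]` is a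
finite stem extension of `Q` with kernel isomorphic to the Hopf multiplier. -/
theorem hopf_quotient_stem [Finite Q] (hφ : Function.Surjective φ) (S : Subgroup (HopfE φ))
    [S.Normal] (hS : S ≤ (hopfBar φ).ker) (h1 : S ⊓ commutator (HopfE φ) = ⊥)
    (h2 : (hopfBar φ).ker ≤ S ⊔ hopfM φ) :
    Cfsg.IsStemExtension (QuotientGroup.lift S (hopfBar φ) hS) ∧ Finite (HopfE φ ⧸ S) ∧
      Nonempty (hopfM φ ≃* (QuotientGroup.lift S (hopfBar φ) hS).ker) := by
  set σ := QuotientGroup.lift S (hopfBar φ) hS with hσ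
  have hσmk : ∀ y : HopfE φ, σ (QuotientGroup.mk y) = hopfBar φ y := fun y => rfl
  -- representatives of kernel elements in the Hopf multiplier
  have hrep : ∀ x : HopfE φ ⧸ S, x ∈ σ.ker → ∃ m ∈ hopfM φ, (QuotientGroup.mk m : HopfE φ ⧸ S) = x := by
    intro x hx
    obtain ⟨y, rfl⟩ := QuotientGroup.mk_surjective x
    have hy : y ∈ (hopfBar φ).ker := hx
    have hy2 := h2 hy
    rw [← SetLike.mem_coe, Subgroup.normal_mul] at hy2
    obtain ⟨s, hs, m, hm, rfl⟩ := hy2
    refine ⟨m, hm, ?_⟩
    rw [QuotientGroup.mk_mul, (QuotientGroup.eq_one_iff s).mpr hs, one_mul]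
  have hstem : Cfsg.IsStemExtension σ := by
    refine ⟨?_, ?_, ?_⟩
    · intro q
      obtain ⟨y, rfl⟩ := hopfBar_surjective φ hφ q
      exact ⟨QuotientGroup.mk y, rfl⟩
    · intro x hx
      obtain ⟨m, hm, rfl⟩ := hrep x hx
      rw [Subgroup.mem_center_iff]
      intro z
      obtain ⟨w, rfl⟩ := QuotientGroup.mk_surjective z
      have := Subgroup.mem_center_iff.mp (hopfBar_ker_le_center φ hm.1) w
      rw [← QuotientGroup.mk_mul, ← QuotientGroup.mk_mul, this]
    · intro x hx
      obtain ⟨m, hm, rfl⟩ := hrep x hx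
      have : (QuotientGroup.mk' S) m ∈ (commutator (HopfE φ)).map (QuotientGroup.mk' S) :=
        ⟨m, hm.2, rfl⟩
      rw [map_commutator_eq, MonoidHom.range_eq_top.mpr (QuotientGroup.mk'_surjective S),
        ← commutator_def] at this
      exact this
  let g : hopfM φ →* σ.ker :=
    { toFun := fun m => ⟨QuotientGroup.mk (m : HopfE φ), by
        rw [MonoidHom.mem_ker, hσmk]; exact m.2.1⟩
      map_one' := rfl
      map_mul' := fun a b => rfl }
  have hginj : Function.Injective g := by
    rw [← MonoidHom.ker_eq_bot_iff, eq_bot_iff]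
    intro m hm
    have h3 : (QuotientGroup.mk (m : HopfE φ) : HopfE φ ⧸ S) = 1 :=
      congrArg Subtype.val (MonoidHom.mem_ker.mp hm)
    have h4 : (m : HopfE φ) ∈ S ⊓ commutator (HopfE φ) :=
      ⟨(QuotientGroup.eq_one_iff _).mp h3, m.2.2⟩
    rw [h1] at h4
    exact Subtype.ext h4
  have hgsurj : Function.Surjective g := by
    rintro ⟨x, hx⟩
    obtain ⟨m, hm, rfl⟩ := hrep x hx
    exact ⟨⟨m, hm⟩, rfl⟩
  have hequiv : hopfM φ ≃* σ.ker := MulEquiv.ofBijective g ⟨hginj, hgsurj⟩
  refine ⟨hstem, ?_, ⟨hequiv⟩⟩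
  have := finite_hopfM φ
  have hfk : Finite σ.ker := Finite.of_equiv _ hequiv.toEquiv
  have hfq : Finite ((HopfE φ ⧸ S) ⧸ σ.ker) :=
    Finite.of_equiv _ (QuotientGroup.quotientKerEquivOfSurjective σ hstem.1).toEquiv.symm
  exact Finite.of_subgroup_quotient σ.ker

end Hopf

section HopfCompare

universe w u v

variable {α : Type w} {Q : Type u} [Group Q] [Finite Q] (φ : FreeGroup α →* Q)

/-- An abstract Schur multiplier is finite and at most as large as the Hopf multiplier. -/
theorem card_le_card_hopfM_of_hasSchurMultiplier (hφ : Function.Surjective φ) {A : Type v}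
    [CommGroup A] (hA : Cfsg.HasSchurMultiplier Q A) :
    Finite A ∧ Nat.card A ≤ Nat.card (hopfM φ) := by
  obtain ⟨⟨Γ₁, _, _, σ₁, hσ₁, ⟨e₁⟩⟩, -⟩ := hA
  have hfinA : Finite A := Finite.of_equiv _ e₁.toEquiv
  refine ⟨hfinA, ?_⟩
  obtain ⟨ψ, hψ⟩ := exists_hopf_lift φ σ₁ hσ₁.1 hσ₁.2.1
  obtain ⟨-, hψM⟩ := hopf_lift_stem φ hφ σ₁ hσ₁ ψ hψ
  have := finite_hopfM φ
  let g : hopfM φ → σ₁.ker := fun m => ⟨ψ m, by rw [← hψM]; exact ⟨m, m.2, rfl⟩⟩
  have hg : Function.Surjective g := by
    rintro ⟨k, hk⟩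
    rw [← hψM] at hk
    obtain ⟨m, hm, rfl⟩ := hk
    exact ⟨⟨m, hm⟩, rfl⟩
  rw [← Nat.card_congr e₁.toEquiv]
  exact Nat.card_le_card_of_surjective g hg

/-- A stem extension whose kernel is at least as large as the Hopf multiplier has kernel
isomorphic to any abstract Schur multiplier. -/
theorem ker_equiv_of_hasSchurMultiplier (hφ : Function.Surjective φ) {A : Type v}
    [CommGroup A] (hA : Cfsg.HasSchurMultiplier Q A) {Γ : Type u} [Group Γ] [Finite Γ]
    (σ : Γ →* Q) (hσ : Cfsg.IsStemExtension σ) (hcard : Nat.card (hopfM φ) ≤ Nat.card σ.ker) :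
    Nonempty (σ.ker ≃* A) := by
  obtain ⟨hfinA, hle⟩ := card_le_card_hopfM_of_hasSchurMultiplier φ hφ hA
  obtain ⟨π, hπ⟩ := hA.2 Γ σ hσ
  have h1 : Nat.card σ.ker ≤ Nat.card A := Nat.card_le_card_of_surjective π hπ
  have hbij : Function.Bijective π :=
    (Nat.bijective_iff_surjective_and_card π).mpr ⟨hπ, le_antisymm (hle.trans hcard) h1⟩
  exact ⟨(MulEquiv.ofBijective π hbij).symm⟩

end HopfCompare

end Cfsg.Agent.Helper65
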