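-- helper65 library: PIECE DIH of CALL S1142 (helper25, Feit-Higman): a finite group generated by two
-- distinct involutions is dihedral of order 2n, with reduced alternating words up to length n.
import Mathlib
import Cfsg.Agent.Helper6.Matsumoto

set_option autoImplicit false

namespace Cfsg.Agent.Helper65

open Cfsg.Agent.Helper6

section general

variable {G : Type*} [Group G]

theorem dih_prod_small (c d : G) (r : ℕ) (hr : r < 2) : (altW c d r).prod = c ^ r := by
  interval_cases r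
  · simp [altW_zero]
  · simp [altW_succ, altW_zero]

theorem dih_prod_fwd (c d : G) (k : ℕ) :
    (altW c d k).prod = (c * d) ^ ((k / 2 : ℕ) : ℤ) * c ^ (k % 2) := by
  have h := altW_prod_add_two_mul c d (k % 2) (k / 2)
  rw [Nat.mod_add_div] at h
  rw [h, dih_prod_small c d _ (Nat.mod_lt _ (by norm_num)), zpow_natCast]

theorem dih_prod_bwd {c d : G} (hc : c * c = 1) (hd : d * d = 1) (k : ℕ) :
    (altW d c k).prod = (c * d) ^ (-(((k + 1) / 2 : ℕ) : ℤ)) * c ^ (k % 2) := by
  have h := altW_prod_add_two_mul d c (k % 2) (k / 2)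
  rw [Nat.mod_add_div] at h
  rw [h, dih_prod_small d c _ (Nat.mod_lt _ (by norm_num))]
  have hdc : d * c = (c * d)⁻¹ := by
    rw [mul_inv_rev, inv_eq_self_of_sq hc, inv_eq_self_of_sq hd]
  rcases Nat.mod_two_eq_zero_or_one k with h0 | h1
  · rw [h0, pow_zero, pow_zero, mul_one, mul_one, hdc, inv_pow, ← zpow_natCast, ← zpow_neg]
    congr 2
    omega
  · rw [h1, pow_one, pow_one, hdc, inv_pow, ← zpow_natCast, ← zpow_neg]
    have hd' : d = (c * d)⁻¹ * c := by
      rw [mul_inv_rev, inv_eq_self_of_sq hc, inv_eq_self_of_sq hd, mul_assoc, hc, mul_one]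
    have key : (c * d) ^ (-((k / 2 : ℕ) : ℤ)) * d
        = (c * d) ^ (-((k / 2 : ℕ) : ℤ)) * ((c * d)⁻¹ * c) := by rw [← hd']
    rw [key, ← mul_assoc, ← zpow_neg_one, ← zpow_add]
    congr 2
    omega

theorem dih_eq_analysis {c ρ : G} (hcH : c ∉ Subgroup.zpowers ρ) (z z' : ℤ) (ε ε' : ℕ)
    (hε : ε < 2) (hε' : ε' < 2) (h : ρ ^ z * c ^ ε = ρ ^ z' * c ^ ε') :
    ε = ε' ∧ (orderOf ρ : ℤ) ∣ z - z' := by
  interval_cases ε <;> interval_cases ε'
  · simp only [pow_zero, mul_one] at h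
    refine ⟨rfl, ?_⟩
    rw [orderOf_dvd_iff_zpow_eq_one, zpow_sub, h, mul_inv_cancel]
  · exfalso
    apply hcH
    simp only [pow_zero, mul_one, pow_one] at h
    refine Subgroup.mem_zpowers_iff.mpr ⟨-z' + z, ?_⟩
    rw [zpow_add, zpow_neg, h, inv_mul_cancel_left]
  · exfalso
    apply hcH
    simp only [pow_zero, mul_one, pow_one] at h
    refine Subgroup.mem_zpowers_iff.mpr ⟨-z + z', ?_⟩
    rw [zpow_add, zpow_neg, ← h, inv_mul_cancel_left]
  · simp only [pow_one] at h
    refine ⟨rfl, ?_⟩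
    have h' := mul_right_cancel h
    rw [orderOf_dvd_iff_zpow_eq_one, zpow_sub, h', mul_inv_cancel]

theorem dih_distinct {c d : G} (hc : c * c = 1) (hd : d * d = 1)
    (hcH : c ∉ Subgroup.zpowers (c * d)) {k k' : ℕ} (hk : k ≤ orderOf (c * d)) (hk' : k' < k) :
    (altW c d k).prod ≠ (altW c d k').prod ∧ (altW c d k).prod ≠ (altW d c k').prod := by
  constructor
  · intro h
    rw [dih_prod_fwd, dih_prod_fwd c d k'] at h
    obtain ⟨h1, h2⟩ := dih_eq_analysis hcH _ _ _ _ (Nat.mod_lt _ (by norm_num))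
      (Nat.mod_lt _ (by norm_num)) h
    have hpos : (0 : ℤ) < ((k / 2 : ℕ) : ℤ) - ((k' / 2 : ℕ) : ℤ) := by omega
    have hle := Int.le_of_dvd hpos h2
    omega
  · intro h
    rw [dih_prod_fwd, dih_prod_bwd hc hd] at h
    obtain ⟨h1, h2⟩ := dih_eq_analysis hcH _ _ _ _ (Nat.mod_lt _ (by norm_num))
      (Nat.mod_lt _ (by norm_num)) h
    have hpos : (0 : ℤ) < ((k / 2 : ℕ) : ℤ) - (-(((k' + 1) / 2 : ℕ) : ℤ)) := by omega
    have hle := Int.le_of_dvd hpos h2
    omega

theorem dih_normal_form {c d : G} (hc : c * c = 1) (hd : d * d = 1) (l : List G)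
    (hl : IsWord ({c, d} : Set G) l) :
    ∃ k, k ≤ l.length ∧ (l.prod = (altW c d k).prod ∨ l.prod = (altW d c k).prod) := by
  induction l with
  | nil => exact ⟨0, le_refl _, Or.inl (by simp [altW_zero])⟩
  | cons a l ih =>
    have ha : a = c ∨ a = d := by
      have h1 := hl a (List.mem_cons_self ..)
      simpa using h1
    obtain ⟨k, hk, hprod⟩ := ih (fun x hx => hl x (List.mem_cons_of_mem _ hx))
    rw [List.prod_cons, List.length_cons]
    cases k with
    | zero =>
      have h1 : l.prod = 1 := by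
        rcases hprod with h | h <;> simpa [altW_zero] using h
      rcases ha with ha | ha
      · exact ⟨1, by omega, Or.inl (by simp [h1, ha, altW_succ, altW_zero])⟩
      · exact ⟨1, by omega, Or.inr (by simp [h1, ha, altW_succ, altW_zero])⟩
    | succ k =>
      rcases hprod with h | h
      · rcases ha with ha | ha
        · refine ⟨k, by omega, Or.inr ?_⟩
          rw [h, ha, altW_succ, List.prod_cons, ← mul_assoc, hc, one_mul]
        · refine ⟨k + 2, by omega, Or.inr ?_⟩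
          rw [h, ha, altW_succ d c (k + 1), List.prod_cons]
      · rcases ha with ha | ha
        · refine ⟨k + 2, by omega, Or.inl ?_⟩
          rw [h, ha, altW_succ c d (k + 1), List.prod_cons]
        · refine ⟨k, by omega, Or.inl ?_⟩
          rw [h, ha, altW_succ, List.prod_cons, ← mul_assoc, hd, one_mul]

theorem dih_reduced {c d : G} (hc : c * c = 1) (hd : d * d = 1)
    (hcH : c ∉ Subgroup.zpowers (c * d)) (k : ℕ) (hk : k ≤ orderOf (c * d)) :
    Reduced ({c, d} : Set G) (altW c d k) := by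
  refine ⟨fun x hx => by rcases altW_mem hx with h | h <;> simp [h], ?_⟩
  intro l' hl' hprod
  rw [altW_length]
  obtain ⟨k', hk', h⟩ := dih_normal_form hc hd l' hl'
  by_contra hlt
  have hk'k : k' < k := by omega
  obtain ⟨h1, h2⟩ := dih_distinct hc hd hcH hk hk'k
  rcases h with h | h
  · exact h1 (by rw [← hprod, h])
  · exact h2 (by rw [← hprod, h])

end general

theorem fh_dih {W : Type*} [Group W] [Finite W] (σ τ : W) (hσ : σ * σ = 1) (hτ : τ * τ = 1)
    (hne : σ ≠ τ) (hσ1 : σ ≠ 1) (hτ1 : τ ≠ 1)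
    (hgen : ∀ w : W, ∃ l, IsWord ({σ, τ} : Set W) l ∧ l.prod = w) :
    2 ≤ orderOf (σ * τ) ∧ Nat.card W = 2 * orderOf (σ * τ) ∧
    (∀ k, k ≤ orderOf (σ * τ) → Reduced ({σ, τ} : Set W) (altW σ τ k)) ∧
    (∀ k, k ≤ orderOf (σ * τ) → Reduced ({σ, τ} : Set W) (altW τ σ k)) := by
  set ρ := σ * τ with hρ
  have hσinv : σ⁻¹ = σ := inv_eq_self_of_sq hσ
  have hτinv : τ⁻¹ = τ := inv_eq_self_of_sq hτ
  have hρ1 : ρ ≠ 1 := by
    intro h
    apply hne
    have h1 := eq_inv_of_mul_eq_one_left h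
    rw [h1, hτinv]
  have hn2 : 2 ≤ orderOf ρ := by
    have hpos : 0 < orderOf ρ := orderOf_pos ρ
    have hne1 : orderOf ρ ≠ 1 := by
      rw [Ne, orderOf_eq_one_iff]
      exact hρ1
    omega
  have hτσ : τ * σ = ρ⁻¹ := by rw [hρ, mul_inv_rev, hσinv, hτinv]
  have hconj : σ * ρ * σ = ρ⁻¹ := by
    rw [← hτσ, hρ, ← mul_assoc, hσ, one_mul]
  have hσH : σ ∉ Subgroup.zpowers ρ := by
    intro hmem
    obtain ⟨a, ha⟩ := Subgroup.mem_zpowers_iff.mp hmem
    have hcomm : σ * ρ = ρ * σ := by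
      rw [← ha, ← zpow_add_one, ← zpow_one_add, add_comm]
    have hρinv : ρ = ρ⁻¹ := by
      rw [← hconj, hcomm, mul_assoc, hσ, mul_one]
    have hρ2 : ρ * ρ = 1 := by
      nth_rewrite 2 [hρinv]
      exact mul_inv_cancel ρ
    rcases Int.even_or_odd' a with ⟨b, hb | hb⟩
    · apply hσ1
      rw [← ha, hb, zpow_mul, zpow_two, hρ2, one_zpow]
    · apply hτ1
      have h1 : ρ ^ a = ρ := by
        rw [hb, zpow_add, zpow_mul, zpow_two, hρ2, one_zpow, one_mul, zpow_one]
      rw [h1] at ha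
      have h3 : σ * τ = σ * 1 := by
        rw [mul_one]
        exact ha
      exact mul_left_cancel h3
  have hτH : τ ∉ Subgroup.zpowers (τ * σ) := by
    rw [hτσ, Subgroup.zpowers_inv]
    intro hmem
    apply hσH
    have h1 : σ = ρ * τ := by rw [hρ, mul_assoc, hτ, mul_one]
    rw [h1]
    exact Subgroup.mul_mem _ (Subgroup.mem_zpowers ρ) hmem
  have hordτσ : orderOf (τ * σ) = orderOf ρ := by rw [hτσ, orderOf_inv]
  refine ⟨hn2, ?_, ?_, ?_⟩
  · have hidx : (Subgroup.zpowers ρ).index = 2 := by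
      rw [Subgroup.index_eq_two_iff]
      refine ⟨σ, fun b => ?_⟩
      obtain ⟨l, hl, rfl⟩ := hgen b
      obtain ⟨k, -, hk⟩ := dih_normal_form hσ hτ l hl
      have hform : ∃ (z : ℤ) (ε : ℕ), ε < 2 ∧ l.prod = ρ ^ z * σ ^ ε := by
        rcases hk with h | h
        · exact ⟨_, _, Nat.mod_lt _ (by norm_num), by rw [h, dih_prod_fwd]⟩
        · exact ⟨_, _, Nat.mod_lt _ (by norm_num), by rw [h, dih_prod_bwd hσ hτ]⟩
      obtain ⟨z, ε, hε, hz⟩ := hform
      rw [hz]
      interval_cases ε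
      · simp only [pow_zero, mul_one]
        refine Or.inr ⟨Subgroup.zpow_mem_zpowers ρ z, fun h => hσH ?_⟩
        exact (Subgroup.mul_mem_cancel_left _ (Subgroup.zpow_mem_zpowers ρ z)).mp h
      · simp only [pow_one]
        refine Or.inl ⟨?_, fun h => hσH ?_⟩
        · rw [mul_assoc, hσ, mul_one]
          exact Subgroup.zpow_mem_zpowers ρ z
        · exact (Subgroup.mul_mem_cancel_left _ (Subgroup.zpow_mem_zpowers ρ z)).mp h
    have h1 := Subgroup.card_mul_index (Subgroup.zpowers ρ)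
    rw [hidx, Nat.card_zpowers] at h1
    omega
  · intro k hk
    exact dih_reduced hσ hτ hσH k hk
  · intro k hk
    have h := dih_reduced hτ hσ hτH k (by rw [hordτσ]; exact hk)
    rwa [Set.pair_comm] at h

end Cfsg.Agent.Helper65
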