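-- helper65 library: PIECE P16 of CALL S1142-LA (helper3, Feit-Higman): Niven arithmetic, even case.
import Mathlib
import Cfsg.Agent.Helper3.FHDefs

set_option autoImplicit false

namespace Cfsg.Agent.Helper65

open Cfsg.Agent.Helper3.FH Real

theorem fh16_rat_of_lin (x : ℝ) (q1 q0 : ℚ) (h1 : q1 ≠ 0) (h : (q1 : ℝ) * x + q0 = 0) :
    ∃ r : ℚ, x = r := by
  refine ⟨-q0 / q1, ?_⟩
  have h1' : (q1 : ℝ) ≠ 0 := by exact_mod_cast h1
  push_cast
  field_simp
  linear_combination h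

/-- The elimination step: two quadratic relations for `x` and `-x` force `x` rational. -/
theorem fh16_elim (s t : ℕ) (hs : 2 ≤ s) (ht : 2 ≤ t) (a a' w : ℕ) (ha : 0 < a) (ha' : 0 < a')
    (hw : 0 < w) (x : ℝ)
    (e1 : (a : ℝ) * (s + t + 2 * x) * (s * t + 1 - 2 * x) = w * (s * t - x ^ 2))
    (e2 : (a' : ℝ) * (s + t - 2 * x) * (s * t + 1 + 2 * x) = w * (s * t - x ^ 2)) :
    ∃ r : ℚ, x = r := by
  have hsq : (2 : ℚ) ≤ s := by exact_mod_cast hs
  have htq : (2 : ℚ) ≤ t := by exact_mod_cast ht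
  have haq : (0 : ℚ) < a := by exact_mod_cast ha
  have haq' : (0 : ℚ) < a' := by exact_mod_cast ha'
  have hwq : (0 : ℚ) < w := by exact_mod_cast hw
  set E0 : ℚ := ((s : ℚ) - 1) * ((t : ℚ) - 1) with hE0
  set P4 : ℚ := ((s : ℚ) + t) * (s * t + 1) - 4 * s * t with hP4
  have hE0pos : 0 < E0 := by
    rw [hE0]
    exact mul_pos (by linarith) (by linarith)
  have hP4pos : 0 < P4 := by
    rw [hP4]
    nlinarith [mul_nonneg (by linarith : (0 : ℚ) ≤ (s : ℚ) - 2) (by linarith : (0 : ℚ) ≤ (t : ℚ) - 2),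
      mul_pos (by linarith : (0 : ℚ) < (s : ℚ)) (by linarith : (0 : ℚ) < (t : ℚ))]
  set c1 : ℚ := 2 * E0 * ((w : ℚ) * (a + a') - 8 * a * a') with hc1
  set c0 : ℚ := (w : ℚ) * (a - a') * P4 with hc0
  have hlin : (c1 : ℝ) * x + c0 = 0 := by
    rw [hc1, hc0, hE0, hP4]
    push_cast
    linear_combination ((w : ℝ) - 4 * a') * e1 - ((w : ℝ) - 4 * a) * e2
  by_cases hc : c1 = 0
  · have hc0' : c0 = 0 := by
      have h1 : (c0 : ℝ) = 0 := by
        rw [hc] at hlin
        simpa using hlin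
      exact_mod_cast h1
    have haa : (a : ℚ) = a' := by
      rw [hc0] at hc0'
      rcases mul_eq_zero.mp hc0' with h | h
      · rcases mul_eq_zero.mp h with h' | h'
        · exact absurd h' hwq.ne'
        · linarith
      · exact absurd h hP4pos.ne'
    have hw4 : (w : ℚ) = 4 * a := by
      rw [hc1, ← haa] at hc
      have h1 : (a : ℚ) * ((w : ℚ) - 4 * a) = 0 := by
        have h3 : 2 * E0 * ((w : ℚ) * (a + a) - 8 * a * a) = 0 := hc
        have h4 : E0 * ((a : ℚ) * ((w : ℚ) - 4 * a)) = 0 := by linear_combination (1 / 4 : ℚ) * h3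
        exact (mul_eq_zero.mp h4).resolve_left hE0pos.ne'
      have h5 := (mul_eq_zero.mp h1).resolve_left haq.ne'
      linarith
    have hw4r : (w : ℝ) = 4 * a := by exact_mod_cast hw4
    refine fh16_rat_of_lin x (2 * a * E0) (a * P4)
      (mul_ne_zero (mul_ne_zero two_ne_zero haq.ne') hE0pos.ne') ?_
    rw [hE0, hP4]
    push_cast
    linear_combination e1 + (s * t - x ^ 2) * hw4r
  · exact fh16_rat_of_lin x c1 c0 hc hlin

theorem fh_arith_even (n : ℕ) (hn : 1 ≤ n) (s t v : ℕ) (hs : 2 ≤ s) (ht : 2 ≤ t) (hv : 0 < v)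
    (h : ∀ k : ℕ, 0 < k → k < n → ∃ μ : ℕ, 0 < μ ∧
      (μ : ℝ) * (2 * n) * (s + t + 2 * (√(s * t) * cos (k * π / n)))
          * (s * t + 1 - 2 * (√(s * t) * cos (k * π / n)))
        = 8 * v * (s * t - (√(s * t) * cos (k * π / n)) ^ 2)) :
    n ∈ ({1, 2, 3, 4} : Set ℕ) := by
  have hnpos : (0 : ℝ) < n := by exact_mod_cast hn
  have hrat : ∀ k : ℕ, 0 < k → k < n → ∃ r : ℚ, √((s : ℝ) * t) * cos (k * π / n) = r := by
    intro k hk hkn
    obtain ⟨μ, hμ, e1⟩ := h k hk hkn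
    obtain ⟨μ', hμ', e2⟩ := h (n - k) (by omega) (by omega)
    have hcos : cos (((n - k : ℕ) : ℝ) * π / n) = - cos (k * π / n) := by
      rw [Nat.cast_sub hkn.le]
      have h1 : ((n : ℝ) - k) * π / n = π - k * π / n := by
        field_simp
      rw [h1, Real.cos_pi_sub]
    rw [hcos] at e2
    apply fh16_elim s t hs ht (μ * (2 * n)) (μ' * (2 * n)) (8 * v) (by positivity) (by positivity)
      (by positivity) (√((s : ℝ) * t) * cos (k * π / n))
    · push_cast
      linear_combination e1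
    · push_cast
      linear_combination e2
  by_cases hn2 : n < 2
  · have h1 : n = 1 := by omega
    simp [h1]
  push Not at hn2
  have hn2r : (2 : ℝ) ≤ n := by exact_mod_cast hn2
  obtain ⟨r1, hr1⟩ := hrat 1 (by norm_num) (by omega)
  have hst : (0 : ℝ) < (s : ℝ) * t := by
    have h1 : (0 : ℝ) < s := by exact_mod_cast (by omega : 0 < s)
    have h3 : (0 : ℝ) < t := by exact_mod_cast (by omega : 0 < t)
    positivity
  have hsq : √((s : ℝ) * t) ^ 2 = s * t := Real.sq_sqrt hst.le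
  have hcos2 : cos (2 * π / n) = 2 * (r1 : ℝ) ^ 2 / (s * t) - 1 := by
    have h1 : (2 * π / n : ℝ) = 2 * (((1 : ℕ) : ℝ) * π / n) := by
      push_cast
      ring
    rw [h1, Real.cos_two_mul, ← hr1, mul_pow, hsq]
    field_simp
  have hθ : ∃ r : ℚ, (2 * π / n : ℝ) = r * π := ⟨2 / n, by push_cast; ring⟩
  have hcosq : ∃ q : ℚ, cos (2 * π / n) = q :=
    ⟨2 * r1 ^ 2 / (s * t) - 1, by rw [hcos2]; push_cast; ring⟩
  have hbnd : (2 * π / n : ℝ) ∈ Set.Icc 0 π := by
    constructor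
    · positivity
    · rw [div_le_iff₀ hnpos]
      nlinarith [Real.pi_pos]
  have hniv := niven_angle_eq hθ hcosq hbnd
  simp only [Set.mem_insert_iff, Set.mem_singleton_iff] at hniv ⊢
  have hpi : (0 : ℝ) < π := Real.pi_pos
  rcases hniv with h0 | h3 | h4 | h23 | hp
  · exfalso
    have h1 : (0 : ℝ) < 2 * π / n := by positivity
    linarith
  · exfalso
    have hn6r : (n : ℝ) = 6 := by
      field_simp at h3
      nlinarith
    have hn6 : n = 6 := by exact_mod_cast hn6r
    subst hn6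
    obtain ⟨r2, hr2⟩ := hrat 2 (by norm_num) (by norm_num)
    have hc1 : cos (((1 : ℕ) : ℝ) * π / ((6 : ℕ) : ℝ)) = √3 / 2 := by
      have h1 : (((1 : ℕ) : ℝ) * π / ((6 : ℕ) : ℝ)) = π / 6 := by
        push_cast
        ring
      rw [h1, Real.cos_pi_div_six]
    have hc2 : cos (((2 : ℕ) : ℝ) * π / ((6 : ℕ) : ℝ)) = 1 / 2 := by
      have h1 : (((2 : ℕ) : ℝ) * π / ((6 : ℕ) : ℝ)) = π / 3 := by
        push_cast
        ring
      rw [h1, Real.cos_pi_div_three]
    rw [hc1] at hr1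
    rw [hc2] at hr2
    have hu : 0 < √((s : ℝ) * t) := Real.sqrt_pos.mpr hst
    have hr2ne : (r2 : ℝ) ≠ 0 := by
      rw [← hr2]
      positivity
    have h3' : √3 = ((r1 / r2 : ℚ) : ℝ) := by
      push_cast
      field_simp
      rw [← hr1, ← hr2]
      ring
    have hirr : Irrational (√(3 : ℝ)) := by
      simpa using Nat.prime_three.irrational_sqrt
    exact hirr ⟨r1 / r2, h3'.symm⟩
  · have hn4r : (n : ℝ) = 4 := by
      field_simp at h4
      nlinarith
    have hn4 : n = 4 := by exact_mod_cast hn4r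
    omega
  · have hn3r : (n : ℝ) = 3 := by
      field_simp at h23
      nlinarith
    have hn3 : n = 3 := by exact_mod_cast hn3r
    omega
  · have hn2r' : (n : ℝ) = 2 := by
      field_simp at hp
      nlinarith
    have hn2' : n = 2 := by exact_mod_cast hn2r'
    omega

end Cfsg.Agent.Helper65
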