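import Mathlib

set_option autoImplicit false

/-!
# CALL S2113 (helper65): abstract setting for the 3-part of the Schur multiplier of `²G₂(q)`

`R3 K G Γ`: a central extension `σ : Γ →* G` together with coordinates `X t u v` on a copy of the
unipotent group `U¹` of the Ree group inside `G` (product law of helper36's `rx_mul`), torus
elements `η z` (conjugation law of helper36's `rh_conj`), `L = (x ↦ x ^ 3 ^ (m + 1))`.
-/

namespace Cfsg.Agent.Helper65

open scoped commutatorElement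

/-- Abstract setting for the 3-part of the Schur multiplier of the Ree groups. -/
structure R3 (K : Type*) [Field K] (G : Type*) [Group G] (Γ : Type*) [Group Γ] where
  /-- the field endomorphism `x ↦ x ^ 3 ^ (m + 1)` -/
  L : K →+* K
  /-- coordinates on the unipotent group -/
  X : K → K → K → G
  /-- torus elements -/
  η : K → G
  /-- the central extension -/
  σ : Γ →* G
  hLL : ∀ c : K, L (L c) = c ^ 3
  hX : ∀ t u v t' u' v' : K, X t u v * X t' u' v' =
    X (t + t') (u + u' - t * L t') (v + v' - t' * u + t * t' * L t' - t ^ 2 * L t')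
  hη : ∀ z : K, z ≠ 0 → ∀ t u v : K,
    η z * X t u v * (η z)⁻¹ = X ((L z)⁻¹ * z ^ 2 * t) (L z * z⁻¹ * u) (z * v)
  hηc : ∀ z z' : K, z ≠ 0 → z' ≠ 0 → η z * η z' = η z' * η z
  hinj : ∀ t u v t' u' v' : K, X t u v = X t' u' v' → t = t' ∧ u = u' ∧ v = v'
  hcen : σ.ker ≤ Subgroup.center Γ
  hsec : ∀ t u v : K, ∃ g : Γ, σ g = X t u v
  htor : ∀ z : K, z ≠ 0 → ∃ τ : Γ, σ τ = η z

namespace R3

variable {K : Type*} [Field K] {G : Type*} [Group G] {Γ : Type*} [Group Γ] (S : R3 K G Γ)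

theorem X_mul0 (t u v u' v' : K) : S.X t u v * S.X 0 u' v' = S.X t (u + u') (v + v') := by
  rw [S.hX]
  congr 1 <;> simp

theorem X_0mul (u v t' u' v' : K) :
    S.X 0 u v * S.X t' u' v' = S.X t' (u + u') (v + v' - t' * u) := by
  rw [S.hX]
  congr 1 <;> simp

theorem X_zero : S.X 0 0 0 = 1 := by
  have h := S.X_mul0 0 0 0 0 0
  simp only [add_zero] at h
  exact mul_eq_left.mp h

theorem X_inv0 (u v : K) : (S.X 0 u v)⁻¹ = S.X 0 (-u) (-v) := by
  symm
  rw [eq_inv_iff_mul_eq_one, S.X_mul0, neg_add_cancel, neg_add_cancel, S.X_zero]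

theorem X_split (t u v : K) : S.X t u v = S.X t 0 0 * S.X 0 u v := by
  rw [S.X_mul0, zero_add, zero_add]

/-- Conjugation of `X 0 u v` by an element of `U`. -/
theorem conj_X0 (t u₁ v₁ u v : K) :
    S.X t u₁ v₁ * S.X 0 u v * (S.X t u₁ v₁)⁻¹ = S.X 0 u (v + t * u) := by
  rw [mul_inv_eq_iff_eq_mul, S.X_mul0, S.X_0mul]
  congr 1
  · ring
  · ring

/-- Conjugation of `X 0 u v` by a torus element. -/
theorem conj_η0 {z : K} (hz : z ≠ 0) (u v : K) :
    S.η z * S.X 0 u v * (S.η z)⁻¹ = S.X 0 (S.L z * z⁻¹ * u) (z * v) := by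
  rw [S.hη z hz, mul_zero]

theorem ker_comm {k : Γ} (hk : k ∈ S.σ.ker) (g : Γ) : g * k = k * g :=
  Subgroup.mem_center_iff.mp (S.hcen hk) g

theorem exists_ker {x y : Γ} (h : S.σ x = S.σ y) : ∃ k ∈ S.σ.ker, y = x * k :=
  ⟨x⁻¹ * y, by rw [MonoidHom.mem_ker, map_mul, map_inv, h, inv_mul_cancel], by group⟩

theorem comm_mul_ker_left {k : Γ} (hk : k ∈ S.σ.ker) (x y : Γ) : ⁅x * k, y⁆ = ⁅x, y⁆ := by
  have e := (S.ker_comm hk y).symm
  rw [commutatorElement_def, commutatorElement_def]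
  calc x * k * y * (x * k)⁻¹ * y⁻¹ = x * (k * y) * (x * k)⁻¹ * y⁻¹ := by group
    _ = x * (y * k) * (x * k)⁻¹ * y⁻¹ := by rw [e]
    _ = x * y * x⁻¹ * y⁻¹ := by group

theorem comm_mul_ker_right {k : Γ} (hk : k ∈ S.σ.ker) (x y : Γ) : ⁅x, y * k⁆ = ⁅x, y⁆ := by
  have e := S.ker_comm hk x⁻¹
  rw [commutatorElement_def, commutatorElement_def]
  calc x * (y * k) * x⁻¹ * (y * k)⁻¹ = x * y * (k * x⁻¹) * (y * k)⁻¹ := by group
    _ = x * y * (x⁻¹ * k) * (y * k)⁻¹ := by rw [e]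
    _ = x * y * x⁻¹ * y⁻¹ := by group

/-- A commutator depends only on the images of its entries. -/
theorem comm_congr {x x' y y' : Γ} (hx : S.σ x = S.σ x') (hy : S.σ y = S.σ y') :
    ⁅x, y⁆ = ⁅x', y'⁆ := by
  obtain ⟨k, hk, rfl⟩ := S.exists_ker hx
  obtain ⟨k', hk', rfl⟩ := S.exists_ker hy
  rw [S.comm_mul_ker_left hk, S.comm_mul_ker_right hk']

/-- Conjugates depend only on the image of the conjugating element. -/
theorem conj_congr {g g' : Γ} (hg : S.σ g = S.σ g') (x : Γ) : g * x * g⁻¹ = g' * x * g'⁻¹ := by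
  obtain ⟨k, hk, rfl⟩ := S.exists_ker hg
  have e := S.ker_comm hk x
  calc g * x * g⁻¹ = g * (x * k) * (g * k)⁻¹ := by group
    _ = g * (k * x) * (g * k)⁻¹ := by rw [e]
    _ = g * k * x * (g * k)⁻¹ := by group

end R3

end Cfsg.Agent.Helper65
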