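-- helper65 library: PIECE S2h of CALL S0996 (helper79, Brauer-Reynolds with few Sylow subgroups):
-- stage alpha, n = 1 and t = 2.  Adaptation of Helper65/BRS2Core + BRS2.
import Cfsg.Agent.Helper9.BRDefs
import Cfsg.Agent.Helper8.BRSplit
import Cfsg.Agent.Helper41.BRK2
import Cfsg.Agent.Helper81.SectionChar
import Cfsg.Agent.Helper80.CharIrr
import Cfsg.Agent.Helper75.BRT1
import Cfsg.Agent.Helper75.BRT3
import Cfsg.Agent.Helper75.BRT4

set_option autoImplicit false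
open Cfsg
open scoped ComplexConjugate

universe u

namespace Cfsg.Agent.Helper65

/-- The arithmetic of stage alpha (own copy of piece NA of CALL S0996). -/
theorem brn_alpha_numerics (p q n t a A B C W : ℕ) (hn : 1 ≤ n) (ht : 2 ≤ t) (ha : 1 ≤ a)
    (hq : q = 1 + a * (n + 1)) (hp : p = t * q + 1)
    (h1 : t * q ^ 2 = t + (1 + n * p) * A + (p - 1) * B + q * C + p * W)
    (h2 : t * q = t + (n + 1) * A + W) : n = 1 ∧ t = 2 := by
  have hp1 : p - 1 = t * q := by omega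
  rw [hp1] at h1
  have hq2 : 2 ≤ q := by
    have h : 1 * 1 ≤ a * (n + 1) := Nat.mul_le_mul ha (by omega)
    omega
  zify at h1 h2 hp
  have hnZ : (1 : ℤ) ≤ n := by exact_mod_cast hn
  have htZ : (2 : ℤ) ≤ t := by exact_mod_cast ht
  have hqZ : (2 : ℤ) ≤ q := by exact_mod_cast hq2
  have hA : (0 : ℤ) ≤ A := Int.natCast_nonneg A
  have hB : (0 : ℤ) ≤ (t : ℤ) * q * B := by positivity
  have hC : (0 : ℤ) ≤ (q : ℤ) * C := by positivity
  have hW : (0 : ℤ) ≤ W := Int.natCast_nonneg W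
  have hWeq : (W : ℤ) = t * q - t - (n + 1) * A := by linarith
  have key : (t : ℤ) * q * ((t - 1) * (q - 1)) ≤ (t : ℤ) * q * A := by
    have e : (t : ℤ) * q * A - (t : ℤ) * q * ((t - 1) * (q - 1)) = (t : ℤ) * q * B + q * C := by
      rw [hWeq, hp] at h1
      linear_combination h1
    linarith
  have htq : (0 : ℤ) < (t : ℤ) * q := by positivity
  have hAge : ((t : ℤ) - 1) * (q - 1) ≤ A := le_of_mul_le_mul_left key htq
  have h3 : ((n : ℤ) + 1) * A ≤ t * (q - 1) := by linarith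
  have h4 : ((n : ℤ) + 1) * (((t : ℤ) - 1) * (q - 1)) ≤ ((n : ℤ) + 1) * A :=
    mul_le_mul_of_nonneg_left hAge (by linarith)
  have h5 : (((n : ℤ) + 1) * ((t : ℤ) - 1)) * (q - 1) ≤ t * (q - 1) := by
    have e : (((n : ℤ) + 1) * ((t : ℤ) - 1)) * (q - 1)
        = ((n : ℤ) + 1) * (((t : ℤ) - 1) * (q - 1)) := by ring
    rw [e]
    exact le_trans h4 h3
  have h6 : ((n : ℤ) + 1) * ((t : ℤ) - 1) ≤ t := le_of_mul_le_mul_right h5 (by linarith)
  have h7 : ((t : ℤ) - 1) * 1 ≤ ((t : ℤ) - 1) * n :=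
    mul_le_mul_of_nonneg_left hnZ (by linarith)
  have h8 : ((n : ℤ) + 1) * ((t : ℤ) - 1) = ((t : ℤ) - 1) * n + (t - 1) := by ring
  have ht2 : (t : ℤ) = 2 := by linarith
  have hn1 : (n : ℤ) = 1 := by
    rw [ht2] at h6
    linarith
  exact ⟨by exact_mod_cast hn1, by exact_mod_cast ht2⟩

/-- Stage alpha (few Sylow subgroups) with the three block facts T1, T3, T4 as hypotheses. -/
theorem brn_stage_alpha_core {G : Type u} [Group G] [Fintype G] {p : ℕ} [Fact p.Prime]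
    {M : Ideal Cfsg.AlgInt}
    (P : Sylow p G) (hP : Nat.card (P : Subgroup G) = p)
    (q n t a : ℕ) (T : Cfsg.Agent.Helper9.BRTab p M P q) (hn : 1 ≤ n) (ht : 2 ≤ t)
    (hqt : q * t = p - 1) (ha : 1 ≤ a) (hqa : q = 1 + a * (n + 1)) (hε : T.ε = 1)
    (hX1 : ∀ χ ∈ T.X1, Cfsg.charDegree (χ : G → ℂ) = 1 + n * p)
    (hX2 : ∀ χ ∈ T.X2, Cfsg.charDegree (χ : G → ℂ) = p - 1)
    (hY : ∀ θ ∈ T.Y, Cfsg.charDegree (θ : G → ℂ) = q)
    (hT1 : ∀ y : G, y ∈ (P : Subgroup G) → y ≠ 1 →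
      ∑ θ ∈ T.Y, (θ : G → ℂ) y = -(T.ε : ℂ))
    (hT3 : ∀ χ : Cfsg.IrrCharacter G, χ ∉ Cfsg.principalBlock M G →
      ∀ y : G, y ∈ (P : Subgroup G) → y ≠ 1 → (χ : G → ℂ) y = 0)
    (hT4 : ∀ y : G, y ∈ (P : Subgroup G) → y ≠ 1 →
      ∑ θ ∈ T.Y, (θ : G → ℂ) y * conj ((θ : G → ℂ) y) = (p : ℂ) - (q : ℂ)) : n = 1 ∧ t = 2 := by
  classical
  have hpp : p.Prime := Fact.out
  have hp1 : 1 ≤ p := hpp.one_lt.le
  have hqpos : 0 < q := by
    rw [hqa]
    omega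
  have hpeq : p = t * q + 1 := by
    have : q * t = t * q := Nat.mul_comm q t
    omega
  have : Fintype (Cfsg.IrrCharacter G) := Fintype.ofFinite _
  have hpC : (p : ℂ) ≠ 0 := by exact_mod_cast hpp.ne_zero
  have hnotdvd : ¬ p ∣ orderOf (1 : G) := by
    rw [orderOf_one]
    exact hpp.not_dvd_one
  -- the set P as a finset
  set S : Finset G := Finset.univ.filter (fun x => x ∈ (P : Subgroup G)) with hS
  have hmemS : ∀ x, x ∈ S ↔ x ∈ (P : Subgroup G) := by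
    intro x
    simp [hS]
  have h1S : (1 : G) ∈ S := (hmemS 1).mpr (one_mem _)
  have hScard : S.card = p := by
    rw [← hP, Nat.card_eq_fintype_card, Fintype.card_subtype]
  have hS'card : (S.erase 1).card = p - 1 := by
    rw [Finset.card_erase_of_mem h1S, hScard]
  have hmemS' : ∀ x ∈ S.erase 1, x ∈ (P : Subgroup G) ∧ x ≠ 1 := by
    intro x hx
    rw [Finset.mem_erase] at hx
    exact ⟨(hmemS x).mp hx.2, hx.1⟩
  -- multiplicities of the trivial character of P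
  have hm : ∀ χ : Cfsg.IrrCharacter G, ∃ m : ℕ, ∑ x ∈ S, (χ : G → ℂ) x = (p : ℂ) * m := by
    intro χ
    obtain ⟨n, hn⟩ := Helper81.exists_linMult χ (P : Subgroup G).subtype
      (1 : ↥(P : Subgroup G) →* ℂˣ)
    refine ⟨n, ?_⟩
    rw [Finset.sum_subtype S hmemS]
    rw [← Nat.card_eq_fintype_card, hP] at hn
    rw [← hn]
    refine Finset.sum_congr rfl (fun x _ => ?_)
    simp
  choose m hm using hm
  obtain ⟨c, hc1, hc⟩ := Helper41.br_theta_decomp T.Y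
  have hYcard : T.Y.card = t := by
    rw [T.hcardY, ← hqt, Nat.mul_div_cancel_left t hqpos]
  rw [hYcard] at hc1
  have hd1 : ∀ χ : Cfsg.IrrCharacter G,
      (χ : G → ℂ) 1 = (Cfsg.charDegree (χ : G → ℂ) : ℂ) := fun χ => Helper80.irr_one_eq χ
  -- value at 1
  have hYat1 : ∑ θ ∈ T.Y, (θ : G → ℂ) 1 * conj ((θ : G → ℂ) 1) = (t : ℂ) * (q : ℂ) ^ 2 := by
    have h1 : ∀ θ ∈ T.Y, (θ : G → ℂ) 1 * conj ((θ : G → ℂ) 1) = (q : ℂ) ^ 2 := by
      intro θ hθ
      rw [hd1 θ, hY θ hθ, Complex.conj_natCast]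
      ring
    rw [Finset.sum_congr rfl h1, Finset.sum_const, hYcard, nsmul_eq_mul]
  have hI : ∑ᶠ χ : Cfsg.IrrCharacter G, (c χ : ℂ) * (Cfsg.charDegree (χ : G → ℂ) : ℂ)
      = (t : ℂ) * (q : ℂ) ^ 2 := by
    rw [← hYat1, hc 1]
    refine finsum_congr (fun χ => ?_)
    rw [hd1 χ]
  have hII : ∑ᶠ χ : Cfsg.IrrCharacter G, (c χ : ℂ) * ((p : ℂ) * (m χ : ℂ))
      = (t : ℂ) * (q : ℂ) ^ 2 + ((p : ℂ) - 1) * ((p : ℂ) - q) := by
    have h1 : ∑ x ∈ S, ∑ θ ∈ T.Y, (θ : G → ℂ) x * conj ((θ : G → ℂ) x)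
        = (t : ℂ) * (q : ℂ) ^ 2 + ((p : ℂ) - 1) * ((p : ℂ) - q) := by
      rw [← Finset.add_sum_erase S _ h1S, hYat1]
      congr 1
      rw [Finset.sum_congr rfl (fun x hx => hT4 x (hmemS' x hx).1 (hmemS' x hx).2),
        Finset.sum_const, hS'card, nsmul_eq_mul, Nat.cast_sub hp1, Nat.cast_one]
    rw [← h1, Finset.sum_congr rfl (fun x _ => hc x), finsum_eq_sum_of_fintype]
    simp_rw [finsum_eq_sum_of_fintype]
    rw [Finset.sum_comm]
    refine Finset.sum_congr rfl (fun χ _ => ?_)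
    rw [← Finset.mul_sum, hm χ]
  set K : Finset (Cfsg.IrrCharacter G) :=
    Finset.univ.filter (fun χ => χ ∉ Cfsg.principalBlock M G) with hKdef
  have hK : ∀ χ : Cfsg.IrrCharacter G, χ ∈ K ↔ χ ∉ Cfsg.principalBlock M G := by
    intro χ
    simp [hKdef]
  rw [Helper8.br_sum_split T K hK] at hI hII
  -- the multiplicities
  have hm_triv : m (Helper81.trivIrr G) = 1 := by
    have h := hm (Helper81.trivIrr G)
    simp only [Helper81.trivIrr_apply, Finset.sum_const, nsmul_eq_mul, mul_one, hScard] at h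
    have h2 : (p : ℂ) * 1 = (p : ℂ) * (m (Helper81.trivIrr G) : ℂ) := by
      rw [mul_one]
      exact h
    have h3 := mul_left_cancel₀ hpC h2
    exact_mod_cast h3.symm
  have hd_triv : Cfsg.charDegree (Helper81.trivIrr G : G → ℂ) = 1 := by
    have h := hd1 (Helper81.trivIrr G)
    rw [Helper81.trivIrr_apply] at h
    exact_mod_cast h.symm
  have hmX1 : ∀ χ ∈ T.X1, m χ = n + 1 := by
    intro χ hχ
    have h := hm χ
    rw [← Finset.add_sum_erase S _ h1S, hd1 χ] at h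
    have h2 : ∀ x ∈ S.erase 1, (χ : G → ℂ) x = 1 := by
      intro x hx
      have := (T.hX1 χ hχ).2 x (hmemS' x hx).1 (hmemS' x hx).2 1 (one_mem _) hnotdvd
      rwa [mul_one] at this
    rw [Finset.sum_congr rfl h2, Finset.sum_const, hS'card, nsmul_eq_mul, mul_one,
      hX1 χ hχ] at h
    have h3 : (1 + n * p) + (p - 1) = p * m χ := by exact_mod_cast h
    have h5 : p * m χ = p * (n + 1) := by
      rw [← h3]
      have h6 : 1 + n * p + (p - 1) = n * p + p := by omega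
      rw [h6]
      ring
    exact Nat.eq_of_mul_eq_mul_left (by omega) h5
  have hmX2 : ∀ χ ∈ T.X2, m χ = 0 := by
    intro χ hχ
    have h := hm χ
    rw [← Finset.add_sum_erase S _ h1S, hd1 χ] at h
    have h2 : ∀ x ∈ S.erase 1, (χ : G → ℂ) x = -1 := by
      intro x hx
      have := (T.hX2 χ hχ).2 x (hmemS' x hx).1 (hmemS' x hx).2 1 (one_mem _) hnotdvd
      rwa [mul_one] at this
    rw [Finset.sum_congr rfl h2, Finset.sum_const, hS'card, nsmul_eq_mul, hX2 χ hχ] at h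
    have h5 : (p : ℂ) * (m χ : ℂ) = 0 := by
      rw [← h]
      ring
    rcases mul_eq_zero.mp h5 with h6 | h6
    · exact absurd h6 hpC
    · exact_mod_cast h6
  have hmY : ∀ θ ∈ T.Y, m θ = 0 := by
    have h1 : ∑ θ ∈ T.Y, (p : ℂ) * (m θ : ℂ) = 0 := by
      rw [← Finset.sum_congr rfl (fun θ _ => hm θ), Finset.sum_comm,
        ← Finset.add_sum_erase S _ h1S]
      rw [Finset.sum_congr rfl (fun x hx => hT1 x (hmemS' x hx).1 (hmemS' x hx).2),
        Finset.sum_const, hS'card, nsmul_eq_mul, hε]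
      have h2 : ∑ θ ∈ T.Y, (θ : G → ℂ) 1 = (t : ℂ) * q := by
        have h3 : ∀ θ ∈ T.Y, (θ : G → ℂ) 1 = (q : ℂ) := by
          intro θ hθ
          rw [hd1 θ, hY θ hθ]
        rw [Finset.sum_congr rfl h3, Finset.sum_const, hYcard, nsmul_eq_mul]
      rw [h2]
      have h3 : ((p - 1 : ℕ) : ℂ) = (q : ℂ) * t := by
        rw [← hqt]
        push_cast
        ring
      rw [h3]
      push_cast
      ring
    have h2 : ∑ θ ∈ T.Y, m θ = 0 := by
      rw [← Finset.mul_sum] at h1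
      rcases mul_eq_zero.mp h1 with h | h
      · exact absurd h hpC
      · exact_mod_cast h
    intro θ hθ
    exact (Finset.sum_eq_zero_iff.mp h2) θ hθ
  have hmK : ∀ χ ∈ K, Cfsg.charDegree (χ : G → ℂ) = p * m χ := by
    intro χ hχ
    have h := hm χ
    rw [← Finset.add_sum_erase S _ h1S, hd1 χ] at h
    rw [Finset.sum_congr rfl
      (fun x hx => hT3 χ ((hK χ).mp hχ) x (hmemS' x hx).1 (hmemS' x hx).2),
      Finset.sum_const_zero, add_zero] at h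
    exact_mod_cast h
  -- the two counting equations
  have eA1 : ∑ χ ∈ T.X1, (c χ : ℂ) * (Cfsg.charDegree (χ : G → ℂ) : ℂ)
      = (((1 + n * p) * ∑ χ ∈ T.X1, c χ : ℕ) : ℂ) := by
    rw [Finset.sum_congr rfl (fun χ hχ => by rw [hX1 χ hχ]), ← Finset.sum_mul]
    push_cast
    ring
  have eB1 : ∑ χ ∈ T.X2, (c χ : ℂ) * (Cfsg.charDegree (χ : G → ℂ) : ℂ)
      = (((p - 1) * ∑ χ ∈ T.X2, c χ : ℕ) : ℂ) := by
    rw [Finset.sum_congr rfl (fun χ hχ => by rw [hX2 χ hχ]), ← Finset.sum_mul,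
      Nat.cast_mul, Nat.cast_sum]
    ring
  have eC1 : ∑ χ ∈ T.Y, (c χ : ℂ) * (Cfsg.charDegree (χ : G → ℂ) : ℂ)
      = ((q * ∑ χ ∈ T.Y, c χ : ℕ) : ℂ) := by
    rw [Finset.sum_congr rfl (fun χ hχ => by rw [hY χ hχ]), ← Finset.sum_mul,
      Nat.cast_mul, Nat.cast_sum]
    ring
  have eW1 : ∑ χ ∈ K, (c χ : ℂ) * (Cfsg.charDegree (χ : G → ℂ) : ℂ)
      = ((p * ∑ χ ∈ K, c χ * m χ : ℕ) : ℂ) := by
    rw [Finset.sum_congr rfl (fun χ hχ => by rw [hmK χ hχ]), Nat.cast_mul, Nat.cast_sum,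
      Finset.mul_sum]
    refine Finset.sum_congr rfl (fun χ _ => ?_)
    push_cast
    ring
  have h1 : t * q ^ 2 = t + (1 + n * p) * (∑ χ ∈ T.X1, c χ)
      + (p - 1) * (∑ χ ∈ T.X2, c χ) + q * (∑ χ ∈ T.Y, c χ) + p * (∑ χ ∈ K, c χ * m χ) := by
    rw [eA1, eB1, eC1, eW1, hc1, hd_triv] at hI
    have h := hI.symm
    rw [Nat.cast_one, mul_one] at h
    exact_mod_cast h
  have eA2 : ∑ χ ∈ T.X1, (c χ : ℂ) * ((p : ℂ) * (m χ : ℂ))
      = (p : ℂ) * (((n + 1) * ∑ χ ∈ T.X1, c χ : ℕ) : ℂ) := by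
    rw [Finset.sum_congr rfl (fun χ hχ => by rw [hmX1 χ hχ]), ← Finset.sum_mul]
    push_cast
    ring
  have eB2 : ∑ χ ∈ T.X2, (c χ : ℂ) * ((p : ℂ) * (m χ : ℂ)) = 0 := by
    apply Finset.sum_eq_zero
    intro χ hχ
    rw [hmX2 χ hχ]
    simp
  have eC2 : ∑ χ ∈ T.Y, (c χ : ℂ) * ((p : ℂ) * (m χ : ℂ)) = 0 := by
    apply Finset.sum_eq_zero
    intro χ hχ
    rw [hmY χ hχ]
    simp
  have eW2 : ∑ χ ∈ K, (c χ : ℂ) * ((p : ℂ) * (m χ : ℂ))
      = (p : ℂ) * ((∑ χ ∈ K, c χ * m χ : ℕ) : ℂ) := by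
    rw [Nat.cast_sum, Finset.mul_sum]
    refine Finset.sum_congr rfl (fun χ _ => ?_)
    push_cast
    ring
  have h2 : t * q = t + (n + 1) * (∑ χ ∈ T.X1, c χ) + ∑ χ ∈ K, c χ * m χ := by
    rw [eA2, eB2, eC2, eW2, hc1, hm_triv] at hII
    have h3 : ((p : ℂ) - 1) = (q : ℂ) * t := by
      rw [← Nat.cast_one, ← Nat.cast_sub hp1, ← hqt]
      push_cast
      ring
    rw [h3] at hII
    have h4 : (p : ℂ) * (((t + (n + 1) * (∑ χ ∈ T.X1, c χ) + ∑ χ ∈ K, c χ * m χ : ℕ)) : ℂ)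
        = (p : ℂ) * ((t * q : ℕ) : ℂ) := by
      push_cast
      push_cast at hII
      linear_combination hII
    have h6 := mul_left_cancel₀ hpC h4
    exact_mod_cast h6.symm
  exact brn_alpha_numerics p q n t a _ _ _ _ hn ht ha hqa hpeq h1 h2

/-- S2h -/
theorem brn_stage_alpha {G : Type u} [Group G] [Fintype G] {p : ℕ} [Fact p.Prime]
    {M : Ideal Cfsg.AlgInt} (hM : Cfsg.IsPModular p M)
    (P : Sylow p G) (hP : Nat.card (P : Subgroup G) = p)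
    (hC : Nat.card (Subgroup.centralizer ((P : Subgroup G) : Set G)) = p)
    (q n t a : ℕ) (T : Cfsg.Agent.Helper9.BRTab p M P q) (hn : 1 ≤ n) (ht : 2 ≤ t)
    (hqt : q * t = p - 1) (ha : 1 ≤ a) (hqa : q = 1 + a * (n + 1)) (hε : T.ε = 1)
    (hX1 : ∀ χ ∈ T.X1, Cfsg.charDegree (χ : G → ℂ) = 1 + n * p)
    (hX2 : ∀ χ ∈ T.X2, Cfsg.charDegree (χ : G → ℂ) = p - 1)
    (hY : ∀ θ ∈ T.Y, Cfsg.charDegree (θ : G → ℂ) = q) : n = 1 ∧ t = 2 := by
  have hqpos : 0 < q := by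
    rw [hqa]
    omega
  have hYne : T.Y.Nonempty := by
    rw [← Finset.card_pos, T.hcardY, ← hqt, Nat.mul_div_cancel_left t hqpos]
    omega
  exact brn_stage_alpha_core P hP q n t a T hn ht hqt ha hqa hε hX1 hX2 hY
    (fun y hy hy1 => Helper75.br_theta_sum hM T hYne y hy hy1)
    (fun χ hχ y hy hy1 => Helper75.br_vanish hM P hP hC χ hχ y hy hy1)
    (fun y hy hy1 => Helper75.br_block_sq_sum hM hP T y hy hy1)

end Cfsg.Agent.Helper65
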