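-- helper65 library: PIECE SEa of CALL S0996 (helper79): the table at an involution inverting P.
import Cfsg.Agent.Helper9.BRDefs
import Cfsg.Agent.Helper31.BRK3

set_option autoImplicit false
open Cfsg
open scoped ComplexConjugate

universe u

namespace Cfsg.Agent.Helper65

/-- SEa -/
theorem brn_even_table {G : Type u} [Group G] [Fintype G] {p : ℕ} [Fact p.Prime] (hodd : p ≠ 2)
    {M : Ideal Cfsg.AlgInt} (P : Sylow p G) (hP : Nat.card (P : Subgroup G) = p) (q : ℕ)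
    (T : Cfsg.Agent.Helper9.BRTab p M P q) (mP : Cfsg.IrrCharacter G → ℕ)
    (hmP : ∀ χ : Cfsg.IrrCharacter G,
        ∑ᶠ x : (P : Subgroup G), (χ : G → ℂ) (x : G) = (p : ℂ) * (mP χ : ℂ))
    (τ : G) (hτ : orderOf τ = 2) (hinv : ∀ x : G, x ∈ (P : Subgroup G) → τ * x * τ⁻¹ = x⁻¹) :
    ∃ (r : Cfsg.IrrCharacter G → ℤ) (κ : ℤ),
      (∀ χ : Cfsg.IrrCharacter G, (χ : G → ℂ) τ = (r χ : ℂ)) ∧
      (∀ χ : Cfsg.IrrCharacter G, |r χ| ≤ (mP χ : ℤ)) ∧ (∀ θ ∈ T.Y, r θ = κ) := by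
  classical
  have hpp : p.Prime := Fact.out
  have hpC : (p : ℂ) ≠ 0 := by exact_mod_cast hpp.ne_zero
  have hnotdvdτ : ¬ p ∣ orderOf τ := by
    rw [hτ]
    intro h
    exact hodd ((Nat.prime_dvd_prime_iff_eq hpp Nat.prime_two).mp h)
  have hPodd : Odd (Nat.card (P : Subgroup G)) := by
    rw [hP]
    exact hpp.odd_of_ne_two hodd
  have hm : ∀ χ : Cfsg.IrrCharacter G, ∃ m₁ m₂ : ℕ, (χ : G → ℂ) τ = (m₁ : ℂ) - (m₂ : ℂ) ∧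
      m₁ + m₂ = mP χ := by
    intro χ
    obtain ⟨m₁, m₂, h1, h2⟩ := Helper31.br_dihedral χ (P : Subgroup G) hPodd τ hτ hinv
    refine ⟨m₁, m₂, h1, ?_⟩
    rw [hmP χ, hP] at h2
    have h3 := mul_left_cancel₀ hpC h2
    exact_mod_cast h3.symm
  choose m₁ m₂ hmτ hmsum using hm
  have hrτ : ∀ χ : Cfsg.IrrCharacter G,
      (χ : G → ℂ) τ = (((m₁ χ : ℤ) - (m₂ χ : ℤ) : ℤ) : ℂ) := by
    intro χ
    rw [hmτ χ]
    push_cast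
    ring
  have habs : ∀ χ : Cfsg.IrrCharacter G, |(m₁ χ : ℤ) - (m₂ χ : ℤ)| ≤ (mP χ : ℤ) := by
    intro χ
    rw [← hmsum χ, abs_le]
    push_cast
    constructor <;> linarith [Int.natCast_nonneg (m₁ χ), Int.natCast_nonneg (m₂ χ)]
  by_cases hY : T.Y.Nonempty
  · obtain ⟨θ₀, hθ₀⟩ := hY
    refine ⟨fun χ => (m₁ χ : ℤ) - (m₂ χ : ℤ), (m₁ θ₀ : ℤ) - (m₂ θ₀ : ℤ), hrτ, habs, ?_⟩
    intro θ hθ
    have h1 := T.hYreg θ hθ θ₀ hθ₀ τ hnotdvdτ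
    rw [hrτ θ, hrτ θ₀] at h1
    exact_mod_cast h1
  · refine ⟨fun χ => (m₁ χ : ℤ) - (m₂ χ : ℤ), 0, hrτ, habs, ?_⟩
    intro θ hθ
    exact absurd ⟨θ, hθ⟩ hY

end Cfsg.Agent.Helper65
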