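-- helper65 library: PIECE KL of CALL S2608 (helper45): A/I = V4 x C_f from a split cyclic quotient.
import Mathlib

set_option autoImplicit false
set_option linter.unusedVariables false

namespace Cfsg.Agent.Helper65.OctP

/-- Re-bracketing `V4 × C_f`. -/
def kleinAssoc (f : ℕ) :
    Multiplicative (ZMod 2 × ZMod 2) × Multiplicative (ZMod f) ≃*
      Multiplicative (ZMod 2 × ZMod 2 × ZMod f) where
  toFun p := Multiplicative.ofAdd
    ((Multiplicative.toAdd p.1).1, (Multiplicative.toAdd p.1).2, Multiplicative.toAdd p.2)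
  invFun x := (Multiplicative.ofAdd ((Multiplicative.toAdd x).1, (Multiplicative.toAdd x).2.1),
    Multiplicative.ofAdd (Multiplicative.toAdd x).2.2)
  left_inv _ := rfl
  right_inv _ := rfl
  map_mul' _ _ := rfl

/-- PIECE KL -/
theorem out_klein_field {A : Type*} [Group A] (I : Subgroup A) [I.Normal] {C : Type*} [Group C]
    (hcyc : IsCyclic C) (f : ℕ) (hC : Nat.card C = f) (hf : 0 < f) (Θ : A →* C) (s : C →* A)
    (hs : ∀ c, Θ (s c) = c) (hI : I ≤ Θ.ker)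
    (φ : ↥(Θ.ker) →* Multiplicative (ZMod 2 × ZMod 2)) (hφs : Function.Surjective φ)
    (hφk : φ.ker = I.subgroupOf Θ.ker)
    (hcomm : ∀ k ∈ Θ.ker, ∀ c : C, s c * k * (s c)⁻¹ * k⁻¹ ∈ I) :
    Nonempty (A ⧸ I ≃* Multiplicative (ZMod 2 × ZMod 2 × ZMod f)) := by
  classical
  -- the kernel part of an element
  have hker : ∀ a : A, a * (s (Θ a))⁻¹ ∈ Θ.ker := by
    intro a
    rw [MonoidHom.mem_ker, map_mul, map_inv, hs, mul_inv_cancel]
  have hφI : ∀ (x : A) (hx : x ∈ Θ.ker), x ∈ I → φ ⟨x, hx⟩ = 1 := by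
    intro x hx hxI
    have h1 : (⟨x, hx⟩ : ↥(Θ.ker)) ∈ φ.ker := by
      rw [hφk, Subgroup.mem_subgroupOf]
      exact hxI
    exact h1
  have hIφ : ∀ (x : A) (hx : x ∈ Θ.ker), φ ⟨x, hx⟩ = 1 → x ∈ I := by
    intro x hx h
    have h1 : (⟨x, hx⟩ : ↥(Θ.ker)) ∈ φ.ker := h
    rw [hφk, Subgroup.mem_subgroupOf] at h1
    exact h1
  -- the homomorphism
  let Ψ : A →* Multiplicative (ZMod 2 × ZMod 2) × C :=
    { toFun := fun a => (φ ⟨a * (s (Θ a))⁻¹, hker a⟩, Θ a)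
      map_one' := by
        refine Prod.ext ?_ (map_one Θ)
        have h1 : (⟨(1 : A) * (s (Θ 1))⁻¹, hker 1⟩ : ↥(Θ.ker)) = 1 := by
          apply Subtype.ext
          simp
        show φ ⟨(1 : A) * (s (Θ 1))⁻¹, hker 1⟩ = 1
        rw [h1, map_one]
      map_mul' := by
        intro a b
        refine Prod.ext ?_ (map_mul Θ a b)
        show φ ⟨a * b * (s (Θ (a * b)))⁻¹, hker (a * b)⟩
          = φ ⟨a * (s (Θ a))⁻¹, hker a⟩ * φ ⟨b * (s (Θ b))⁻¹, hker b⟩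
        -- a b s(Θ(ab))⁻¹ = k_a * (s k_b s⁻¹ k_b⁻¹) * k_b
        have hkb := hker b
        have hc := hcomm (b * (s (Θ b))⁻¹) hkb (Θ a)
        have hcker : s (Θ a) * (b * (s (Θ b))⁻¹) * (s (Θ a))⁻¹ * (b * (s (Θ b))⁻¹)⁻¹ ∈ Θ.ker :=
          hI hc
        have h1 : (⟨a * b * (s (Θ (a * b)))⁻¹, hker (a * b)⟩ : ↥(Θ.ker))
            = ⟨a * (s (Θ a))⁻¹, hker a⟩
              * ⟨s (Θ a) * (b * (s (Θ b))⁻¹) * (s (Θ a))⁻¹ * (b * (s (Θ b))⁻¹)⁻¹, hcker⟩
              * ⟨b * (s (Θ b))⁻¹, hkb⟩ := by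
          apply Subtype.ext
          simp only [Subgroup.coe_mul, map_mul, mul_inv_rev]
          group
        rw [h1, map_mul, map_mul, hφI _ hcker hc, mul_one] }
  have hΨ : ∀ a, Ψ a = (φ ⟨a * (s (Θ a))⁻¹, hker a⟩, Θ a) := fun a => rfl
  have hkerΨ : I = Ψ.ker := by
    ext a
    rw [MonoidHom.mem_ker, hΨ, Prod.ext_iff]
    constructor
    · intro ha
      have hΘ : Θ a = 1 := hI ha
      refine ⟨?_, hΘ⟩
      apply hφI
      show a * (s (Θ a))⁻¹ ∈ I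
      rw [hΘ, map_one, inv_one, mul_one]
      exact ha
    · rintro ⟨h1, h2⟩
      have h3 := hIφ _ _ h1
      have h4 : Θ a = 1 := h2
      rw [h4, map_one, inv_one, mul_one] at h3
      exact h3
  have hsurj : Function.Surjective Ψ := by
    rintro ⟨v, c⟩
    obtain ⟨k, hk⟩ := hφs v
    refine ⟨(k : A) * s c, ?_⟩
    have hΘk : Θ (k : A) = 1 := k.2
    have hΘ : Θ ((k : A) * s c) = c := by
      rw [map_mul, hΘk, one_mul, hs]
    rw [hΨ]
    refine Prod.ext ?_ hΘ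
    show φ ⟨(k : A) * s c * (s (Θ ((k : A) * s c)))⁻¹, _⟩ = v
    have h1 : (⟨(k : A) * s c * (s (Θ ((k : A) * s c)))⁻¹, hker _⟩ : ↥(Θ.ker)) = k := by
      apply Subtype.ext
      show (k : A) * s c * (s (Θ ((k : A) * s c)))⁻¹ = k
      rw [hΘ, mul_assoc, mul_inv_cancel, mul_one]
    rw [h1, hk]
  -- C is cyclic of order f
  have e1 : A ⧸ I ≃* Multiplicative (ZMod 2 × ZMod 2) × C :=
    (QuotientGroup.quotientMulEquivOfEq hkerΨ).trans
      (QuotientGroup.quotientKerEquivOfSurjective Ψ hsurj)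
  have e2 : C ≃* Multiplicative (ZMod f) := by
    have e3 := (zmodCyclicMulEquiv hcyc).symm
    rw [hC] at e3
    exact e3
  exact ⟨(e1.trans (MulEquiv.prodCongr (MulEquiv.refl _) e2)).trans (kleinAssoc f)⟩

end Cfsg.Agent.Helper65.OctP
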