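import Mathlib
import Cfsg.Prelude.Def_KGroupFacts
import Cfsg.Agent.Helper37.DcD

set_option autoImplicit false

/-!
# Covers of alternating groups from generators and relations

Using the presentation of the alternating groups landed by `Helper37` we turn any group
generated by elements satisfying the relations modulo a central subgroup into a central
extension of an alternating group, and we combine stem extensions with kernels of orders two
and three into one with cyclic kernel of order six.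
-/

namespace Cfsg.Agent.Helper65.AltCover

open Cfsg.Agent.Helper37

/-- A group generated by elements satisfying the relations of `Helper37.carmRels` modulo a
central subgroup `Z` maps onto the alternating group with kernel `Z`. -/
theorem alt_cover (m : ℕ) {U : Type*} [Group U] (x : ℕ → U) (Z : Subgroup U)
    (hZc : Z ≤ Subgroup.center U)
    (h0 : x 0 ^ 3 ∈ Z) (h1 : ∀ j, 1 ≤ j → j < m + 1 + 1 + 1 → x j * x j ∈ Z)
    (h2 : ∀ i, i + 1 < m + 1 + 1 + 1 → (x i * x (i + 1)) ^ 3 ∈ Z)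
    (h3 : ∀ i j, i + 1 < j → j < m + 1 + 1 + 1 → (x i * x j) ^ 2 ∈ Z)
    (hnt : x 1 ∉ Z) :
    ∃ σ : ↥(Subgroup.closure (Set.range (fun j : Fin (m + 1 + 1 + 1) => x j.val))) →*
        alternatingGroup (Fin (m + 1 + 1 + 3)),
      Function.Surjective σ ∧ ∀ g, g ∈ σ.ker ↔ (g : U) ∈ Z := by
  classical
  obtain ⟨S, hS⟩ : ∃ S : Set U, S = Set.range (fun j : Fin (m + 1 + 1 + 1) => x j.val) :=
    ⟨_, rfl⟩
  rw [← hS]
  obtain ⟨Γ, hΓ⟩ : ∃ Γ : Subgroup U, Γ = Subgroup.closure S := ⟨_, rfl⟩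
  rw [← hΓ]
  have hxΓ : ∀ j, j < m + 1 + 1 + 1 → x j ∈ Γ := fun j hj => by
    rw [hΓ, hS]
    exact Subgroup.subset_closure ⟨⟨j, hj⟩, rfl⟩
  obtain ⟨X, hX⟩ : ∃ X : ℕ → Γ, ∀ j, j < m + 1 + 1 + 1 → ((X j : Γ) : U) = x j :=
    ⟨fun j => if h : j < m + 1 + 1 + 1 then ⟨x j, hxΓ j h⟩ else 1, fun j hj => by
      simp only [dif_pos hj]⟩
  obtain ⟨Z', hZ'⟩ : ∃ Z' : Subgroup Γ, Z' = Z.subgroupOf Γ := ⟨_, rfl⟩
  have hmemZ' : ∀ g : Γ, g ∈ Z' ↔ (g : U) ∈ Z := by
    intro g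
    rw [hZ', Subgroup.mem_subgroupOf]
  have hZn : Z'.Normal := by
    constructor
    intro a ha g
    rw [hmemZ'] at ha ⊢
    have hc := Subgroup.mem_center_iff.mp (hZc ha) (g : U)
    rw [Subgroup.coe_mul, Subgroup.coe_mul, Subgroup.coe_inv, hc, mul_inv_cancel_right]
    exact ha
  have hπ1 : ∀ g : Γ, (QuotientGroup.mk' Z') g = 1 ↔ (g : U) ∈ Z := by
    intro g
    rw [QuotientGroup.mk'_apply, QuotientGroup.eq_one_iff, hmemZ']
  have hrel : ∀ r ∈ carmRels (m + 1 + 1 + 1), FreeGroup.lift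
      (fun j : Fin (m + 1 + 1 + 1) => (QuotientGroup.mk' Z') (X j.val)) r = 1 := by
    intro r hr
    rcases hr with ((⟨i, hi, rfl⟩ | ⟨i, hi, rfl⟩) | ⟨i, j, hij, rfl⟩) | ⟨i, j, hij, rfl⟩
    · simp only [map_pow, FreeGroup.lift_apply_of]
      rw [hi, ← map_pow, hπ1, Subgroup.coe_pow, hX 0 (by omega)]
      exact h0
    · simp only [map_pow, FreeGroup.lift_apply_of]
      rw [pow_two, ← map_mul, hπ1, Subgroup.coe_mul, hX _ i.2]
      exact h1 _ hi i.2
    · simp only [map_pow, map_mul, FreeGroup.lift_apply_of]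
      rw [hij, ← map_mul, ← map_pow, hπ1, Subgroup.coe_pow, Subgroup.coe_mul,
        hX _ (by omega), hX _ (by omega)]
      exact h2 _ (by omega)
    · simp only [map_pow, map_mul, FreeGroup.lift_apply_of]
      rw [← map_mul, ← map_pow, hπ1, Subgroup.coe_pow, Subgroup.coe_mul, hX _ i.2, hX _ j.2]
      exact h3 _ _ hij j.2
  obtain ⟨ψ, hψ⟩ : ∃ ψ : PresentedGroup (carmRels (m + 1 + 1 + 1)) →* Γ ⧸ Z',
      ∀ j : Fin (m + 1 + 1 + 1), ψ (PresentedGroup.of j) = (QuotientGroup.mk' Z') (X j.val) :=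
    ⟨PresentedGroup.toGroup hrel, fun j => PresentedGroup.toGroup.of hrel⟩
  have hsurj : Function.Surjective ψ := by
    have hT : (ψ.range).comap (QuotientGroup.mk' Z') = ⊤ := by
      rw [eq_top_iff]
      intro g _
      have hg : (g : U) ∈ Subgroup.closure S := by
        rw [← hΓ]
        exact g.2
      have key : ∀ u (hu : u ∈ Subgroup.closure S),
          (⟨u, hΓ ▸ hu⟩ : Γ) ∈ (ψ.range).comap (QuotientGroup.mk' Z') := by
        intro u hu
        induction hu using Subgroup.closure_induction with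
        | mem u hu =>
          rw [hS] at hu
          obtain ⟨j, rfl⟩ := hu
          have hg : (⟨x j.val, hΓ ▸ Subgroup.subset_closure (hS ▸ ⟨j, rfl⟩)⟩ : Γ) = X j.val :=
            Subtype.ext (hX j.val j.2).symm
          rw [hg, Subgroup.mem_comap, ← hψ]
          exact ⟨_, rfl⟩
        | one => exact Subgroup.one_mem _
        | mul a b ha hb iha ihb => exact Subgroup.mul_mem _ iha ihb
        | inv a ha iha => exact Subgroup.inv_mem _ iha
      exact key g.1 hg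
    intro q
    obtain ⟨g, rfl⟩ := QuotientGroup.mk'_surjective Z' q
    have : g ∈ (ψ.range).comap (QuotientGroup.mk' Z') := by
      rw [hT]
      exact Subgroup.mem_top g
    exact this
  have hstar : PresentedGroup.of (⟨1, by omega⟩ : Fin (m + 1 + 1 + 1)) ∉ ψ.ker := by
    intro h
    rw [MonoidHom.mem_ker, hψ, hπ1, hX 1 (by omega)] at h
    exact hnt h
  obtain ⟨e⟩ := carm_iso (m + 1 + 1)
  have hsimple : IsSimpleGroup (alternatingGroup (Fin (m + 1 + 1 + 3))) :=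
    alternatingGroup.isSimpleGroup (by rw [Nat.card_fin]; omega)
  have hsimple' : IsSimpleGroup (PresentedGroup (carmRels (m + 1 + 1 + 1))) := e.isSimpleGroup
  have hker : ψ.ker = ⊥ := by
    rcases (MonoidHom.normal_ker ψ).eq_bot_or_eq_top with h | h
    · exact h
    · exfalso
      apply hstar
      rw [h]
      exact Subgroup.mem_top _
  have hinj : Function.Injective ψ := (MonoidHom.ker_eq_bot_iff ψ).mp hker
  obtain ⟨θ, hθ⟩ : ∃ θ : Γ ⧸ Z' ≃* alternatingGroup (Fin (m + 1 + 1 + 3)),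
      θ = (MulEquiv.ofBijective ψ ⟨hinj, hsurj⟩).symm.trans e := ⟨_, rfl⟩
  refine ⟨θ.toMonoidHom.comp (QuotientGroup.mk' Z'), ?_, ?_⟩
  · exact θ.surjective.comp (QuotientGroup.mk'_surjective Z')
  · intro g
    rw [MonoidHom.mem_ker, MonoidHom.comp_apply, ← hπ1]
    exact θ.map_eq_one_iff

/-- A quotient isomorphism by a central cyclic subgroup of the commutator subgroup gives a stem
extension. -/
theorem stem_of_quotient {Γ G : Type*} [Group Γ] [Group G] (z : Γ)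
    (hz : z ∈ Subgroup.center Γ) (hzc : z ∈ commutator Γ) [hN : (Subgroup.zpowers z).Normal]
    (e : Γ ⧸ Subgroup.zpowers z ≃* G) :
    ∃ σ : Γ →* G, Cfsg.IsStemExtension σ ∧ σ.ker = Subgroup.zpowers z := by
  have hker : (e.toMonoidHom.comp (QuotientGroup.mk' (Subgroup.zpowers z))).ker =
      Subgroup.zpowers z := by
    ext g
    rw [MonoidHom.mem_ker, MonoidHom.comp_apply]
    show e (QuotientGroup.mk' (Subgroup.zpowers z) g) = 1 ↔ _
    rw [e.map_eq_one_iff, QuotientGroup.mk'_apply, QuotientGroup.eq_one_iff]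
  refine ⟨e.toMonoidHom.comp (QuotientGroup.mk' _),
    ⟨e.surjective.comp (QuotientGroup.mk'_surjective _), ?_, ?_⟩, hker⟩
  · rw [hker, Subgroup.zpowers_le]
    exact hz
  · rw [hker, Subgroup.zpowers_le]
    exact hzc

/-- The fibre product of two stem extensions with kernels of orders two and three is a stem
extension with kernel of order six. -/
theorem stem_fibre_product {G : Type*} [Group G] {Γ₁ Γ₂ : Type*} [Group Γ₁] [Group Γ₂]
    [Finite Γ₁] [Finite Γ₂] (σ₁ : Γ₁ →* G) (σ₂ : Γ₂ →* G)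
    (h₁ : Cfsg.IsStemExtension σ₁) (h₂ : Cfsg.IsStemExtension σ₂)
    (hc₁ : Nat.card σ₁.ker = 2) (hc₂ : Nat.card σ₂.ker = 3) :
    ∃ (P : Subgroup (Γ₁ × Γ₂)) (σ : ↥P →* G), Cfsg.IsStemExtension σ ∧ Nat.card σ.ker = 6 := by
  obtain ⟨hs₁, hcen₁, hder₁⟩ := h₁
  obtain ⟨hs₂, hcen₂, hder₂⟩ := h₂
  obtain ⟨P, hP⟩ : ∃ P : Subgroup (Γ₁ × Γ₂), ∀ p, p ∈ P ↔ σ₁ p.1 = σ₂ p.2 :=
    ⟨{ carrier := {p | σ₁ p.1 = σ₂ p.2}
       mul_mem' := by
         intro a b ha hb
         simp only [Set.mem_ofPred_eq, Prod.fst_mul, Prod.snd_mul, map_mul] at *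
         rw [ha, hb]
       one_mem' := by simp
       inv_mem' := by
         intro a ha
         simp only [Set.mem_ofPred_eq, Prod.fst_inv, Prod.snd_inv, map_inv] at *
         rw [ha] }, fun p => Iff.rfl⟩
  obtain ⟨φ₁, hφ₁⟩ : ∃ φ₁ : ↥P →* Γ₁, ∀ p : ↥P, φ₁ p = p.1.1 :=
    ⟨(MonoidHom.fst Γ₁ Γ₂).comp P.subtype, fun p => rfl⟩
  obtain ⟨φ₂, hφ₂⟩ : ∃ φ₂ : ↥P →* Γ₂, ∀ p : ↥P, φ₂ p = p.1.2 :=
    ⟨(MonoidHom.snd Γ₁ Γ₂).comp P.subtype, fun p => rfl⟩
  have hφ₁s : Function.Surjective φ₁ := by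
    intro a
    obtain ⟨b, hb⟩ := hs₂ (σ₁ a)
    exact ⟨⟨(a, b), (hP _).mpr hb.symm⟩, hφ₁ _⟩
  have hφ₂s : Function.Surjective φ₂ := by
    intro b
    obtain ⟨a, ha⟩ := hs₁ (σ₂ b)
    exact ⟨⟨(a, b), (hP _).mpr ha⟩, hφ₂ _⟩
  have hmap₁ : (commutator ↥P).map φ₁ = commutator Γ₁ := by
    rw [_root_.commutator_def, _root_.commutator_def, Subgroup.map_commutator,
      Subgroup.map_top_of_surjective _ hφ₁s]
  have hmap₂ : (commutator ↥P).map φ₂ = commutator Γ₂ := by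
    rw [_root_.commutator_def, _root_.commutator_def, Subgroup.map_commutator,
      Subgroup.map_top_of_surjective _ hφ₂s]
  have hsq : ∀ k ∈ σ₁.ker, k ^ 2 = 1 := by
    intro k hk
    have h := pow_card_eq_one' (G := σ₁.ker) (x := ⟨k, hk⟩)
    rw [hc₁] at h
    exact congrArg Subtype.val h
  have hcube : ∀ k ∈ σ₂.ker, k ^ 3 = 1 := by
    intro k hk
    have h := pow_card_eq_one' (G := σ₂.ker) (x := ⟨k, hk⟩)
    rw [hc₂] at h
    exact congrArg Subtype.val h
  obtain ⟨σ, hσ⟩ : ∃ σ : ↥P →* G, ∀ p : ↥P, σ p = σ₁ p.1.1 :=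
    ⟨σ₁.comp φ₁, fun p => by rw [MonoidHom.comp_apply, hφ₁]⟩
  have hk₁ : ∀ p : ↥P, p ∈ σ.ker → p.1.1 ∈ σ₁.ker := by
    intro p hp
    rw [MonoidHom.mem_ker, hσ] at hp
    exact MonoidHom.mem_ker.mpr hp
  have hk₂ : ∀ p : ↥P, p ∈ σ.ker → p.1.2 ∈ σ₂.ker := by
    intro p hp
    rw [MonoidHom.mem_ker, hσ] at hp
    rw [MonoidHom.mem_ker, ← (hP p.1).mp p.2]
    exact hp
  refine ⟨P, σ, ⟨?_, ?_, ?_⟩, ?_⟩
  · intro g
    obtain ⟨a, ha⟩ := hs₁ g
    obtain ⟨b, hb⟩ := hs₂ g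
    exact ⟨⟨(a, b), (hP _).mpr (ha.trans hb.symm)⟩, (hσ _).trans ha⟩
  · intro p hp
    rw [Subgroup.mem_center_iff]
    intro q
    have e₁ := Subgroup.mem_center_iff.mp (hcen₁ (hk₁ p hp)) q.1.1
    have e₂ := Subgroup.mem_center_iff.mp (hcen₂ (hk₂ p hp)) q.1.2
    exact Subtype.ext (Prod.ext e₁ e₂)
  · intro p hp
    have ha : p.1.1 ∈ (commutator ↥P).map φ₁ := by
      rw [hmap₁]
      exact hder₁ (hk₁ p hp)
    have hb : p.1.2 ∈ (commutator ↥P).map φ₂ := by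
      rw [hmap₂]
      exact hder₂ (hk₂ p hp)
    obtain ⟨q, hq, hq1⟩ := ha
    obtain ⟨r, hr, hr2⟩ := hb
    rw [hφ₁] at hq1
    rw [hφ₂] at hr2
    have hq2 : q.1.2 ∈ σ₂.ker := by
      rw [MonoidHom.mem_ker, ← (hP q.1).mp q.2, hq1]
      exact MonoidHom.mem_ker.mp (hk₁ p hp)
    have hr1 : r.1.1 ∈ σ₁.ker := by
      rw [MonoidHom.mem_ker, (hP r.1).mp r.2, hr2]
      exact MonoidHom.mem_ker.mp (hk₂ p hp)
    have hA : (q ^ 3).1 = (p.1.1, 1) := by
      rw [Subgroup.coe_pow]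
      refine Prod.ext ?_ ?_
      · rw [Prod.pow_fst, hq1]
        show p.1.1 ^ 3 = p.1.1
        rw [pow_succ, hsq _ (hk₁ p hp), one_mul]
      · rw [Prod.pow_snd]
        exact hcube _ hq2
    have hB : (r ^ 4).1 = (1, p.1.2) := by
      rw [Subgroup.coe_pow]
      refine Prod.ext ?_ ?_
      · rw [Prod.pow_fst]
        show r.1.1 ^ 4 = 1
        rw [show 4 = 2 * 2 from rfl, pow_mul, hsq _ hr1, one_pow]
      · rw [Prod.pow_snd, hr2]
        show p.1.2 ^ 4 = p.1.2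
        rw [pow_succ, hcube _ (hk₂ p hp), one_mul]
    have hp' : p = q ^ 3 * r ^ 4 := by
      apply Subtype.ext
      rw [Subgroup.coe_mul, hA, hB]
      refine Prod.ext ?_ ?_
      · show p.1.1 = p.1.1 * 1
        rw [mul_one]
      · show p.1.2 = 1 * p.1.2
        rw [one_mul]
    rw [hp']
    exact Subgroup.mul_mem _ (Subgroup.pow_mem _ hq 3) (Subgroup.pow_mem _ hr 4)
  · have e : σ.ker ≃ σ₁.ker × σ₂.ker :=
      { toFun := fun p => (⟨p.1.1.1, hk₁ p.1 p.2⟩, ⟨p.1.1.2, hk₂ p.1 p.2⟩)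
        invFun := fun ab => ⟨⟨(ab.1.1, ab.2.1), (hP _).mpr
          ((MonoidHom.mem_ker.mp ab.1.2).trans (MonoidHom.mem_ker.mp ab.2.2).symm)⟩, by
            rw [MonoidHom.mem_ker, hσ]
            exact MonoidHom.mem_ker.mp ab.1.2⟩
        left_inv := fun p => rfl
        right_inv := fun ab => rfl }
    rw [Nat.card_congr e, Nat.card_prod, hc₁, hc₂]

/-- A commutative group of order six is cyclic. -/
theorem isCyclic_of_card_six {K : Type*} [Group K] (hcomm : ∀ a b : K, a * b = b * a)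
    (h : Nat.card K = 6) : IsCyclic K := by
  have hfin : Finite K := Nat.finite_of_card_ne_zero (by rw [h]; norm_num)
  have h2 : Fact (Nat.Prime 2) := ⟨Nat.prime_two⟩
  have h3 : Fact (Nat.Prime 3) := ⟨Nat.prime_three⟩
  obtain ⟨a, ha⟩ := exists_prime_orderOf_dvd_card' (G := K) 2 (by rw [h]; norm_num)
  obtain ⟨b, hb⟩ := exists_prime_orderOf_dvd_card' (G := K) 3 (by rw [h]; norm_num)
  have hab : orderOf (a * b) = 6 := by
    have hc : Commute a b := hcomm a b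
    rw [hc.orderOf_mul_eq_mul_orderOf_of_coprime (by rw [ha, hb]; norm_num), ha, hb]
  exact isCyclic_of_orderOf_eq_card (a * b) (by rw [hab, h])

/-- A cyclic group of order `n` is isomorphic to `Multiplicative (ZMod n)`. -/
theorem mulEquiv_zmod_of_isCyclic {K : Type*} [Group K] (n : ℕ) (h : Nat.card K = n)
    (hc : IsCyclic K) : Nonempty (K ≃* Multiplicative (ZMod n)) := by
  subst h
  exact ⟨(zmodCyclicMulEquiv hc).symm⟩

/-- Two stem extensions with kernels of orders two and three combine to a stem extension with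
cyclic kernel of order six. -/
theorem stem_six {G : Type} [Group G] {Γ₁ Γ₂ : Type} [Group Γ₁] [Group Γ₂]
    [Finite Γ₁] [Finite Γ₂] (σ₁ : Γ₁ →* G) (σ₂ : Γ₂ →* G)
    (h₁ : Cfsg.IsStemExtension σ₁) (h₂ : Cfsg.IsStemExtension σ₂)
    (hc₁ : Nat.card σ₁.ker = 2) (hc₂ : Nat.card σ₂.ker = 3) :
    ∃ (Γ : Type) (_ : Group Γ) (_ : Finite Γ) (σ : Γ →* G),
      Cfsg.IsStemExtension σ ∧ Nonempty (σ.ker ≃* Multiplicative (ZMod 6)) := by
  obtain ⟨P, σ, hσ, hcard⟩ := stem_fibre_product σ₁ σ₂ h₁ h₂ hc₁ hc₂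
  refine ⟨↥P, inferInstance, inferInstance, σ, hσ, ?_⟩
  have hcomm : ∀ a b : σ.ker, a * b = b * a := by
    intro a b
    have := Subgroup.mem_center_iff.mp (hσ.2.1 b.2) a.1
    exact Subtype.ext this
  exact mulEquiv_zmod_of_isCyclic 6 hcard (isCyclic_of_card_six hcomm hcard)

end Cfsg.Agent.Helper65.AltCover
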