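import Mathlib
import Cfsg.Prelude.Def_KGroupFacts

/-!
Central extensions defined by a bimultiplicative cocycle `f : G → G → A`:
the group `BiExt f` on `A × G` with `(a, g) * (b, h) = (a + b + f g h, g * h)`.
-/

namespace Cfsg.Agent.Helper65

open scoped commutatorElement

/-- A bimultiplicative map `G → G → A` into an additive abelian group. -/
structure BiMul (G A : Type*) [Group G] [AddCommGroup A] where
  toFun : G → G → A
  map_mul_left : ∀ g h k, toFun (g * h) k = toFun g k + toFun h k
  map_mul_right : ∀ g h k, toFun g (h * k) = toFun g h + toFun g k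

namespace BiMul

variable {G A : Type*} [Group G] [AddCommGroup A] (f : BiMul G A)

theorem map_one_left (k : G) : f.toFun 1 k = 0 := by
  have h := f.map_mul_left 1 1 k
  rw [mul_one] at h
  exact left_eq_add.mp h

theorem map_one_right (g : G) : f.toFun g 1 = 0 := by
  have h := f.map_mul_right g 1 1
  rw [mul_one] at h
  exact left_eq_add.mp h

theorem map_inv_right (g h : G) : f.toFun g h⁻¹ = - f.toFun g h := by
  have h1 := f.map_mul_right g h h⁻¹
  rw [mul_inv_cancel, map_one_right] at h1
  exact eq_neg_of_add_eq_zero_right h1.symm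

theorem map_inv_left (g h : G) : f.toFun g⁻¹ h = - f.toFun g h := by
  have h1 := f.map_mul_left g g⁻¹ h
  rw [mul_inv_cancel, map_one_left] at h1
  exact eq_neg_of_add_eq_zero_right h1.symm

end BiMul

/-- The underlying type of the central extension defined by a bimultiplicative map. -/
@[ext]
structure BiExt {G A : Type*} [Group G] [AddCommGroup A] (f : BiMul G A) where
  fst : A
  snd : G

namespace BiExt

variable {G A : Type*} [Group G] [AddCommGroup A] (f : BiMul G A)

instance : Mul (BiExt f) := ⟨fun x y => ⟨x.fst + y.fst + f.toFun x.snd y.snd, x.snd * y.snd⟩⟩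
instance : One (BiExt f) := ⟨⟨0, 1⟩⟩
instance : Inv (BiExt f) := ⟨fun x => ⟨-x.fst + f.toFun x.snd x.snd, x.snd⁻¹⟩⟩

theorem mul_fst (x y : BiExt f) : (x * y).fst = x.fst + y.fst + f.toFun x.snd y.snd := rfl
theorem mul_snd (x y : BiExt f) : (x * y).snd = x.snd * y.snd := rfl
theorem one_fst : (1 : BiExt f).fst = 0 := rfl
theorem one_snd : (1 : BiExt f).snd = 1 := rfl
theorem inv_fst (x : BiExt f) : (x⁻¹).fst = -x.fst + f.toFun x.snd x.snd := rfl
theorem inv_snd (x : BiExt f) : (x⁻¹).snd = x.snd⁻¹ := rfl

instance : Group (BiExt f) :=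
  Group.ofLeftAxioms
    (fun x y z => by
      apply BiExt.ext
      · simp only [mul_fst, mul_snd, f.map_mul_left, f.map_mul_right]
        abel
      · simp only [mul_snd, mul_assoc])
    (fun x => by
      apply BiExt.ext
      · simp only [mul_fst, one_fst, one_snd, f.map_one_left]
        abel
      · simp only [mul_snd, one_snd, one_mul])
    (fun x => by
      apply BiExt.ext
      · simp only [mul_fst, inv_fst, inv_snd, one_fst, f.map_inv_left]
        abel
      · simp only [mul_snd, inv_snd, inv_mul_cancel, one_snd])

/-- The projection of the extension onto `G`. -/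
def proj : BiExt f →* G where
  toFun x := x.snd
  map_one' := rfl
  map_mul' _ _ := rfl

/-- The inclusion of `A` into the extension. -/
def incl : Multiplicative A →* BiExt f where
  toFun a := ⟨Multiplicative.toAdd a, 1⟩
  map_one' := rfl
  map_mul' a b := by
    apply BiExt.ext
    · simp only [mul_fst, f.map_one_left, add_zero]
      rfl
    · simp only [mul_snd, mul_one]

theorem proj_apply (x : BiExt f) : proj f x = x.snd := rfl

theorem incl_fst (a : Multiplicative A) : (incl f a).fst = Multiplicative.toAdd a := rfl
theorem incl_snd (a : Multiplicative A) : (incl f a).snd = 1 := rfl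

theorem proj_surjective : Function.Surjective (proj f) := fun g => ⟨⟨0, g⟩, rfl⟩

theorem incl_injective : Function.Injective (incl f) := fun a b h => by
  have := congrArg BiExt.fst h
  exact this

theorem mem_ker_proj_iff (x : BiExt f) : x ∈ (proj f).ker ↔ x.snd = 1 := Iff.rfl

theorem ker_proj_eq_range : (proj f).ker = (incl f).range := by
  ext x
  constructor
  · intro hx
    exact ⟨Multiplicative.ofAdd x.fst, BiExt.ext rfl ((mem_ker_proj_iff f x).mp hx).symm⟩
  · rintro ⟨a, rfl⟩
    exact (mem_ker_proj_iff f _).mpr rfl

theorem ker_proj_le_center : (proj f).ker ≤ Subgroup.center (BiExt f) := by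
  intro x hx
  have hx1 : x.snd = 1 := hx
  rw [Subgroup.mem_center_iff]
  intro y
  apply BiExt.ext
  · simp only [mul_fst, hx1, f.map_one_left, f.map_one_right]
    abel
  · simp only [mul_snd, hx1, mul_one, one_mul]

/-- The kernel of the projection is `A`. -/
noncomputable def kerEquiv : (proj f).ker ≃* Multiplicative A :=
  ((MonoidHom.ofInjective (incl_injective f)).trans
    (MulEquiv.subgroupCongr (ker_proj_eq_range f).symm)).symm

theorem commutator_of_commute (x y : BiExt f) (h : x.snd * y.snd = y.snd * x.snd) :
    ⁅x, y⁆ = incl f (Multiplicative.ofAdd (f.toFun x.snd y.snd - f.toFun y.snd x.snd)) := by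
  rw [commutatorElement_def, mul_inv_eq_iff_eq_mul, mul_inv_eq_iff_eq_mul]
  apply BiExt.ext
  · simp only [mul_fst, mul_snd, incl_fst, incl_snd, f.map_one_left, f.map_mul_left, toAdd_ofAdd]
    abel
  · simp only [mul_snd, incl_snd, one_mul, h]

instance [Finite G] [Finite A] : Finite (BiExt f) :=
  Finite.of_injective (fun x : BiExt f => (x.fst, x.snd)) (fun x y h => by
    apply BiExt.ext
    · exact congrArg Prod.fst h
    · exact congrArg Prod.snd h)

/-- If `G` is commutative and the values `f g h - f h g` generate `A`, the extension is stem. -/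
theorem isStemExtension_proj (hG : ∀ g h : G, g * h = h * g)
    (hgen : AddSubgroup.closure (Set.range (fun p : G × G => f.toFun p.1 p.2 - f.toFun p.2 p.1)) = ⊤) :
    Cfsg.IsStemExtension (proj f) := by
  refine ⟨proj_surjective f, ker_proj_le_center f, ?_⟩
  rw [ker_proj_eq_range]
  rintro _ ⟨a, rfl⟩
  have ha : Multiplicative.toAdd a ∈ AddSubgroup.closure
      (Set.range (fun p : G × G => f.toFun p.1 p.2 - f.toFun p.2 p.1)) := by
    rw [hgen]; trivial
  have key : ∀ b : A, b ∈ AddSubgroup.closure
      (Set.range (fun p : G × G => f.toFun p.1 p.2 - f.toFun p.2 p.1)) →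
      incl f (Multiplicative.ofAdd b) ∈ commutator (BiExt f) := by
    intro b hb
    induction hb using AddSubgroup.closure_induction with
    | mem x hx =>
      obtain ⟨⟨g, h⟩, rfl⟩ := hx
      have := commutator_of_commute f ⟨0, g⟩ ⟨0, h⟩ (hG g h)
      rw [← this]
      exact Subgroup.commutator_mem_commutator (Subgroup.mem_top _) (Subgroup.mem_top _)
    | zero => exact Subgroup.one_mem _
    | add x y _ _ hx hy =>
      rw [ofAdd_add, map_mul]
      exact Subgroup.mul_mem _ hx hy
    | neg x _ hx =>
      rw [ofAdd_neg, map_inv]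
      exact Subgroup.inv_mem _ hx
  exact key _ ha

end BiExt

end Cfsg.Agent.Helper65
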