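import Mathlib
import Cfsg.Prelude.Def_KGroupFacts
import Cfsg.Agent.Helper35.L32Upper
import Cfsg.Agent.Helper66.Dihedral
import Cfsg.Agent.Helper89.Stem
import Cfsg.Agent.S3951
import Cfsg.Agent.Helper65.AltCover

set_option autoImplicit false

/-!
# Upper bound for the Schur multiplier of groups of order `360` and `2520` with dihedral Sylow
`2`-subgroups

If `|G| ∈ {360, 2520}` and `G` contains a dihedral subgroup of order `8`, then every finite stem
extension of `G` has cyclic kernel of order dividing `6`.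
-/

namespace Cfsg.Agent.Helper65.AltBound

open Subgroup

/-- If `16 ∤ |G|` and `G` contains a dihedral subgroup of order `8` generated by `a₀` of order `4`
and an involution `x₀` inverting it, every Sylow `2`-subgroup is of this shape. -/
theorem sylow_two_dihedral {G : Type*} [Group G] [Finite G] (h16 : ¬ 16 ∣ Nat.card G)
    (a0 x0 : G) (ha4 : a0 ^ 4 = 1) (ha2 : a0 ^ 2 ≠ 1) (hxx : x0 * x0 = 1)
    (haxa : a0 * x0 * a0 = x0) (hx0 : x0 ∉ zpowers a0)
    (P : Subgroup G) (hP : ∃ S : Sylow 2 G, (S : Subgroup G) = P) :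
    ∃ a x : ↥P, Subgroup.closure ({a, x} : Set ↥P) = ⊤ ∧
      a * x * a = x ∧ a ^ 4 = 1 ∧ orderOf (a ^ 2) = 2 := by
  obtain ⟨P, rfl⟩ := hP
  have hord0 : orderOf a0 = 4 := by
    have := orderOf_eq_prime_pow (x := a0) (p := 2) (n := 1) (by simpa using ha2)
      (by simpa using ha4)
    simpa using this
  obtain ⟨D, hD⟩ : ∃ D : Subgroup G, D = Subgroup.closure ({a0, x0} : Set G) := ⟨_, rfl⟩
  have haD : a0 ∈ D := by rw [hD]; exact Subgroup.subset_closure (by simp)
  have hxD : x0 ∈ D := by rw [hD]; exact Subgroup.subset_closure (by simp)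
  have hDle : Nat.card D ≤ 8 := by
    rw [hD]
    exact Cfsg.Agent.Helper35.l32dih_closure_card_le a0 x0 4 (by norm_num) ha4 hxx haxa
  have hzle : zpowers a0 ≤ D := (zpowers_le).mpr haD
  have h4 : 4 ∣ Nat.card D := by
    have := Subgroup.card_dvd_of_le hzle
    rwa [Nat.card_zpowers, hord0] at this
  have hne4 : Nat.card D ≠ 4 := by
    intro h
    have heq : zpowers a0 = D := by
      apply Subgroup.eq_of_le_of_card_ge hzle
      rw [h, Nat.card_zpowers, hord0]
    exact hx0 (heq ▸ hxD)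
  have hD8 : Nat.card D = 8 := by
    have hpos : 0 < Nat.card D := Nat.card_pos
    obtain ⟨c, hc⟩ := h4
    omega
  have hDp : IsPGroup 2 D := IsPGroup.of_card (n := 3) (by rw [hD8]; norm_num)
  obtain ⟨Q, hQ⟩ := hDp.exists_le_sylow
  obtain ⟨g, hg⟩ := MulAction.exists_smul_eq G Q P
  have hmem : ∀ y ∈ D, g * y * g⁻¹ ∈ (P : Subgroup G) := by
    intro y hy
    have := Subgroup.smul_mem_pointwise_smul y (MulAut.conj g) (Q : Subgroup G) (hQ hy)
    rw [← hg]
    exact this
  have hcardP : Nat.card (P : Subgroup G) = 8 := by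
    have h1 : Nat.card (P : Subgroup G) = Nat.card (Q : Subgroup G) := by
      rw [Sylow.card_eq_multiplicity, Sylow.card_eq_multiplicity]
    obtain ⟨k, hk⟩ := IsPGroup.iff_card.mp Q.isPGroup'
    have h2 : 8 ≤ Nat.card (Q : Subgroup G) := by
      rw [← hD8]; exact Subgroup.card_le_of_le hQ
    have h3 : Nat.card (Q : Subgroup G) ∣ Nat.card G := Subgroup.card_subgroup_dvd_card _
    rw [h1, hk]
    rw [hk] at h2 h3
    have hk3 : k < 4 := by
      by_contra hcon
      push Not at hcon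
      exact h16 ((pow_dvd_pow 2 hcon).trans h3)
    have hk2 : 3 ≤ k := by
      by_contra hcon
      push Not at hcon
      have : 2 ^ k ≤ 2 ^ 2 := Nat.pow_le_pow_right (by norm_num) (by omega)
      omega
    have : k = 3 := by omega
    rw [this]; norm_num
  obtain ⟨a, ha⟩ : ∃ a : ↥(P : Subgroup G), (a : G) = g * a0 * g⁻¹ :=
    ⟨⟨_, hmem _ haD⟩, rfl⟩
  obtain ⟨x, hx⟩ : ∃ x : ↥(P : Subgroup G), (x : G) = g * x0 * g⁻¹ :=
    ⟨⟨_, hmem _ hxD⟩, rfl⟩
  have hpow : ∀ n : ℕ, ((a ^ n : ↥(P : Subgroup G)) : G) = g * a0 ^ n * g⁻¹ := by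
    intro n
    rw [Subgroup.coe_pow, ha, conj_pow]
  have ha4' : a ^ 4 = 1 := by
    apply Subtype.ext
    rw [hpow, ha4]; simp
  have ha2' : a ^ 2 ≠ 1 := by
    intro h
    have h' := congrArg Subtype.val h
    rw [hpow] at h'
    apply ha2
    have : a0 ^ 2 = g⁻¹ * (g * a0 ^ 2 * g⁻¹) * g := by group
    rw [this, h']; simp
  have hxz : x ∉ zpowers a := by
    intro h
    obtain ⟨k, hk⟩ := mem_zpowers_iff.mp h
    have h' := congrArg Subtype.val hk
    rw [Subgroup.coe_zpow, ha, hx, conj_zpow] at h'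
    apply hx0
    refine mem_zpowers_iff.mpr ⟨k, ?_⟩
    have : a0 ^ k = g⁻¹ * (g * a0 ^ k * g⁻¹) * g := by group
    rw [this, h']; group
  refine ⟨a, x, Cfsg.Agent.Helper35.l32dih_closure_eq_top hcardP a x ha4' ha2' hxz, ?_, ha4', ?_⟩
  · apply Subtype.ext
    rw [Subgroup.coe_mul, Subgroup.coe_mul, ha, hx]
    calc g * a0 * g⁻¹ * (g * x0 * g⁻¹) * (g * a0 * g⁻¹)
        = g * (a0 * x0 * a0) * g⁻¹ := by group
      _ = g * x0 * g⁻¹ := by rw [haxa]
  · have : Fact (Nat.Prime 2) := ⟨Nat.prime_two⟩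
    apply orderOf_eq_prime
    · rw [← pow_mul]; exact ha4'
    · exact ha2'

/-- A group of order nine is generated by two elements, one of them of order dividing three. -/
theorem gen_of_card_nine {P : Type*} [Group P] (h : Nat.card P = 9) :
    ∃ x y : P, Subgroup.closure ({x, y} : Set P) = ⊤ ∧ y ^ 3 = 1 := by
  have hfin : Finite P := Nat.finite_of_card_ne_zero (by rw [h]; norm_num)
  by_cases hc : ∃ g : P, orderOf g = 9
  · obtain ⟨g, hg⟩ := hc
    refine ⟨g, 1, ?_, one_pow 3⟩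
    rw [← Subgroup.card_eq_iff_eq_top, h]
    have h1 : zpowers g ≤ Subgroup.closure ({g, 1} : Set P) :=
      (zpowers_le).mpr (Subgroup.subset_closure (by simp))
    have h2 := Subgroup.card_le_of_le h1
    rw [Nat.card_zpowers, hg] at h2
    have h3 : Nat.card (Subgroup.closure ({g, 1} : Set P)) ≤ 9 := by
      rw [← h]; exact Subgroup.card_le_card_group _
    omega
  · push Not at hc
    have hcube : ∀ y : P, y ^ 3 = 1 := by
      intro y
      have h1 : orderOf y ∣ 9 := by rw [← h]; exact orderOf_dvd_natCard y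
      have h2 : orderOf y ≤ 9 := Nat.le_of_dvd (by norm_num) h1
      have h3 := hc y
      obtain ⟨d, hd⟩ : ∃ d, d = orderOf y := ⟨_, rfl⟩
      rw [← hd] at h1 h2 h3
      have h4 : d ∣ 3 := by
        interval_cases d <;> omega
      rw [hd] at h4
      exact orderOf_dvd_iff_pow_eq_one.mp h4
    have hnt : Nontrivial P := by
      rw [← Finite.one_lt_card_iff_nontrivial, h]
      norm_num
    obtain ⟨x, hx⟩ := exists_ne (1 : P)
    have hox : orderOf x = 3 := by
      have : Fact (Nat.Prime 3) := ⟨Nat.prime_three⟩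
      exact orderOf_eq_prime (hcube x) hx
    have hex : ∃ y : P, y ∉ zpowers x := by
      by_contra hcon
      push Not at hcon
      have htop : zpowers x = ⊤ := by
        rw [eq_top_iff]
        intro y _
        exact hcon y
      have := Nat.card_zpowers x
      rw [htop, Subgroup.card_top, h, hox] at this
      omega
    obtain ⟨y, hy⟩ := hex
    refine ⟨x, y, ?_, hcube y⟩
    have hxm : x ∈ Subgroup.closure ({x, y} : Set P) := Subgroup.subset_closure (by simp)
    have hym : y ∈ Subgroup.closure ({x, y} : Set P) := Subgroup.subset_closure (by simp)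
    have hle : zpowers x ≤ Subgroup.closure ({x, y} : Set P) := (zpowers_le).mpr hxm
    have h3 : 3 ∣ Nat.card (Subgroup.closure ({x, y} : Set P)) := by
      have := Subgroup.card_dvd_of_le hle
      rwa [Nat.card_zpowers, hox] at this
    have h9 : Nat.card (Subgroup.closure ({x, y} : Set P)) ∣ 9 := by
      rw [← h]; exact Subgroup.card_subgroup_dvd_card _
    have hne3 : Nat.card (Subgroup.closure ({x, y} : Set P)) ≠ 3 := by
      intro h'
      have heq : zpowers x = Subgroup.closure ({x, y} : Set P) := by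
        apply Subgroup.eq_of_le_of_card_ge hle
        rw [h', Nat.card_zpowers, hox]
      exact hy (heq ▸ hym)
    rw [← Subgroup.card_eq_iff_eq_top, h]
    obtain ⟨d, hd⟩ : ∃ d, d = Nat.card (Subgroup.closure ({x, y} : Set P)) := ⟨_, rfl⟩
    rw [← hd] at h3 h9 hne3 ⊢
    have hle9 := Nat.le_of_dvd (by norm_num) h9
    interval_cases d <;> omega

theorem prime_sq_dvd_aux : ∀ ℓ < 51, ℓ.Prime → (ℓ ^ 2 ∣ 360 ∨ ℓ ^ 2 ∣ 2520) → ℓ = 2 ∨ ℓ = 3 := by
  decide

theorem prime_sq_dvd (N : ℕ) (hN : N = 360 ∨ N = 2520) (ℓ : ℕ) (hℓ : ℓ.Prime) (h : ℓ ^ 2 ∣ N) :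
    ℓ = 2 ∨ ℓ = 3 := by
  have hlt : ℓ < 51 := by
    by_contra hcon
    push Not at hcon
    have h1 : 51 ^ 2 ≤ ℓ ^ 2 := Nat.pow_le_pow_left hcon 2
    have h2 : ℓ ^ 2 ≤ N := Nat.le_of_dvd (by rcases hN with h | h <;> omega) h
    rcases hN with h | h <;> omega
  apply prime_sq_dvd_aux ℓ hlt hℓ
  rcases hN with rfl | rfl
  · exact Or.inl h
  · exact Or.inr h

theorem dvd_six_of (n : ℕ) (hn : 0 < n) (hp : ∀ ℓ : ℕ, ℓ.Prime → ℓ ∣ n → ℓ = 2 ∨ ℓ = 3)
    (h4 : ¬ 4 ∣ n) (h9 : ¬ 9 ∣ n) : n ∣ 6 := by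
  obtain ⟨a, n', hodd, rfl⟩ := Nat.exists_eq_two_pow_mul_odd hn.ne'
  have hn' : n' ≠ 0 := by
    rintro rfl
    simp at hn
  obtain ⟨e, n'', h3, rfl⟩ := Nat.exists_eq_pow_mul_and_not_dvd hn' 3 (by norm_num)
  have ha : a ≤ 1 := by
    by_contra hcon
    push Not at hcon
    apply h4
    exact Dvd.dvd.mul_right (pow_dvd_pow 2 hcon) _
  have he : e ≤ 1 := by
    by_contra hcon
    push Not at hcon
    apply h9
    exact Dvd.dvd.mul_left (Dvd.dvd.mul_right (pow_dvd_pow 3 hcon) _) _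
  have h1 : n'' = 1 := by
    by_contra hne
    obtain ⟨q, hq, hqd⟩ := Nat.exists_prime_and_dvd hne
    have hqn : q ∣ 2 ^ a * (3 ^ e * n'') :=
      Dvd.dvd.mul_left (Dvd.dvd.mul_left hqd _) _
    rcases hp q hq hqn with rfl | rfl
    · have : 2 ∣ 3 ^ e * n'' := Dvd.dvd.mul_left hqd _
      rw [Nat.odd_iff] at hodd
      omega
    · exact h3 hqd
  rw [h1]
  interval_cases a <;> interval_cases e <;> norm_num

/-- Every finite stem extension of a group of order `360` or `2520` with a dihedral subgroup of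
order `8` has kernel of order dividing `6`. -/
theorem stem_card_dvd_six {G : Type*} [Group G] [Finite G]
    (hcard : Nat.card G = 360 ∨ Nat.card G = 2520)
    (a0 x0 : G) (ha4 : a0 ^ 4 = 1) (ha2 : a0 ^ 2 ≠ 1) (hxx : x0 * x0 = 1)
    (haxa : a0 * x0 * a0 = x0) (hx0 : x0 ∉ zpowers a0)
    {Γ : Type*} [Group Γ] [Finite Γ] (σ : Γ →* G) (hσ : Cfsg.IsStemExtension σ) :
    Nat.card σ.ker ∣ 6 := by
  classical
  have h16 : ¬ 16 ∣ Nat.card G := by
    rcases hcard with h | h <;> rw [h] <;> norm_num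
  have h27 : ¬ 27 ∣ Nat.card G := by
    rcases hcard with h | h <;> rw [h] <;> norm_num
  have h9 : 3 ^ 2 ∣ Nat.card G := by
    rcases hcard with h | h <;> rw [h] <;> norm_num
  have hp : ∀ ℓ : ℕ, ℓ.Prime → ℓ ∣ Nat.card σ.ker → ℓ = 2 ∨ ℓ = 3 := by
    intro ℓ hℓ hdvd
    by_contra hne
    have hfact : Fact ℓ.Prime := ⟨hℓ⟩
    exact Cfsg.Agent.Helper89.Stem.not_dvd_card_ker_of_sq σ hσ.2.1 hσ.2.2 ℓ
      (fun h => hne (prime_sq_dvd _ hcard ℓ hℓ h)) hdvd
  have hinj : ∀ (p : ℕ) [Fact p.Prime] (n : ℕ), p ^ n ∣ Nat.card σ.ker →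
      ∃ L : Sylow p Γ, p ^ n ≤ Nat.card (σ.subgroupMap (L : Subgroup Γ)).ker := by
    intro p _ n hdvd
    obtain ⟨H, hH⟩ := Sylow.exists_subgroup_card_pow_prime p hdvd
    obtain ⟨H', hH'⟩ : ∃ H' : Subgroup Γ, H' = H.map σ.ker.subtype := ⟨_, rfl⟩
    have hcardH' : Nat.card H' = p ^ n := by
      rw [hH', ← hH]
      exact Subgroup.card_map_of_injective (Subgroup.subtype_injective _)
    have hpg : IsPGroup p H' := IsPGroup.of_card hcardH'
    obtain ⟨L, hL⟩ := hpg.exists_le_sylow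
    refine ⟨L, ?_⟩
    rw [← hcardH']
    have hH'ker : ∀ z ∈ H', z ∈ σ.ker := by
      intro z hz
      rw [hH'] at hz
      obtain ⟨w, _, rfl⟩ := hz
      exact w.2
    refine Nat.card_le_card_of_injective (fun z : H' => (⟨⟨z.1, hL z.2⟩, by
        rw [MonoidHom.mem_ker]
        apply Subtype.ext
        exact MonoidHom.mem_ker.mp (hH'ker z.1 z.2)⟩ :
          (σ.subgroupMap (L : Subgroup Γ)).ker)) ?_
    intro z z' hzz
    apply Subtype.ext
    exact congrArg
      (fun t : (σ.subgroupMap (L : Subgroup Γ)).ker => ((t : (L : Subgroup Γ)) : Γ)) hzz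
  have h4 : ¬ 4 ∣ Nat.card σ.ker := by
    intro hdvd
    have hfact : Fact (Nat.Prime 2) := ⟨Nat.prime_two⟩
    obtain ⟨L, hL⟩ := hinj 2 2 hdvd
    have hst := Cfsg.Agent.Helper35.stem_subgroupMap_sylow σ hσ 2 L
    obtain ⟨a, x, hgen, hinv, ha4', hord⟩ := sylow_two_dihedral h16 a0 x0 ha4 ha2 hxx haxa hx0
      ((L : Subgroup Γ).map σ) ⟨L.mapSurjective hσ.1, Sylow.coe_mapSurjective hσ.1 L⟩
    have hle := Cfsg.Agent.Helper66.stem_dihedral_like_card_ker_le
      (σ.subgroupMap (L : Subgroup Γ)) hst a x hgen hinv 4 (Or.inl ha4') (by rw [hord])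
    omega
  have h9' : ¬ 9 ∣ Nat.card σ.ker := by
    intro hdvd
    have hfact : Fact (Nat.Prime 3) := ⟨Nat.prime_three⟩
    obtain ⟨L, hL⟩ := hinj 3 2 hdvd
    have hst := Cfsg.Agent.Helper35.stem_subgroupMap_sylow σ hσ 3 L
    have hcardP : Nat.card ((L : Subgroup Γ).map σ) = 3 ^ 2 := by
      have hS : ((L.mapSurjective hσ.1 : Sylow 3 G) : Subgroup G) = (L : Subgroup Γ).map σ :=
        Sylow.coe_mapSurjective hσ.1 L
      rw [← hS]
      obtain ⟨k, hk⟩ := IsPGroup.iff_card.mp (L.mapSurjective hσ.1).isPGroup'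
      have h1 : 3 ^ 2 ∣ Nat.card (L.mapSurjective hσ.1 : Sylow 3 G) :=
        Sylow.pow_dvd_card_of_pow_dvd_card _ h9
      have h2 : Nat.card (L.mapSurjective hσ.1 : Sylow 3 G) ∣ Nat.card G :=
        Subgroup.card_subgroup_dvd_card _
      rw [hk] at h1 h2 ⊢
      have hk3 : k < 3 := by
        by_contra hcon
        push Not at hcon
        exact h27 ((pow_dvd_pow 3 hcon).trans h2)
      have hk2 : 2 ≤ k := by
        by_contra hcon
        push Not at hcon
        have h5 : 3 ^ k ≤ 3 ^ 1 := Nat.pow_le_pow_right (by norm_num) (by omega)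
        have h6 : 3 ^ 2 ≤ 3 ^ k := Nat.le_of_dvd (by positivity) h1
        omega
      have : k = 2 := by omega
      rw [this]
    letI : CommGroup ↥((L : Subgroup Γ).map σ) := IsPGroup.commGroupOfCardEqPrimeSq hcardP
    obtain ⟨x, y, hgen, hy⟩ := gen_of_card_nine (P := ↥((L : Subgroup Γ).map σ))
      (by rw [hcardP]; norm_num)
    obtain ⟨z, hz, hle⟩ := Cfsg.Agent.S3951.exists_zpowers_of_stem_two_gen
      (σ.subgroupMap (L : Subgroup Γ)) hst x y hgen 3 hy
    have h1 := Subgroup.card_le_of_le hle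
    rw [Nat.card_zpowers] at h1
    have h2 : orderOf z ≤ 3 := Nat.le_of_dvd (by norm_num) (orderOf_dvd_of_pow_eq_one hz)
    omega
  exact dvd_six_of _ Nat.card_pos hp h4 h9'

/-- A central subgroup of order dividing six is a homomorphic image of `Multiplicative (ZMod 6)`. -/
theorem exists_surj_of_card_dvd_six {Γ : Type*} [Group Γ] [Finite Γ] (K : Subgroup Γ)
    (hK : K ≤ center Γ) (h : Nat.card K ∣ 6) :
    ∃ π : Multiplicative (ZMod 6) →* K, Function.Surjective π := by
  have hcomm : ∀ a b : K, a * b = b * a := by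
    intro a b
    have := Subgroup.mem_center_iff.mp (hK b.2) a.1
    exact Subtype.ext this
  have hcyc : IsCyclic K := by
    obtain ⟨d, hd⟩ : ∃ d, d = Nat.card K := ⟨_, rfl⟩
    rw [← hd] at h
    have hle := Nat.le_of_dvd (by norm_num) h
    have hpos : 0 < d := by rw [hd]; exact Nat.card_pos
    have h2 : Fact (Nat.Prime 2) := ⟨Nat.prime_two⟩
    have h3 : Fact (Nat.Prime 3) := ⟨Nat.prime_three⟩
    interval_cases d
    · have : Subsingleton K := (Nat.card_eq_one_iff_unique.mp hd.symm).1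
      exact isCyclic_of_subsingleton
    · exact isCyclic_of_prime_card hd.symm
    · exact isCyclic_of_prime_card hd.symm
    · omega
    · omega
    · exact Cfsg.Agent.Helper65.AltCover.isCyclic_of_card_six hcomm hd.symm
  obtain ⟨g, hg⟩ := hcyc.exists_generator
  refine Cfsg.Agent.S3951.exists_surjective_of_le_zpowers K (g : Γ) 6 ?_ ?_
  · have h1 : g ^ 6 = 1 := by
      rw [← orderOf_dvd_iff_pow_eq_one]
      exact (orderOf_dvd_natCard g).trans h
    have := congrArg Subtype.val h1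
    rwa [Subgroup.coe_pow] at this
  · intro k hk
    obtain ⟨j, hj⟩ := hg ⟨k, hk⟩
    refine ⟨j, ?_⟩
    have := congrArg Subtype.val hj
    rw [Subgroup.coe_zpow] at this
    exact this

end Cfsg.Agent.Helper65.AltBound
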