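-- helper65 library: core of PIECE I3b of CALL S5634 (helper98): structure of a "one zero per column" element.
import Mathlib
import Cfsg.Agent.Helper98.C2Defs

set_option autoImplicit false

namespace Cfsg.Agent.Helper65.C2I3b

open Matrix Cfsg.Agent.Helper98.C2
open scoped MatrixGroups

variable {K : Type*} [Field K]

theorem exists_notMem_fin (n : ℕ) (s : Finset (Fin n)) (h : s.card < n) : ∃ x, x ∉ s := by
  by_contra hcon
  have h1 : s = Finset.univ := by
    rw [Finset.eq_univ_iff_forall]
    intro x
    by_contra hx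
    exact hcon ⟨x, hx⟩
  rw [h1, Finset.card_univ, Fintype.card_fin] at h
  exact lt_irrefl _ h

/-- `nf_struct` with the twisting lemma (piece T (3)) as a hypothesis. -/
theorem nf_struct_core (n : ℕ) (hn : 7 ≤ n) (g : GL (Fin n) K)
    (hD1 : ∀ t a b : Fin n, a ≠ b → g.1 a t = 0 → g.1 b t = 0 → False)
    (hPL : ∀ l r : Fin n, l ≠ r → ∃ (lam : K) (a : Fin n), ∀ x, x ≠ a →
      g.1 x l ≠ 0 → g.1 x r = lam * g.1 x l)
    (hZ : ∀ l : Fin n, ∃ z, g.1 z l = 0)
    (htw : ∀ (l : Fin n) (σ : Equiv.Perm (Fin n)), Equiv.Perm.sign σ = 1 →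
      (∀ p, σ p ≠ p → g.1 p l ≠ 0) → ∀ r : Fin n,
      ∃ (r' : Fin n) (c : K), c ≠ 0 ∧
        ∀ p, (if σ p = p then 1 else g.1 (σ p) l / g.1 p l) * g.1 p r = c * g.1 (σ p) r') :
    ∃ (u : Fin n → K) (ρ : Equiv.Perm (Fin n)) (c : Fin n → K),
      (∀ i, u i ≠ 0) ∧ (∀ x, c x ≠ 0) ∧
      ∀ x i, g.1 i (ρ x) = if i = x then 0 else c x * u i := by
  classical
  have hn0 : 0 < n := by omega
  obtain ⟨i0, hi0⟩ := hZ ⟨0, hn0⟩
  generalize (⟨0, hn0⟩ : Fin n) = l at hi0
  have hu : ∀ x, x ≠ i0 → g.1 x l ≠ 0 := fun x hx h => hD1 l x i0 hx h hi0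
  -- a column with a non-zero entry in row i0
  have hrow : ∃ r, g.1 i0 r ≠ 0 := by
    by_contra hcon
    have hcon' : ∀ r, g.1 i0 r = 0 := by
      intro r
      by_contra hr
      exact hcon ⟨r, hr⟩
    have hdet : g.1.det = 0 := Matrix.det_eq_zero_of_row_eq_zero i0 hcon'
    exact (Matrix.isUnits_det_units g).ne_zero hdet
  obtain ⟨r, hr⟩ := hrow
  have hlr : l ≠ r := by
    rintro rfl
    exact hr hi0
  obtain ⟨lam, a, hla⟩ := hPL l r hlr
  have hf : ∀ x, x ≠ a → x ≠ i0 → g.1 x r = lam * g.1 x l :=
    fun x hxa hxi => hla x hxa (hu x hxi)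
  have hlam : lam ≠ 0 := by
    rintro rfl
    obtain ⟨x, hx⟩ := exists_notMem_fin n {a, i0}
      (lt_of_le_of_lt Finset.card_le_two (by omega))
    obtain ⟨y, hy⟩ := exists_notMem_fin n {a, i0, x}
      (lt_of_le_of_lt Finset.card_le_three (by omega))
    simp only [Finset.mem_insert, Finset.mem_singleton, not_or] at hx hy
    exact hD1 r x y (Ne.symm hy.2.2) (by rw [hf x hx.1 hx.2, zero_mul])
      (by rw [hf y hy.1 hy.2.1, zero_mul])
  obtain ⟨z, hz⟩ := hZ r
  have hza : z = a := by
    by_contra hne
    have hzi : z ≠ i0 := by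
      rintro rfl
      exact hr hz
    have h1 := hf z hne hzi
    rw [hz] at h1
    exact (mul_ne_zero hlam (hu z hzi)) h1.symm
  rw [hza] at hz
  have hai : a ≠ i0 := by
    rintro rfl
    exact hr hz
  -- the vector u'
  have hu'ne : ∀ q, (if q = i0 then g.1 i0 r / lam else g.1 q l) ≠ 0 := by
    intro q
    split_ifs with h
    · exact div_ne_zero hr hlam
    · exact hu q h
  have key : ∀ x : Fin n, ∃ (j : Fin n) (cx : K), cx ≠ 0 ∧
      ∀ i, g.1 i j = if i = x then 0 else
        cx * (if i = i0 then g.1 i0 r / lam else g.1 i l) := by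
    intro x
    by_cases hx0 : x = i0
    · refine ⟨l, 1, one_ne_zero, fun i => ?_⟩
      subst hx0
      by_cases hi : i = x
      · rw [if_pos hi, hi]
        exact hi0
      · rw [if_neg hi, one_mul, if_neg hi]
    by_cases hxa : x = a
    · refine ⟨r, lam, hlam, fun i => ?_⟩
      subst hxa
      by_cases hi : i = x
      · rw [if_pos hi, hi]
        exact hz
      · rw [if_neg hi]
        by_cases hii : i = i0
        · rw [if_pos hii, hii]
          field_simp
        · rw [if_neg hii]
          exact hf i hi hii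
    · obtain ⟨e, he⟩ := exists_notMem_fin n {a, x, i0}
        (lt_of_le_of_lt Finset.card_le_three (by omega))
      simp only [Finset.mem_insert, Finset.mem_singleton, not_or] at he
      obtain ⟨hea, hex, hei⟩ := he
      have hax : a ≠ x := fun h => hxa h.symm
      have hσa : (Equiv.swap a e * Equiv.swap a x) a = x := by
        rw [Equiv.Perm.mul_apply, Equiv.swap_apply_left,
          Equiv.swap_apply_of_ne_of_ne hxa (Ne.symm hex)]
      have hσx : (Equiv.swap a e * Equiv.swap a x) x = e := by
        rw [Equiv.Perm.mul_apply, Equiv.swap_apply_right, Equiv.swap_apply_left]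
      have hσe : (Equiv.swap a e * Equiv.swap a x) e = a := by
        rw [Equiv.Perm.mul_apply, Equiv.swap_apply_of_ne_of_ne hea hex,
          Equiv.swap_apply_right]
      have hσo : ∀ p, p ≠ a → p ≠ x → p ≠ e → (Equiv.swap a e * Equiv.swap a x) p = p := by
        intro p hpa hpx hpe
        rw [Equiv.Perm.mul_apply, Equiv.swap_apply_of_ne_of_ne hpa hpx,
          Equiv.swap_apply_of_ne_of_ne hpa hpe]
      have hsign : Equiv.Perm.sign (Equiv.swap a e * Equiv.swap a x) = 1 := by
        rw [Equiv.Perm.sign_mul, Equiv.Perm.sign_swap (Ne.symm hea), Equiv.Perm.sign_swap hax]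
        rfl
      have hmove : ∀ p, (Equiv.swap a e * Equiv.swap a x) p ≠ p → g.1 p l ≠ 0 := by
        intro p hp
        apply hu
        rintro rfl
        exact hp (hσo _ (Ne.symm hai) (Ne.symm hx0) (Ne.symm hei))
      obtain ⟨r', c, hc, hcol⟩ := htw l _ hsign hmove r
      refine ⟨r', lam / c, div_ne_zero hlam hc, fun i => ?_⟩
      by_cases hix : i = x
      · rw [if_pos hix, hix]
        have h1 := hcol a
        rw [hσa, if_neg (Ne.symm hax), hz, mul_zero] at h1
        exact (mul_eq_zero.mp h1.symm).resolve_left hc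
      · rw [if_neg hix]
        by_cases hia : i = a
        · have h1 := hcol e
          rw [hσe, if_neg (Ne.symm hea), hf e hea hei] at h1
          rw [if_neg (by rw [hia]; exact hai), hia]
          have hel : g.1 e l ≠ 0 := hu e hei
          field_simp
          field_simp at h1
          linear_combination -h1
        · by_cases hie : i = e
          · have h1 := hcol x
            rw [hσx, if_neg hex, hf x hxa hx0] at h1
            rw [if_neg (by rw [hie]; exact hei), hie]
            have hxl : g.1 x l ≠ 0 := hu x hx0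
            field_simp
            field_simp at h1
            linear_combination -h1
          · have h1 := hcol i
            rw [hσo i hia hix hie, if_pos rfl, one_mul] at h1
            by_cases hii : i = i0
            · rw [if_pos hii]
              rw [hii] at h1
              rw [hii]
              field_simp
              linear_combination -h1
            · rw [if_neg hii]
              rw [hf i hia hii] at h1
              field_simp
              linear_combination -h1
  choose ρ' c hc hform using key
  have hinj : Function.Injective ρ' := by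
    intro x y hxy
    by_contra hne
    have h1 := hform x x
    rw [if_pos rfl] at h1
    have h2 := hform y x
    rw [if_neg hne, ← hxy, h1] at h2
    exact (mul_ne_zero (hc y) (hu'ne x)) h2.symm
  refine ⟨fun q => if q = i0 then g.1 i0 r / lam else g.1 q l,
    Equiv.ofBijective ρ' (Finite.injective_iff_bijective.mp hinj), c, hu'ne, hc, ?_⟩
  intro x i
  rw [Equiv.ofBijective_apply]
  exact hform x i

end Cfsg.Agent.Helper65.C2I3b
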