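-- helper65 library: PIECE I3b of CALL S5634 (helper98): nf_struct.
import Mathlib
import Cfsg.Agent.Helper98.C2Defs
import Cfsg.Agent.Helper14.C2T
import Cfsg.Agent.Helper65.C2I3bCore

set_option autoImplicit false

namespace Cfsg.Agent.Helper65.C2I3b

open Matrix Cfsg.Agent.Helper98.C2
open scoped MatrixGroups

variable {K : Type*} [Field K]

/-- PIECE I3b -/
theorem nf_struct (n : ℕ) (hn : 7 ≤ n)
    (M : Subgroup (GL (Fin n) K)) (hH : MonSLLE M) (hNF : NoFix M)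
    (g : GL (Fin n) K) (hg : g ∈ M)
    (hD1 : ∀ t a b : Fin n, a ≠ b → g.1 a t = 0 → g.1 b t = 0 → False)
    (hPL : ∀ l r : Fin n, l ≠ r → ∃ (lam : K) (a : Fin n), ∀ x, x ≠ a →
      g.1 x l ≠ 0 → g.1 x r = lam * g.1 x l)
    (hZ : ∀ l : Fin n, ∃ z, g.1 z l = 0) :
    ∃ (u : Fin n → K) (ρ : Equiv.Perm (Fin n)) (c : Fin n → K),
      (∀ i, u i ≠ 0) ∧ (∀ x, c x ≠ 0) ∧
      ∀ x i, g.1 i (ρ x) = if i = x then 0 else c x * u i := by
  exact nf_struct_core n hn g hD1 hPL hZ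
    (fun l σ hσ hu r => Cfsg.Agent.Helper14.C2T.nf_twist_cols n M hH hNF g hg l σ hσ hu r)

end Cfsg.Agent.Helper65.C2I3b
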