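-- helper65 library: PIECE XM3 of CALL S5634 (helper98): blk_m3.
import Mathlib
import Cfsg.Agent.Helper98.C2Defs
import Cfsg.Agent.Helper14.C2XA

set_option autoImplicit false

namespace Cfsg.Agent.Helper65.C2XM3

open Matrix Cfsg.Agent.Helper98.C2
open scoped MatrixGroups

variable {K : Type*} [Field K]

/-- A transvection in `M` whose axis is supported on one block, with a mixed centre, is in
Case I form. -/
theorem caseI_of_axis {n t : ℕ} (blk : Fin n → Fin t) (M : Subgroup (GL (Fin n) K))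
    (a φ' : Fin n → K) (c : Fin t) (hφ'a : φ' ⬝ᵥ a = 0) (hφ' : φ' ≠ 0)
    (hsupp : ∀ i, blk i ≠ c → φ' i = 0)
    (ha : ∃ i j, blk i ≠ blk j ∧ a i ≠ 0 ∧ a j ≠ 0)
    (k' : GL (Fin n) K) (hk' : k' ∈ M) (hk'eq : k'.1 = 1 + Matrix.vecMulVec a φ') :
    CaseI blk M := by
  obtain ⟨i1, i2, h12, h1, h2⟩ := ha
  by_cases hc1 : blk i1 = c
  · have hc2 : blk i2 ≠ c := fun h => h12 (hc1.trans h.symm)
    exact ⟨a, φ', blk i2, hφ'a, hφ', ⟨i2, rfl, h2⟩,
      fun i hi => hsupp i (by rw [hi]; exact hc2), k', hk', hk'eq⟩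
  · exact ⟨a, φ', blk i1, hφ'a, hφ', ⟨i1, rfl, h1⟩,
      fun i hi => hsupp i (by rw [hi]; exact hc1), k', hk', hk'eq⟩

/-- PIECE XM3 -/
theorem blk_m3 {n t : ℕ} (blk : Fin n → Fin t) (m : ℕ) (hm : 3 ≤ m)
    (hfib : ∀ b : Fin t, (Finset.univ.filter (fun i => blk i = b)).card = m)
    (M : Subgroup (GL (Fin n) K)) (hH : BlkLE blk M)
    (a φ : Fin n → K) (hφa : φ ⬝ᵥ a = 0) (hφ : φ ≠ 0)
    (ha : ∃ i j, blk i ≠ blk j ∧ a i ≠ 0 ∧ a j ≠ 0)
    (k : GL (Fin n) K) (hk : k ∈ M) (hkeq : k.1 = 1 + Matrix.vecMulVec a φ) : CaseI blk M := by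
  classical
  obtain ⟨j, hj⟩ : ∃ j, φ j ≠ 0 := by
    by_contra hcon
    apply hφ
    funext i
    by_contra hi
    exact hcon ⟨i, hi⟩
  -- two more indices in the block of j
  have hcard : 1 < ((Finset.univ.filter (fun i => blk i = blk j)).erase j).card := by
    rw [Finset.card_erase_of_mem (by simp), hfib]
    omega
  obtain ⟨p, hp, p', hp', hpp'⟩ := Finset.one_lt_card.mp hcard
  rw [Finset.mem_erase, Finset.mem_filter] at hp hp'
  obtain ⟨hpj, -, hpc⟩ := hp
  obtain ⟨hp'j, -, hp'c⟩ := hp'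
  have hx : ∀ i, blk i ≠ blk j → (Pi.single j (1 : K) : Fin n → K) i = 0 := by
    intro i hi
    rw [Pi.single_apply, if_neg]
    rintro rfl
    exact hi rfl
  have hφx : φ ⬝ᵥ (Pi.single j (1 : K) : Fin n → K) = φ j := by
    rw [dotProduct_single, mul_one]
  by_cases hap : a p = 0
  · -- ψ = e_p
    have hψ : ∀ i, blk i ≠ blk j → (Pi.single p (1 : K) : Fin n → K) i = 0 := by
      intro i hi
      rw [Pi.single_apply, if_neg]
      rintro rfl
      exact hi hpc
    have hψx : (Pi.single p (1 : K) : Fin n → K) ⬝ᵥ (Pi.single j (1 : K) : Fin n → K) = 0 := by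
      rw [dotProduct_single, mul_one, Pi.single_apply, if_neg (Ne.symm hpj)]
    have hψa : (Pi.single p (1 : K) : Fin n → K) ⬝ᵥ a = 0 := by
      rw [single_dotProduct, one_mul, hap]
    obtain ⟨k', hk', hk'eq⟩ := Cfsg.Agent.Helper14.C2XA.blk_axis blk M hH a φ hφa k hk hkeq
      (blk j) _ _ hx hψ hψx hψa
    rw [hφx] at hk'eq
    refine caseI_of_axis blk M a _ (blk j) ?_ ?_ ?_ ha k' hk' hk'eq
    · rw [smul_dotProduct, hψa, smul_zero]
    · intro h
      have h1 := congrFun h p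
      rw [Pi.smul_apply, Pi.single_eq_same, smul_eq_mul, mul_one, Pi.zero_apply] at h1
      exact hj h1
    · intro i hi
      rw [Pi.smul_apply, hψ i hi, smul_zero]
  · -- ψ = a_p' e_p - a_p e_p'
    have hψ : ∀ i, blk i ≠ blk j →
        (Pi.single p (a p') - Pi.single p' (a p) : Fin n → K) i = 0 := by
      intro i hi
      rw [Pi.sub_apply, Pi.single_apply, Pi.single_apply, if_neg, if_neg, sub_zero]
      · rintro rfl
        exact hi hp'c
      · rintro rfl
        exact hi hpc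
    have hψx : (Pi.single p (a p') - Pi.single p' (a p) : Fin n → K)
        ⬝ᵥ (Pi.single j (1 : K) : Fin n → K) = 0 := by
      rw [dotProduct_single, mul_one, Pi.sub_apply, Pi.single_apply, Pi.single_apply,
        if_neg (Ne.symm hpj), if_neg (Ne.symm hp'j), sub_zero]
    have hψa : (Pi.single p (a p') - Pi.single p' (a p) : Fin n → K) ⬝ᵥ a = 0 := by
      rw [sub_dotProduct, single_dotProduct, single_dotProduct]
      ring
    obtain ⟨k', hk', hk'eq⟩ := Cfsg.Agent.Helper14.C2XA.blk_axis blk M hH a φ hφa k hk hkeq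
      (blk j) _ _ hx hψ hψx hψa
    rw [hφx] at hk'eq
    refine caseI_of_axis blk M a _ (blk j) ?_ ?_ ?_ ha k' hk' hk'eq
    · rw [smul_dotProduct, hψa, smul_zero]
    · intro h
      have h1 := congrFun h p'
      rw [Pi.smul_apply, Pi.sub_apply, Pi.single_eq_same, Pi.single_apply,
        if_neg (Ne.symm hpp'), zero_sub, smul_eq_mul, Pi.zero_apply] at h1
      rcases mul_eq_zero.mp h1 with h2 | h2
      · exact hj h2
      · exact hap (neg_eq_zero.mp h2)
    · intro i hi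
      rw [Pi.smul_apply, hψ i hi, smul_zero]

end Cfsg.Agent.Helper65.C2XM3
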