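import Cfsg.Statements.S4442
import Cfsg.Agent.Helper14.D1SF
import Cfsg.Agent.Helper65.D1SACore

/-!
# CALL S4442B, piece SA: S4442 from the main theorem on `blkTheta`

The statement of S4442 with the three hypotheses `D1MainStmt`, `D1CCStmt`, `D1InjStmt`.
-/

universe u

set_option autoImplicit false

open Cfsg Cfsg.Agent.Helper77
open scoped ComplexConjugate

namespace Cfsg.Agent.Helper65

theorem s4442_of_main {G : Type*} [Group G] [Finite G] (p : ℕ) [Fact p.Prime] (hmain : Cfsg.Agent.Helper77.D1MainStmt G p) (hcc : Cfsg.Agent.Helper77.D1CCStmt G p) (hinj : Cfsg.Agent.Helper77.D1InjStmt G p) (M : Ideal Cfsg.AlgInt) (hM : Cfsg.IsPModular p M) (hodd : p ≠ 2) (P : Sylow p G) (hP : Nat.card P = p) (B : Set (Cfsg.IrrCharacter G)) (hB : Cfsg.IsPBlock M B) (hBP : Cfsg.IsDefectGroup p M B P) (b : Set (Cfsg.IrrCharacter (Subgroup.centralizer ((P : Subgroup G) : Set G)))) (hind : Cfsg.IsInducedBlock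 M (Subgroup.centralizer ((P : Subgroup G) : Set G)) b B) (θ : Cfsg.IrrCharacter (Subgroup.centralizer ((P : Subgroup G) : Set G))) (hθ : θ ∈ b) (hθP : ∀ x : Subgroup.centralizer ((P : Subgroup G) : Set G), (x : G) ∈ (P : Subgroup G) → (θ : Subgroup.centralizer ((P : Subgroup G) : Set G) → ℂ) x = (θ : Subgroup.centralizer ((P : Subgroup G) : Set G) → ℂ) 1) (T : Subgroup G) (hT : ∀ g : G, g ∈ T ↔ (g ∈ Subgroup.normalizer ((P : Subgroup G) : Set G) ∧ ∀ c c' : Subgroup.centralizer ((P : Subgroup G) : Set G), (c' : G) = g * c * g⁻¹ → (θ : Subgroup.centralizer ((P : Subgroup G) : Set G) → ℂ) c' = (θ : Subgroup.centralizer ((P : Subgroup G) : Set G) → ℂ) c)) (e f : ℕ) (he : (Subgroup.centralizer ((P : Subgroup G) : Set G)).relIndex T = e) (hf : (Subgroup.centralizer ((P : Subgroup G) : Set G)).relIndex (Subgroup.normalizer ((P : Subgroup G) : Set G)) = f) : e ∣ p - 1 ∧ Nat.card B =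 e + (p - 1) / e ∧ ∃ X Y : Set (Cfsg.IrrCharacter G), B = X ∪ Y ∧ Disjoint X Y ∧ Nat.card X = e ∧ Nat.card Y = (p - 1) / e ∧ (∀ χ ∈ X, (Cfsg.charDegree (χ : G → ℂ) : ℤ) ≡ ((f / e * Cfsg.charDegree (θ : Subgroup.centralizer ((P : Subgroup G) : Set G) → ℂ) : ℕ) : ℤ) [ZMOD p] ∨ (Cfsg.charDegree (χ : G → ℂ) : ℤ) ≡ -((f / e * Cfsg.charDegree (θ : Subgroup.centralizer ((P : Subgroup G) : Set G) → ℂ) : ℕ) : ℤ) [ZMOD p]) ∧ (∃ ε : ℤ, (ε = 1 ∨ ε = -1) ∧ ∀ ψ ∈ Y, (Cfsg.charDegree (ψ : G → ℂ) : ℤ) ≡ ε * ((f * Cfsg.charDegree (θ : Subgroup.centralizer ((P : Subgroup G) : Set G) → ℂ) : ℕ) : ℤ) [ZMOD p]) ∧ ∀ ψ ∈ Y, ∀ ψ' ∈ Y, ∀ g : G, ¬ p ∣ orderOf g → (ψ : G → ℂ) g = (ψ' : G → ℂ) g := by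
  exact d1sa_core p hmain
    (fun M' hM' x K hD B' hB' χ hχ θ' hθ' =>
      Cfsg.Agent.Helper14.d1_block_eq p hcc hinj M' hM' x K hD B' hB' χ hχ θ' hθ')
    M hM P hP B hB b hind θ hθ hθP T hT e f he hf

end Cfsg.Agent.Helper65
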