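import Mathlib

set_option autoImplicit false

namespace Cfsg.Agent.Helper65

/-- A concrete field with nine elements: `re + im * i` with `i ^ 2 = -1` over `ZMod 3`. -/
structure F9 : Type where
  re : ZMod 3
  im : ZMod 3
  deriving DecidableEq, Fintype

namespace F9

instance : Zero F9 := ⟨⟨0, 0⟩⟩
instance : One F9 := ⟨⟨1, 0⟩⟩
instance : Add F9 := ⟨fun x y => ⟨x.re + y.re, x.im + y.im⟩⟩
instance : Mul F9 := ⟨fun x y => ⟨x.re * y.re - x.im * y.im, x.re * y.im + x.im * y.re⟩⟩
instance : Neg F9 := ⟨fun x => ⟨-x.re, -x.im⟩⟩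
instance : Inv F9 :=
  ⟨fun x => ⟨x.re * (x.re * x.re + x.im * x.im), -x.im * (x.re * x.re + x.im * x.im)⟩⟩

/-- The square root of `-1`. -/
def i : F9 := ⟨0, 1⟩

instance : CommRing F9 where
  add_assoc := by decide
  zero_add := by decide
  add_zero := by decide
  add_comm := by decide
  neg_add_cancel := by decide
  mul_assoc := by decide
  one_mul := by decide
  mul_one := by decide
  left_distrib := by decide
  right_distrib := by decide
  mul_comm := by decide
  zero_mul := by decide
  mul_zero := by decide
  nsmul := nsmulRec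
  zsmul := zsmulRec

instance : Field F9 where
  exists_pair_ne := ⟨0, 1, by decide⟩
  mul_inv_cancel := by decide
  inv_zero := rfl
  nnqsmul := _
  nnqsmul_def := fun _ _ => rfl
  qsmul := _
  qsmul_def := fun _ _ => rfl

theorem card_eq : Fintype.card F9 = 9 := by decide

end F9

end Cfsg.Agent.Helper65
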