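-- helper65 library: PIECE CUB of CALL S3795 (helper63, Gross): a cubic polynomial for ξ.
import Cfsg.Agent.Helper63.Gross2Defs

set_option autoImplicit false
set_option linter.unusedVariables false

namespace Cfsg.Agent.Helper65

open Cfsg.Agent.Helper63.Gross2

universe u

theorem exists_two_values {ι : Type*} [Fintype ι] {K : Type*} (ev : ι → K) (z : K)
    (h : Fintype.card ι ≤ 2) : ∃ c₂ c₃ : K, ∀ i, ev i = c₂ ∨ ev i = c₃ := by
  classical
  by_cases hne : Nonempty ι
  · obtain ⟨i₀⟩ := hne
    by_cases hall : ∀ i, ev i = ev i₀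
    · exact ⟨ev i₀, ev i₀, fun i => Or.inl (hall i)⟩
    · obtain ⟨i₁, hi₁⟩ : ∃ i₁, ev i₁ ≠ ev i₀ := by
        by_contra hcon
        apply hall
        intro i
        by_contra hi
        exact hcon ⟨i, hi⟩
      refine ⟨ev i₀, ev i₁, fun i => ?_⟩
      by_contra hcon
      rw [not_or] at hcon
      have h0 : i ≠ i₀ := fun h => hcon.1 (by rw [h])
      have h1 : i ≠ i₁ := fun h => hcon.2 (by rw [h])
      have h01 : i₀ ≠ i₁ := fun h => hi₁ (by rw [h])
      have hcard : ({i, i₀, i₁} : Finset ι).card = 3 := by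
        rw [Finset.card_insert_of_notMem, Finset.card_pair h01]
        simp [h0, h1]
      have h3 := Finset.card_le_univ ({i, i₀, i₁} : Finset ι)
      omega
  · exact ⟨z, z, fun i => absurd ⟨i⟩ hne⟩

theorem cubic_of_decomp {K : Type*} [Field K] [IsAlgClosed K] {A : Type*} [AddCommGroup A] [Module K A] [FiniteDimensional K A] (ξ t : Module.End K A) (N : ℕ) (hN : 0 < N) (hξN : ξ ^ N = 1) (hNK : (N : K) ≠ 0) (h2K : (2 : K) ≠ 0) (ht : t * t = 1) (hc : ξ * t = t * ξ) (hplus : ∀ f : A, t f = f → ξ f = f) (hminus : Module.finrank K ↥(LinearMap.ker (t + 1)) ≤ 2) : ∃ c₂ c₃ : K, (ξ - (1 : K) • (1 : Module.End K A)) * (ξ - c₂ • (1 : Module.End K A)) * (ξ - c₃ • (1 : Module.End K A)) = 0 := by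
  classical
  have hmemW : ∀ v, v ∈ LinearMap.ker (t + 1) ↔ t v = -v := by
    intro v
    rw [LinearMap.mem_ker, LinearMap.add_apply, Module.End.one_apply, add_eq_zero_iff_eq_neg]
  have htξ : ∀ v, t (ξ v) = ξ (t v) := by
    intro v
    have h1 := congrArg (fun e : Module.End K A => e v) hc
    simp only [Module.End.mul_apply] at h1
    exact h1.symm
  have htt : ∀ v, t (t v) = v := by
    intro v
    have h1 := congrArg (fun e : Module.End K A => e v) ht
    simp only [Module.End.mul_apply, Module.End.one_apply] at h1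
    exact h1
  have hξW : ∀ v ∈ LinearMap.ker (t + 1), ξ v ∈ LinearMap.ker (t + 1) := by
    intro v hv
    rw [hmemW] at hv ⊢
    rw [htξ, hv, map_neg]
  have hξWN : (ξ.restrict hξW) ^ N = 1 := by
    rw [Module.End.pow_restrict]
    ext ⟨v, hv⟩
    simp [LinearMap.restrict_apply, hξN]
  obtain ⟨ι, _, b, ev, hb⟩ := Cfsg.Agent.Helper63.ProjRep.exists_eigenbasis (ξ.restrict hξW) N
    hξWN hNK
  have hcard : Fintype.card ι ≤ 2 := by
    rw [← Module.finrank_eq_card_basis b]
    exact hminus
  obtain ⟨c₂, c₃, hcc⟩ := exists_two_values ev (0 : K) hcard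
  refine ⟨c₂, c₃, ?_⟩
  have hbA : ∀ i, ξ (b i : A) = ev i • (b i : A) := by
    intro i
    have h1 := congrArg (fun w : ↥(LinearMap.ker (t + 1)) => (w : A)) (hb i)
    simpa [LinearMap.restrict_apply] using h1
  -- the quadratic factor kills W
  have hkill : ∀ w : ↥(LinearMap.ker (t + 1)),
      ((ξ - c₂ • (1 : Module.End K A)) * (ξ - c₃ • (1 : Module.End K A))) (w : A) = 0 := by
    have hL : ((ξ - c₂ • (1 : Module.End K A)) * (ξ - c₃ • (1 : Module.End K A))).comp
        (LinearMap.ker (t + 1)).subtype = 0 := by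
      apply b.ext
      intro i
      simp only [LinearMap.comp_apply, Submodule.subtype_apply, Module.End.mul_apply,
        LinearMap.sub_apply, LinearMap.smul_apply, Module.End.one_apply, LinearMap.zero_apply,
        map_sub, map_smul, hbA i]
      rcases hcc i with h | h
      · rw [h]
        module
      · rw [h]
        module
    intro w
    have h1 := congrArg (fun e : ↥(LinearMap.ker (t + 1)) →ₗ[K] A => e w) hL
    simpa using h1
  apply LinearMap.ext
  intro v
  rw [LinearMap.zero_apply]
  -- plus and minus parts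
  have hp : t (v + t v) = v + t v := by
    rw [map_add, htt, add_comm]
  have hξp : ξ (v + t v) = v + t v := hplus _ hp
  have hm : v - t v ∈ LinearMap.ker (t + 1) := by
    rw [hmemW, map_sub, htt]
    abel
  have e1 : ((ξ - (1 : K) • (1 : Module.End K A)) * (ξ - c₂ • (1 : Module.End K A))
      * (ξ - c₃ • (1 : Module.End K A))) (v + t v) = 0 := by
    simp only [Module.End.mul_apply, LinearMap.sub_apply, LinearMap.smul_apply,
      Module.End.one_apply, map_sub, map_smul, hξp]
    module
  have e2 : ((ξ - (1 : K) • (1 : Module.End K A)) * (ξ - c₂ • (1 : Module.End K A))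
      * (ξ - c₃ • (1 : Module.End K A))) (v - t v) = 0 := by
    rw [mul_assoc, Module.End.mul_apply]
    have h1 := hkill ⟨v - t v, hm⟩
    simp only at h1
    rw [h1, map_zero]
  have e3 : (2 : K) • ((ξ - (1 : K) • (1 : Module.End K A)) * (ξ - c₂ • (1 : Module.End K A))
      * (ξ - c₃ • (1 : Module.End K A))) v = 0 := by
    have h2 : (2 : K) • v = (v + t v) + (v - t v) := by
      rw [two_smul]
      abel
    rw [← map_smul, h2, map_add, e1, e2, add_zero]
  exact (smul_eq_zero.mp e3).resolve_left h2K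

end Cfsg.Agent.Helper65
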