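import Cfsg.Agent.Helper65.Hopf

/-!
More on the Hopf description of the Schur multiplier: the reverse cardinality inequality,
injectivity of a lift on the multiplier, and extension of homomorphisms into divisible groups.
-/

namespace Cfsg.Agent.Helper65

/-- A homomorphism from a central subgroup meeting the commutator subgroup trivially into a
divisible abelian group extends to the whole group. -/
theorem exists_hom_extension_of_divisible {E Z : Type*} [Group E] [CommGroup Z]
    (hdiv : ∀ n : ℤ, n ≠ 0 → ∀ z : Z, ∃ w : Z, w ^ n = z)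
    (K₀ : Subgroup E) (hK : K₀ ≤ Subgroup.center E) (hK' : K₀ ⊓ commutator E = ⊥)
    (g : K₀ →* Z) : ∃ χ : E →* Z, ∀ k : K₀, χ (k : E) = g k := by
  let cg : CommGroup K₀ :=
    { (inferInstance : Group K₀) with
      mul_comm := fun a b => Subtype.ext ((Subgroup.mem_center_iff.mp (hK b.2) a)) }
  have hdivA : DivisibleBy (Additive Z) ℤ :=
    divisibleByOfSMulRightSurj (Additive Z) ℤ (fun {n} hn z => by
      obtain ⟨w, hw⟩ := hdiv n hn (Additive.toMul z)
      exact ⟨Additive.ofMul w, by
        show Additive.ofMul (w ^ n) = z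
        rw [hw]; rfl⟩)
  have hB : Module.Baer ℤ (Additive Z) := Module.Baer.of_divisible (Additive Z)
  let ι : K₀ →* Abelianization E := (Abelianization.of).comp K₀.subtype
  have hι : Function.Injective ι := by
    rw [injective_iff_map_eq_one]
    intro k hk
    have h1 : (k : E) ∈ (Abelianization.of : E →* Abelianization E).ker := hk
    rw [Abelianization.ker_of] at h1
    have h2 : (k : E) ∈ K₀ ⊓ commutator E := ⟨k.2, h1⟩
    rw [hK'] at h2
    exact Subtype.ext h2
  obtain ⟨h, hh⟩ := hB.extension_property_addMonoidHom (MonoidHom.toAdditive ι)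
    (fun a b hab => hι hab) (MonoidHom.toAdditive g)
  refine ⟨(MonoidHom.toAdditive.symm h).comp Abelianization.of, fun k => ?_⟩
  have := congrArg (fun f : Additive K₀ →+ Additive Z => f (Additive.ofMul k)) hh
  exact this

section HopfCompare2

universe u v

variable {α : Type u} {Q : Type u} [Group Q] [Finite Q] (φ : FreeGroup α →* Q)

/-- The Hopf multiplier is at most as large as an abstract Schur multiplier
(generators in the universe of the group, finitely many of them). -/
theorem card_hopfM_le_of_hasSchurMultiplier [Finite α] (hφ : Function.Surjective φ) {A : Type v}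
    [CommGroup A] (hA : Cfsg.HasSchurMultiplier Q A) :
    Nat.card (hopfM φ) ≤ Nat.card A := by
  obtain ⟨hfinA, -⟩ := card_le_card_hopfM_of_hasSchurMultiplier φ hφ hA
  obtain ⟨S, hS, h1, h2⟩ := exists_hopf_complement φ (hopfBar φ).ker le_rfl
  have hSn : S.Normal := normal_of_le_center_aux S (hS.trans (hopfBar_ker_le_center φ))
  obtain ⟨hstem, hfin, ⟨e⟩⟩ := hopf_quotient_stem φ hφ S hS h1 (by
    rw [← h2]; exact le_rfl)
  obtain ⟨π, hπ⟩ := hA.2 (HopfE φ ⧸ S) _ hstem
  rw [Nat.card_congr e.toEquiv]
  exact Nat.card_le_card_of_surjective π hπ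

end HopfCompare2

section HopfLift

universe w u

variable {α : Type w} {Q : Type u} [Group Q] [Finite Q] (φ : FreeGroup α →* Q)

/-- If the kernel of a finite stem extension is at least as large as the Hopf multiplier, then
the kernel of a lift `ψ` of the Hopf cover meets the commutator subgroup trivially. -/
theorem hopf_lift_ker_inf_commutator (hφ : Function.Surjective φ) {Γ : Type*} [Group Γ]
    (σ : Γ →* Q) (hσ : Cfsg.IsStemExtension σ) (ψ : HopfE φ →* Γ) (hψ : σ.comp ψ = hopfBar φ)
    (hcard : Nat.card (hopfM φ) ≤ Nat.card σ.ker) :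
    ψ.ker ⊓ commutator (HopfE φ) = ⊥ := by
  obtain ⟨-, hψM⟩ := hopf_lift_stem φ hφ σ hσ ψ hψ
  have hfin := finite_hopfM φ
  let g : hopfM φ → σ.ker := fun m => ⟨ψ m, by rw [← hψM]; exact ⟨m, m.2, rfl⟩⟩
  have hg : Function.Surjective g := by
    rintro ⟨k, hk⟩
    rw [← hψM] at hk
    obtain ⟨m, hm, rfl⟩ := hk
    exact ⟨⟨m, hm⟩, rfl⟩
  have hfin2 : Finite σ.ker := Finite.of_surjective g hg
  have hbij : Function.Bijective g :=
    (Nat.bijective_iff_surjective_and_card g).mpr
      ⟨hg, le_antisymm hcard (Nat.card_le_card_of_surjective g hg)⟩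
  rw [eq_bot_iff]
  rintro x ⟨hx1, hx2⟩
  have hx1 : x ∈ ψ.ker := hx1
  have hx2 : x ∈ commutator (HopfE φ) := hx2
  have hx3 : x ∈ hopfM φ := by
    refine ⟨?_, hx2⟩
    show x ∈ (hopfBar φ).ker
    rw [MonoidHom.mem_ker, ← hψ]
    show σ (ψ x) = 1
    rw [MonoidHom.mem_ker.mp hx1, map_one]
  have h4 : g ⟨x, hx3⟩ = g 1 := by
    apply Subtype.ext
    show ψ x = ψ 1
    rw [MonoidHom.mem_ker.mp hx1, map_one]
  have h5 := hbij.1 h4
  have h6 : x = 1 := congrArg (fun t : hopfM φ => (t : HopfE φ)) h5
  rw [h6]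
  exact Subgroup.one_mem _

end HopfLift

end Cfsg.Agent.Helper65
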