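import Cfsg.Agent.Helper65.Hopf2

/-!
Comparison of an abstract Schur multiplier with arbitrary central extensions, and the
"corestriction" from the multiplier of a subgroup.
-/

namespace Cfsg.Agent.Helper65

open scoped commutatorElement

universe u v

/-- For a central extension `τ : Δ →* U` of a finite group `U` with Schur multiplier `B`, the
subgroup `τ.ker ⊓ commutator Δ` is a homomorphic image of `B`. -/
theorem exists_surjective_of_central_ext {U : Type u} [Group U] [Finite U] {B : Type v}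
    [CommGroup B] (hB : Cfsg.HasSchurMultiplier U B) {Δ : Type*} [Group Δ] (τ : Δ →* U)
    (hτ : Function.Surjective τ) (hc : τ.ker ≤ Subgroup.center Δ) :
    ∃ π : B →* ↥(τ.ker ⊓ commutator Δ), Function.Surjective π := by
  classical
  let φ : FreeGroup U →* U := FreeGroup.lift id
  have hφ : Function.Surjective φ := fun q => ⟨FreeGroup.of q, by simp [φ]⟩
  -- `B` maps onto the Hopf multiplier
  obtain ⟨S, hS, h1, h2⟩ := exists_hopf_complement φ (hopfBar φ).ker le_rfl
  have hSn : S.Normal := normal_of_le_center_aux S (hS.trans (hopfBar_ker_le_center φ))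
  obtain ⟨hstem, hfin, ⟨e⟩⟩ := hopf_quotient_stem φ hφ S hS h1 (by rw [← h2]; exact le_rfl)
  obtain ⟨π₀, hπ₀⟩ := hB.2 (HopfE φ ⧸ S) _ hstem
  -- lift to `Δ`
  obtain ⟨ψ, hψ⟩ := exists_hopf_lift φ τ hτ hc
  have hψ' : ∀ x, τ (ψ x) = hopfBar φ x := fun x => congrArg (fun f => f x) hψ
  have hbs := hopfBar_surjective φ hφ
  have hmem : ∀ m : hopfM φ, ψ m ∈ τ.ker ⊓ commutator Δ := by
    intro m
    refine ⟨?_, ?_⟩
    · show ψ m ∈ τ.ker
      rw [MonoidHom.mem_ker, hψ']
      exact m.2.1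
    · have h3 : (commutator (HopfE φ)).map ψ ≤ commutator Δ := by
        rw [map_commutator_eq, commutator_def]
        exact Subgroup.commutator_mono le_top le_top
      exact h3 ⟨m, m.2.2, rfl⟩
  let g : hopfM φ →* ↥(τ.ker ⊓ commutator Δ) :=
    (ψ.comp (hopfM φ).subtype).codRestrict _ hmem
  have hcomm : commutator Δ ≤ (commutator (HopfE φ)).map ψ := by
    rw [commutator_eq_closure, Subgroup.closure_le]
    rintro _ ⟨a, b, rfl⟩
    obtain ⟨x, hx⟩ := hbs (τ a)
    obtain ⟨y, hy⟩ := hbs (τ b)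
    have ha : (ψ x)⁻¹ * a ∈ Subgroup.center Δ := by
      apply hc
      rw [MonoidHom.mem_ker, map_mul, map_inv, hψ', hx, inv_mul_cancel]
    have hb : (ψ y)⁻¹ * b ∈ Subgroup.center Δ := by
      apply hc
      rw [MonoidHom.mem_ker, map_mul, map_inv, hψ', hy, inv_mul_cancel]
    have h4 : ⁅a, b⁆ = ⁅ψ x, ψ y⁆ := commutatorElement_eq_of_central ha hb
    rw [h4, ← map_commutatorElement]
    exact ⟨⁅x, y⁆, Subgroup.commutator_mem_commutator (Subgroup.mem_top _) (Subgroup.mem_top _),
      rfl⟩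
  have hg : Function.Surjective g := by
    rintro ⟨d, hd1, hd2⟩
    obtain ⟨y, hy, rfl⟩ := hcomm hd2
    have hy1 : y ∈ hopfM φ := by
      refine ⟨?_, hy⟩
      show y ∈ (hopfBar φ).ker
      rw [MonoidHom.mem_ker, ← hψ']
      exact hd1
    exact ⟨⟨y, hy1⟩, rfl⟩
  exact ⟨g.comp (e.symm.toMonoidHom.comp π₀),
    hg.comp (e.symm.surjective.comp hπ₀)⟩

/-- A quotient of a finite abelian group embeds into it. -/
theorem exists_injective_of_surjective_finite_comm {B₁ P : Type*} [CommGroup B₁] [Finite B₁]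
    [CommGroup P] [Finite P] (π : B₁ →* P) (hπ : Function.Surjective π) :
    ∃ j : P →* B₁, Function.Injective j := by
  have h1 : NeZero ((Monoid.exponent P : ℕ) : ℂ) :=
    ⟨Nat.cast_ne_zero.mpr Monoid.exponent_ne_zero_of_finite⟩
  have h2 : NeZero ((Monoid.exponent B₁ : ℕ) : ℂ) :=
    ⟨Nat.cast_ne_zero.mpr Monoid.exponent_ne_zero_of_finite⟩
  obtain ⟨eP⟩ := CommGroup.monoidHom_mulEquiv_of_hasEnoughRootsOfUnity P ℂ
  obtain ⟨eB⟩ := CommGroup.monoidHom_mulEquiv_of_hasEnoughRootsOfUnity B₁ ℂ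
  refine ⟨eB.toMonoidHom.comp ((MonoidHom.compHom' π).comp eP.symm.toMonoidHom), ?_⟩
  intro x y hxy
  have h3 : (MonoidHom.compHom' π) (eP.symm x) = (MonoidHom.compHom' π) (eP.symm y) :=
    eB.injective hxy
  have h4 : eP.symm x = eP.symm y := by
    ext p
    obtain ⟨b, rfl⟩ := hπ p
    have := congrArg (fun f : B₁ →* ℂˣ => f b) h3
    exact congrArg Units.val this
  exact eP.symm.injective h4

/-- "Corestriction": for a subgroup `U` of a finite group `G` with multipliers `B` and `A`,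
there is a homomorphism `B →* A` whose image contains all `U.index`-th powers. -/
theorem exists_hom_range_ge_pow {G : Type u} [Group G] [Finite G] (U : Subgroup G)
    {A : Type*} {B : Type*} [CommGroup A] [CommGroup B] (hA : Cfsg.HasSchurMultiplier G A)
    (hB : Cfsg.HasSchurMultiplier U B) :
    ∃ f : B →* A, (powMonoidHom U.index : A →* A).range ≤ f.range := by
  classical
  obtain ⟨⟨Γ, _, _, σ, ⟨hσs, hσc, hσd⟩, ⟨e⟩⟩, -⟩ := hA
  let H : Subgroup Γ := U.comap σ
  let τ : H →* U := σ.subgroupComap U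
  have hτs : Function.Surjective τ := σ.subgroupComap_surjective_of_surjective U hσs
  have hτk : ∀ x : H, x ∈ τ.ker → (x : Γ) ∈ σ.ker := by
    intro x hx
    rw [MonoidHom.mem_ker] at hx ⊢
    exact congrArg Subtype.val hx
  have hτc : τ.ker ≤ Subgroup.center H := by
    intro x hx
    rw [Subgroup.mem_center_iff]
    intro y
    apply Subtype.ext
    exact Subgroup.mem_center_iff.mp (hσc (hτk x hx)) (y : Γ)
  obtain ⟨π, hπ⟩ := exists_surjective_of_central_ext hB τ hτs hτc
  -- the map back into `A`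
  let r : ↥(τ.ker ⊓ commutator H) →* A :=
    { toFun := fun x => e ⟨((x : H) : Γ), hτk x.1 x.2.1⟩
      map_one' := by
        rw [← map_one e]; rfl
      map_mul' := fun x y => by
        rw [← map_mul e]; rfl }
  refine ⟨r.comp π, ?_⟩
  rintro _ ⟨a', rfl⟩
  -- the element `a ^ m` of the kernel lies in the commutator subgroup of `H`
  set a : σ.ker := e.symm a' with ha
  have hindex : H.index = U.index := Subgroup.index_comap_of_surjective U hσs
  have hfi : H.FiniteIndex := ⟨by
    rw [hindex]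
    exact Subgroup.index_ne_zero_of_finite⟩
  have hkey : ∀ (k : ℕ) (g₀ : Γ), g₀⁻¹ * (a : Γ) ^ k * g₀ ∈ H →
      g₀⁻¹ * (a : Γ) ^ k * g₀ = (a : Γ) ^ k := by
    intro k g₀ _
    have h5 : (a : Γ) ^ k ∈ Subgroup.center Γ := Subgroup.pow_mem _ (hσc a.2) k
    rw [mul_assoc, ← Subgroup.mem_center_iff.mp h5 g₀, inv_mul_cancel_left]
  have htr := MonoidHom.transfer_eq_pow (Abelianization.of : H →* Abelianization H) (a : Γ) hkey
  have htr1 : MonoidHom.transfer (Abelianization.of : H →* Abelianization H) (a : Γ) = 1 := by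
    have h6 := Abelianization.commutator_subset_ker
      (MonoidHom.transfer (Abelianization.of : H →* Abelianization H))
    exact h6 (hσd a.2)
  rw [htr1] at htr
  have hmemH : (a : Γ) ^ H.index ∈ H := MonoidHom.transfer_eq_pow_aux (a : Γ) hkey
  have hcomm : (⟨(a : Γ) ^ H.index, hmemH⟩ : H) ∈ commutator H := by
    rw [← Abelianization.ker_of, MonoidHom.mem_ker]
    exact htr.symm
  have hker : (⟨(a : Γ) ^ H.index, hmemH⟩ : H) ∈ τ.ker := by
    rw [MonoidHom.mem_ker]
    apply Subtype.ext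
    show σ ((a : Γ) ^ H.index) = 1
    rw [map_pow, MonoidHom.mem_ker.mp a.2, one_pow]
  obtain ⟨b, hb⟩ := hπ ⟨⟨(a : Γ) ^ H.index, hmemH⟩, hker, hcomm⟩
  refine ⟨b, ?_⟩
  show r (π b) = a' ^ U.index
  rw [hb]
  show e ⟨(a : Γ) ^ H.index, _⟩ = a' ^ U.index
  have h7 : (⟨(a : Γ) ^ H.index, hτk _ hker⟩ : σ.ker) = a ^ U.index := by
    apply Subtype.ext
    show (a : Γ) ^ H.index = (a : Γ) ^ U.index
    rw [hindex]
  rw [h7, map_pow, ha, MulEquiv.apply_symm_apply]

end Cfsg.Agent.Helper65
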