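import Mathlib

set_option autoImplicit false

/-!
# A concrete model of the metacyclic groups

For `M, n ≥ 1` and `R, T` with `R ^ n ≡ 1` and `R * T ≡ T` modulo `M` there is a group with two
elements `α, β` such that `α ^ M = 1`, `β ^ n = α ^ T`, `β α β⁻¹ = α ^ R`, and `α` has order
exactly `M`.  The model is the quotient of `ZMod M ⋊ ℤ` by the central cyclic subgroup generated
by `(-T, n)`.
-/

namespace Cfsg.Agent.Helper65.Metacyclic

/-- Elements of `ZMod M ⋊ ℤ`, where `1 ∈ ℤ` acts as multiplication by the unit `u`. -/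
@[ext]
structure MC (M : ℕ) (u : (ZMod M)ˣ) where
  /-- the component in the normal cyclic subgroup -/
  i : ZMod M
  /-- the component in the infinite cyclic complement -/
  j : ℤ

namespace MC

variable {M : ℕ} {u : (ZMod M)ˣ}

instance : Mul (MC M u) :=
  ⟨fun x y => ⟨x.i + ((u ^ x.j : (ZMod M)ˣ) : ZMod M) * y.i, x.j + y.j⟩⟩

instance : One (MC M u) := ⟨⟨0, 0⟩⟩

instance : Inv (MC M u) :=
  ⟨fun x => ⟨-(((u ^ (-x.j) : (ZMod M)ˣ) : ZMod M) * x.i), -x.j⟩⟩

theorem mul_i (x y : MC M u) :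
    (x * y).i = x.i + ((u ^ x.j : (ZMod M)ˣ) : ZMod M) * y.i := rfl
theorem mul_j (x y : MC M u) : (x * y).j = x.j + y.j := rfl
theorem one_i : (1 : MC M u).i = 0 := rfl
theorem one_j : (1 : MC M u).j = 0 := rfl
theorem inv_i (x : MC M u) :
    (x⁻¹).i = -(((u ^ (-x.j) : (ZMod M)ˣ) : ZMod M) * x.i) := rfl
theorem inv_j (x : MC M u) : (x⁻¹).j = -x.j := rfl

instance : Group (MC M u) where
  mul_assoc x y z := by
    ext
    · simp only [mul_i, mul_j, zpow_add, Units.val_mul]; ring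
    · simp only [mul_j]; ring
  one_mul x := by
    ext
    · simp [mul_i, one_i, one_j]
    · simp [mul_j, one_j]
  mul_one x := by
    ext
    · simp [mul_i, one_i]
    · simp [mul_j, one_j]
  inv_mul_cancel x := by
    ext
    · simp [mul_i, inv_i, inv_j, one_i]
    · simp [mul_j, inv_j, one_j]

/-- Powers of the generator of the normal cyclic subgroup. -/
theorem alpha_pow (k : ℕ) : ((⟨1, 0⟩ : MC M u)) ^ k = ⟨(k : ZMod M), 0⟩ := by
  induction k with
  | zero => ext <;> simp [one_i, one_j]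
  | succ k ih =>
    rw [pow_succ, ih]
    ext
    · simp [mul_i]
    · simp [mul_j]

/-- Powers of the generator of the complement. -/
theorem beta_pow (k : ℕ) : ((⟨0, 1⟩ : MC M u)) ^ k = ⟨0, (k : ℤ)⟩ := by
  induction k with
  | zero => ext <;> simp [one_i, one_j]
  | succ k ih =>
    rw [pow_succ, ih]
    ext
    · simp [mul_i]
    · simp [mul_j]

/-- The projection onto the infinite cyclic quotient. -/
def projJ : MC M u →* Multiplicative ℤ where
  toFun x := Multiplicative.ofAdd x.j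
  map_one' := rfl
  map_mul' _ _ := rfl

theorem projJ_apply (x : MC M u) : projJ x = Multiplicative.ofAdd x.j := rfl

/-- If every power of `u` fixes `t`, then `(t, 0)` is central. -/
theorem central_of_fixed (t : ZMod M) (ht : ∀ j : ℤ, ((u ^ j : (ZMod M)ˣ) : ZMod M) * t = t)
    (x : MC M u) : (⟨t, 0⟩ : MC M u) * x = x * ⟨t, 0⟩ := by
  ext
  · simp only [mul_i, zpow_zero, Units.val_one, one_mul, ht]; ring
  · simp [mul_j]

/-- If `u ^ n = 1` and every power of `u` fixes `t`, then `(-t, n)` is central. -/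
theorem central_w (n : ℕ) (hun : u ^ n = 1) (t : ZMod M)
    (ht : ∀ j : ℤ, ((u ^ j : (ZMod M)ˣ) : ZMod M) * t = t)
    (x : MC M u) : (⟨-t, (n : ℤ)⟩ : MC M u) * x = x * ⟨-t, (n : ℤ)⟩ := by
  ext
  · simp only [mul_i, zpow_natCast, hun, Units.val_one, one_mul, mul_neg, ht]; ring
  · simp only [mul_j]; ring

end MC

/-- If the unit `u` fixes `t` under multiplication, so do all its integer powers. -/
theorem zpow_fix {M : ℕ} (u : (ZMod M)ˣ) (t : ZMod M) (h : (u : ZMod M) * t = t) (j : ℤ) :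
    ((u ^ j : (ZMod M)ˣ) : ZMod M) * t = t := by
  have h1 : u ∈ MulAction.stabilizer (ZMod M)ˣ t := by
    rw [MulAction.mem_stabilizer_iff, Units.smul_def]; exact h
  have h2 := (MulAction.stabilizer (ZMod M)ˣ t).zpow_mem h1 j
  rw [MulAction.mem_stabilizer_iff, Units.smul_def] at h2
  exact h2

/-- **The metacyclic model.**  For `R ^ n ≡ 1` and `R * T ≡ T` modulo `M` there is a group with
elements `α`, `β` satisfying `α ^ M = 1`, `β ^ n = α ^ T`, `β α β⁻¹ = α ^ R`, in which `α` has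
order exactly `M` and `α ^ k` is central whenever `R * k ≡ k` modulo `M`. -/
theorem exists_model (M n R T : ℕ) (hn : 0 < n) (hR : R ^ n ≡ 1 [MOD M])
    (hT : R * T ≡ T [MOD M]) :
    ∃ (K : Type) (_ : Group K) (α β : K), α ^ M = 1 ∧ β ^ n = α ^ T ∧ β * α * β⁻¹ = α ^ R ∧
      (∀ k : ℕ, α ^ k = 1 → M ∣ k) ∧
      (∀ k : ℕ, R * k ≡ k [MOD M] → ∀ x : K, α ^ k * x = x * α ^ k) := by
  have hcop : Nat.Coprime R M := by
    have h1 : Nat.Coprime (R ^ n) M := by
      have := Nat.ModEq.gcd_eq hR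
      rw [Nat.Coprime, this]; simp
    exact (Nat.coprime_pow_left_iff hn R M).mp h1
  obtain ⟨u, hu⟩ : ∃ u : (ZMod M)ˣ, (u : ZMod M) = (R : ZMod M) :=
    ⟨ZMod.unitOfCoprime R hcop, ZMod.coe_unitOfCoprime R hcop⟩
  have hun : u ^ n = 1 := by
    apply Units.ext
    rw [Units.val_pow_eq_pow_val, hu, Units.val_one, ← Nat.cast_pow, ← Nat.cast_one (R := ZMod M)]
    exact (ZMod.natCast_eq_natCast_iff _ _ _).mpr hR
  have hfix : ∀ k : ℕ, R * k ≡ k [MOD M] → ∀ j : ℤ,
      ((u ^ j : (ZMod M)ˣ) : ZMod M) * (k : ZMod M) = (k : ZMod M) := by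
    intro k hk
    apply zpow_fix
    rw [hu, ← Nat.cast_mul]
    exact (ZMod.natCast_eq_natCast_iff _ _ _).mpr hk
  let w : MC M u := ⟨-(T : ZMod M), (n : ℤ)⟩
  have hwc : ∀ x : MC M u, w * x = x * w := MC.central_w n hun (T : ZMod M) (hfix T hT)
  let N : Subgroup (MC M u) := Subgroup.zpowers w
  have hNc : N ≤ Subgroup.center (MC M u) := by
    rw [Subgroup.zpowers_le]
    exact Subgroup.mem_center_iff.mpr (fun x => (hwc x).symm)
  have hNn : N.Normal :=
    ⟨fun y hy g => by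
      have := Subgroup.mem_center_iff.mp (hNc hy) g
      rw [this, mul_inv_cancel_right]; exact hy⟩
  refine ⟨MC M u ⧸ N, inferInstance, QuotientGroup.mk (⟨1, 0⟩ : MC M u),
    QuotientGroup.mk (⟨0, 1⟩ : MC M u), ?_, ?_, ?_, ?_, ?_⟩
  · rw [← QuotientGroup.mk_pow, MC.alpha_pow, QuotientGroup.eq_one_iff]
    have : (⟨(M : ZMod M), 0⟩ : MC M u) = 1 := by
      ext
      · simp [MC.one_i]
      · simp [MC.one_j]
    rw [this]; exact N.one_mem
  · rw [← QuotientGroup.mk_pow, ← QuotientGroup.mk_pow, MC.alpha_pow, MC.beta_pow,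
      eq_comm, QuotientGroup.eq]
    have : (⟨(T : ZMod M), 0⟩ : MC M u)⁻¹ * ⟨0, (n : ℤ)⟩ = w := by
      ext
      · simp [MC.mul_i, MC.inv_i, MC.inv_j, w]
      · simp [MC.mul_j, MC.inv_j, w]
    rw [this]; exact Subgroup.mem_zpowers w
  · rw [← QuotientGroup.mk_pow, ← QuotientGroup.mk_inv, ← QuotientGroup.mk_mul,
      ← QuotientGroup.mk_mul, MC.alpha_pow]
    congr 1
    ext
    · simp [MC.mul_i, MC.mul_j, MC.inv_i, hu]
    · simp [MC.mul_j, MC.inv_j]
  · intro k hk
    rw [← QuotientGroup.mk_pow, MC.alpha_pow, QuotientGroup.eq_one_iff] at hk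
    obtain ⟨s, hs⟩ := Subgroup.mem_zpowers_iff.mp hk
    have h1 := congrArg (fun x : MC M u => Multiplicative.toAdd (MC.projJ x)) hs
    simp only [map_zpow, MC.projJ_apply, toAdd_zpow, toAdd_ofAdd, w, smul_eq_mul] at h1
    have hs0 : s = 0 := by
      rcases mul_eq_zero.mp h1 with h | h
      · exact h
      · exfalso; have : (n : ℤ) ≠ 0 := by exact_mod_cast hn.ne'
        exact this h
    rw [hs0, zpow_zero] at hs
    have h2 := congrArg MC.i hs
    rw [MC.one_i] at h2
    exact (ZMod.natCast_eq_zero_iff k M).mp h2.symm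
  · intro k hk x
    obtain ⟨y, rfl⟩ := QuotientGroup.mk_surjective x
    rw [← QuotientGroup.mk_pow, MC.alpha_pow, ← QuotientGroup.mk_mul, ← QuotientGroup.mk_mul,
      MC.central_of_fixed (k : ZMod M) (hfix k hk) y]

end Cfsg.Agent.Helper65.Metacyclic
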