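import Mathlib

/-!
Monomial (induced) representations of central extensions: if `π : E →* Q` is onto a finite group
with central kernel and `lam` is a complex character of the kernel, then `E` has a complex
representation of degree `|Q|` in which the kernel acts through the scalars `lam`.
-/

namespace Cfsg.Agent.Helper65

theorem exists_monomial_rep {E Q : Type*} [Group E] [Group Q] [Finite Q] (π : E →* Q)
    (hπ : Function.Surjective π) (hc : π.ker ≤ Subgroup.center E) (lam : π.ker →* ℂˣ) :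
    ∃ θ : E →* GL (Fin (Nat.card Q)) ℂ, ∀ z : π.ker,
      θ z = Matrix.GeneralLinearGroup.scalar (Fin (Nat.card Q)) (lam z) := by
  classical
  have : Fintype Q := Fintype.ofFinite Q
  choose t ht using hπ
  let L : E → ℂ := fun x => if h : x ∈ π.ker then ((lam ⟨x, h⟩ : ℂˣ) : ℂ) else 0
  have hL : ∀ x (h : x ∈ π.ker), L x = ((lam ⟨x, h⟩ : ℂˣ) : ℂ) := fun x h => dif_pos h
  have hL1 : L 1 = 1 := by
    rw [hL 1 (Subgroup.one_mem _)]
    have : (⟨1, Subgroup.one_mem _⟩ : π.ker) = 1 := rfl
    rw [this, map_one]; rfl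
  have hLmul : ∀ x y, x ∈ π.ker → y ∈ π.ker → L (x * y) = L x * L y := by
    intro x y hx hy
    rw [hL x hx, hL y hy, hL (x * y) (Subgroup.mul_mem _ hx hy)]
    have : (⟨x * y, Subgroup.mul_mem _ hx hy⟩ : π.ker) = ⟨x, hx⟩ * ⟨y, hy⟩ := rfl
    rw [this, map_mul]; rfl
  let k : Q → E → E := fun q g => t q * g * (t (q * π g))⁻¹
  have hk : ∀ q g, k q g ∈ π.ker := by
    intro q g
    simp [k, MonoidHom.mem_ker, ht]
  let Mx : E → Matrix Q Q ℂ := fun g =>
    Matrix.of (fun q q' => if q' = q * π g then L (k q g) else 0)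
  have hMx : ∀ g q q', Mx g q q' = if q' = q * π g then L (k q g) else 0 := fun g q q' => rfl
  have hM1 : Mx 1 = 1 := by
    ext q q'
    rw [hMx, Matrix.one_apply]
    have hk1 : k q 1 = 1 := by simp [k]
    rw [hk1, hL1, map_one, mul_one]
    by_cases h : q = q'
    · rw [if_pos h.symm, if_pos h]
    · rw [if_neg (fun h' => h h'.symm), if_neg h]
  have hMmul : ∀ g h, Mx (g * h) = Mx g * Mx h := by
    intro g h
    ext q q''
    rw [Matrix.mul_apply, Finset.sum_eq_single (q * π g)]
    · rw [hMx, hMx, hMx, if_pos rfl, map_mul, mul_assoc]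
      by_cases h' : q'' = q * (π g * π h)
      · rw [if_pos h', if_pos h']
        have : k q (g * h) = k q g * k (q * π g) h := by
          simp only [k, map_mul]
          group
        rw [this, hLmul _ _ (hk _ _) (hk _ _)]
      · rw [if_neg h', if_neg h', mul_zero]
    · intro q' _ hq'
      rw [hMx, if_neg hq', zero_mul]
    · intro h'
      exact absurd (Finset.mem_univ _) h'
  let θ₀ : E →* Matrix Q Q ℂ := { toFun := Mx, map_one' := hM1, map_mul' := hMmul }
  let e : Q ≃ Fin (Nat.card Q) := Finite.equivFin Q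
  let r : Matrix Q Q ℂ ≃* Matrix (Fin (Nat.card Q)) (Fin (Nat.card Q)) ℂ :=
    (Matrix.reindexAlgEquiv ℂ ℂ e).toMulEquiv
  refine ⟨(Units.mapEquiv r).toMonoidHom.comp θ₀.toHomUnits, fun z => ?_⟩
  apply Units.ext
  have hz : Mx (z : E) = (((lam z : ℂˣ) : ℂ)) • (1 : Matrix Q Q ℂ) := by
    ext q q'
    rw [hMx, Matrix.smul_apply, Matrix.one_apply, MonoidHom.mem_ker.mp z.2, mul_one]
    have hkz : k q (z : E) = z := by
      simp only [k, MonoidHom.mem_ker.mp z.2, mul_one]
      have := Subgroup.mem_center_iff.mp (hc z.2) (t q)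
      rw [this, mul_inv_cancel_right]
    rw [hkz, hL _ z.2]
    by_cases h : q = q'
    · rw [if_pos h.symm, if_pos h, smul_eq_mul, mul_one]
    · rw [if_neg (fun h' => h h'.symm), if_neg h, smul_zero]
  show r (Mx (z : E)) = _
  rw [hz]
  show (Matrix.reindexAlgEquiv ℂ ℂ e) (((lam z : ℂˣ) : ℂ) • (1 : Matrix Q Q ℂ)) = _
  rw [map_smul, map_one]
  ext i j
  simp [Matrix.GeneralLinearGroup.scalar, Matrix.smul_apply, Matrix.one_apply, Matrix.scalar_apply,
    Matrix.diagonal_apply]

end Cfsg.Agent.Helper65
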