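-- helper65 library: core of PIECE T34 of CALL S5871 (helper97): O_3 (x) O_4^+ inside Omega_12^+ lies in Sp_2 (x) Sp_6.
import Mathlib
import Cfsg.Prelude.Def_GeometricClasses
import Cfsg.Agent.Helper96.SpTensor2
import Cfsg.Agent.Helper37.Orth2

set_option autoImplicit false
set_option linter.unusedSectionVars false
set_option linter.unusedSimpArgs false
set_option linter.unusedVariables false
open Cfsg Cfsg.Geo Matrix
open scoped Kronecker

namespace Cfsg.Agent.Helper65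

variable {ι : Type} [Fintype ι] [DecidableEq ι] {F : Type*} [Field F]

theorem t34_sum_left {f : (ι → F) → (ι → F) → F} (hf : IsBilinearForm f) {κ : Type}
    (s : Finset κ) (c : κ → F) (v : κ → ι → F) (y : ι → F) :
    f (∑ k ∈ s, c k • v k) y = ∑ k ∈ s, c k * f (v k) y := by
  classical
  induction s using Finset.induction_on with
  | empty =>
    simp only [Finset.sum_empty]
    have h := hf.smul_left 0 0 y
    simpa using h
  | insert a s ha ih =>
    rw [Finset.sum_insert ha, Finset.sum_insert ha, hf.add_left, hf.smul_left, ih]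

theorem t34_sum_right {f : (ι → F) → (ι → F) → F} (hf : IsBilinearForm f) {κ : Type}
    (s : Finset κ) (c : κ → F) (v : κ → ι → F) (x : ι → F) :
    f x (∑ k ∈ s, c k • v k) = ∑ k ∈ s, c k * f x (v k) := by
  classical
  induction s using Finset.induction_on with
  | empty =>
    simp only [Finset.sum_empty]
    have h := hf.smul_right 0 x 0
    simpa using h
  | insert a s ha ih =>
    rw [Finset.sum_insert ha, Finset.sum_insert ha, hf.add_right, hf.smul_right, ih]

theorem t34_vec_eq (x : ι → F) : x = ∑ i, x i • (Pi.single i (1 : F) : ι → F) := by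
  ext j
  simp [Finset.sum_apply, Pi.single_apply]

/-- A bilinear form is given by its Gram matrix. -/
theorem t34_bil_eq {f : (ι → F) → (ι → F) → F} (hf : IsBilinearForm f) (x y : ι → F) :
    f x y = x ⬝ᵥ (gramMatrix f *ᵥ y) := by
  have h1 : f x y = f (∑ i, x i • (Pi.single i (1 : F) : ι → F))
      (∑ j, y j • (Pi.single j (1 : F) : ι → F)) := by
    rw [← t34_vec_eq, ← t34_vec_eq]
  rw [h1, t34_sum_left hf]
  simp only [t34_sum_right hf, dotProduct, mulVec, Finset.mul_sum]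
  apply Finset.sum_congr rfl
  intro i _
  apply Finset.sum_congr rfl
  intro j _
  simp only [gramMatrix]
  ring

/-- The form on images under matrices. -/
theorem t34_bil_mul {f : (ι → F) → (ι → F) → F} (hf : IsBilinearForm f) (A B : Matrix ι ι F)
    (x y : ι → F) :
    f (A *ᵥ x) (B *ᵥ y) = x ⬝ᵥ ((Aᵀ * gramMatrix f * B) *ᵥ y) := by
  rw [t34_bil_eq hf, ← Matrix.mulVec_mulVec, ← Matrix.mulVec_mulVec, Matrix.dotProduct_mulVec x Aᵀ,
    Matrix.vecMul_transpose]

theorem t34_single_dot (N : Matrix ι ι F) (i j : ι) :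
    (Pi.single i (1 : F) : ι → F) ⬝ᵥ (N *ᵥ (Pi.single j (1 : F) : ι → F)) = N i j := by
  simp [Matrix.mulVec_single_one]

/-- Tensor form structure as a Gram identity. -/
theorem t34_tfs_iff {f : (ι → F) → (ι → F) → F} (hf : IsBilinearForm f) {n₁ n₂ : ℕ}
    (K : Matrix (Fin n₁ × Fin n₂) (Fin n₁ × Fin n₂) F) (e : ι ≃ Fin n₁ × Fin n₂)
    (P : Matrix ι ι F) (c : F) :
    (∀ x y : Fin n₁ × Fin n₂ → F, f (P *ᵥ (x ∘ e)) (P *ᵥ (y ∘ e)) = c * formOfGram id K x y) ↔
      Pᵀ * gramMatrix f * P = c • K.submatrix e e := by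
  constructor
  · intro h
    ext i j
    have h1 := h (Pi.single (e i) 1) (Pi.single (e j) 1)
    have hx : ∀ k : ι, ((Pi.single (e k) (1 : F) : Fin n₁ × Fin n₂ → F) ∘ e) = Pi.single k 1 := by
      intro k
      ext l
      simp only [Function.comp_apply, Pi.single_apply]
      by_cases hl : l = k
      · simp [hl]
      · have : e l ≠ e k := fun h' => hl (e.injective h')
        simp [hl, this]
    rw [hx, hx, t34_bil_mul hf, t34_single_dot] at h1
    rw [h1]
    simp [formOfGram, Pi.single_apply, Matrix.smul_apply]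
  · intro h x y
    rw [t34_bil_mul hf, h]
    simp only [formOfGram, id, dotProduct, mulVec, Matrix.smul_apply, Matrix.submatrix_apply,
      Function.comp_apply, smul_eq_mul, Finset.mul_sum]
    rw [← Equiv.sum_comp e]
    apply Finset.sum_congr rfl
    intro i _
    rw [← Equiv.sum_comp e]
    apply Finset.sum_congr rfl
    intro j _
    ring

/-- An isometry of `Q` preserves the Gram matrix of the polar form. -/
theorem t34_iso_gram (Q : (ι → F) → F) (hQ : IsNondegenerateQuadraticForm Q) (g : GL ι F)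
    (hg : g ∈ isometryGroup F Q) :
    (g : Matrix ι ι F)ᵀ * gramMatrix (QuadraticMap.polar Q) * (g : Matrix ι ι F) =
      gramMatrix (QuadraticMap.polar Q) := by
  have hiso : ∀ u, Q ((g : Matrix ι ι F) *ᵥ u) = Q u :=
    (Cfsg.Agent.Helper37.mem_isometryGroup_iff Q g).mp hg
  ext i j
  have h1 := t34_bil_mul hQ.polar_bilinear (g : Matrix ι ι F) (g : Matrix ι ι F)
    (Pi.single i 1) (Pi.single j 1)
  rw [t34_single_dot] at h1
  rw [← h1]
  simp only [QuadraticMap.polar, gramMatrix]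
  rw [← Matrix.mulVec_add, hiso, hiso, hiso]

/-- Elements of a tensor product subgroup, as matrices. -/
theorem t34_mem_tensor {n₁ n₂ : ℕ} {e : ι ≃ Fin n₁ × Fin n₂} {P g : GL ι F}
    (hg : g ∈ tensorProductSubgroup n₁ n₂ e P) :
    ∃ (a : GL (Fin n₁) F) (b : GL (Fin n₂) F), (g : Matrix ι ι F) =
      (P : Matrix ι ι F) *
        ((a : Matrix (Fin n₁) (Fin n₁) F) ⊗ₖ (b : Matrix (Fin n₂) (Fin n₂) F)).submatrix e e *
        ((P⁻¹ : GL ι F) : Matrix ι ι F) := by
  obtain ⟨y, hy, rfl⟩ := Subgroup.mem_map.mp hg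
  obtain ⟨x, ⟨a, b, hx⟩, rfl⟩ := Subgroup.mem_map.mp hy
  refine ⟨a, b, ?_⟩
  rw [← hx]
  rfl

theorem t34_mem_tensor_of {n₁ n₂ : ℕ} (e : ι ≃ Fin n₁ × Fin n₂) (P g : GL ι F)
    (a : Matrix (Fin n₁) (Fin n₁) F) (b : Matrix (Fin n₂) (Fin n₂) F) (ha : a.det ≠ 0)
    (hb : b.det ≠ 0)
    (hg : (g : Matrix ι ι F) = (P : Matrix ι ι F) * (a ⊗ₖ b).submatrix e e *
      ((P⁻¹ : GL ι F) : Matrix ι ι F)) :
    g ∈ tensorProductSubgroup n₁ n₂ e P := by
  have hdet : (a ⊗ₖ b).det ≠ 0 := by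
    rw [Matrix.det_kronecker]
    exact mul_ne_zero (pow_ne_zero _ ha) (pow_ne_zero _ hb)
  let x : GL (Fin n₁ × Fin n₂) F := Matrix.GeneralLinearGroup.mkOfDetNeZero (a ⊗ₖ b) hdet
  have hx : x ∈ kroneckerSubgroup n₁ n₂ F :=
    ⟨Matrix.GeneralLinearGroup.mkOfDetNeZero a ha, Matrix.GeneralLinearGroup.mkOfDetNeZero b hb, rfl⟩
  refine Subgroup.mem_map.mpr ⟨(glReindex e.symm).toMonoidHom x, Subgroup.mem_map_of_mem _ hx, ?_⟩
  apply Units.ext
  rw [hg]
  rfl

/-- Kronecker cancellation up to a scalar. -/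
theorem t34_kron_cancel {m n : ℕ} (U G1 : Matrix (Fin m) (Fin m) F) (V G2 : Matrix (Fin n) (Fin n) F)
    (hG1 : G1 ≠ 0) (hG2 : G2 ≠ 0) (h : U ⊗ₖ V = G1 ⊗ₖ G2) :
    ∃ μ : F, μ ≠ 0 ∧ V = μ • G2 ∧ μ • U = G1 := by
  obtain ⟨a, a', ha⟩ : ∃ a a', G1 a a' ≠ 0 := by
    by_contra hcon
    push Not at hcon
    exact hG1 (by ext a a'; exact hcon a a')
  obtain ⟨b, b', hb⟩ : ∃ b b', G2 b b' ≠ 0 := by
    by_contra hcon
    push Not at hcon
    exact hG2 (by ext a a'; exact hcon a a')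
  have hent : ∀ x x' y y', U x x' * V y y' = G1 x x' * G2 y y' := by
    intro x x' y y'
    have h1 := congrFun (congrFun h (x, y)) (x', y')
    simpa [Matrix.kroneckerMap_apply] using h1
  have hU : U a a' ≠ 0 := by
    intro h0
    have h1 := hent a a' b b'
    rw [h0, zero_mul] at h1
    exact mul_ne_zero ha hb h1.symm
  refine ⟨G1 a a' / U a a', div_ne_zero ha hU, ?_, ?_⟩
  · ext y y'
    have h1 := hent a a' y y'
    rw [Matrix.smul_apply, smul_eq_mul]
    field_simp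
    linear_combination h1
  · ext x x'
    have h1 := hent x x' b b'
    have h2 := hent a a' b b'
    rw [Matrix.smul_apply, smul_eq_mul]
    have hV : V b b' = G1 a a' * G2 b b' / U a a' := by
      field_simp
      linear_combination h2
    rw [hV] at h1
    have h3 : (G1 a a' / U a a' * U x x') * G2 b b' = G1 x x' * G2 b b' := by
      rw [← h1]
      field_simp
    exact mul_right_cancel₀ hb h3

theorem t34_J_det : (!![0, 1; -1, 0] : Matrix (Fin 2) (Fin 2) F).det = 1 := by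
  rw [Matrix.det_fin_two_of]
  ring

theorem t34_J_transpose :
    (!![0, 1; -1, 0] : Matrix (Fin 2) (Fin 2) F)ᵀ = -(!![0, 1; -1, 0] : Matrix (Fin 2) (Fin 2) F) := by
  ext i j
  fin_cases i <;> fin_cases j <;> simp

theorem t34_gram_symm {n : ℕ} {f : (Fin n → F) → (Fin n → F) → F} (hf : IsSymmetricForm f) :
    (gramMatrix f)ᵀ = gramMatrix f := by
  ext a b
  exact hf.symm _ _

theorem t34_gram_ne_zero {n : ℕ} {f : (Fin n → F) → (Fin n → F) → F} (hf : IsSymmetricForm f)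
    (hdet : (gramMatrix f).det ≠ 0) (hn : 0 < n) : gramMatrix f ≠ 0 := by
  intro h0
  apply hdet
  rw [h0]
  have : Nonempty (Fin n) := ⟨⟨0, hn⟩⟩
  exact Matrix.det_zero

set_option maxHeartbeats 1600000 in
/-- Core of PIECE T34: the three sub-pieces DISC, HYP4, R4 enter as hypotheses. -/
theorem t34_core (h2 : (2 : F) ≠ 0) (Q : (ι → F) → F)
    (hQ : IsNondegenerateQuadraticForm Q)
    (e : ι ≃ Fin 3 × Fin 4) (P : GL ι F)
    (f₁ : (Fin 3 → F) → (Fin 3 → F) → F) (f₂ : (Fin 4 → F) → (Fin 4 → F) → F)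
    (hf₁ : IsSymmetricForm f₁) (hf₂ : IsSymmetricForm f₂)
    (hT : IsTensorFormStructure id (QuadraticMap.polar Q) f₁ f₂ e P)
    (hDISC : ∃ c : F, c ≠ 0 ∧ (gramMatrix (QuadraticMap.polar Q)).det = (-1) ^ 6 * c ^ 2)
    (hHYP : IsSquare (gramMatrix f₂).det →
      ∃ M : Matrix (Fin 4) (Fin 2 × Fin 2) F,
        (∃ M' : Matrix (Fin 2 × Fin 2) (Fin 4) F, M * M' = 1 ∧ M' * M = 1) ∧
        Mᵀ * gramMatrix f₂ * M
          = (!![0, 1; -1, 0] : Matrix (Fin 2) (Fin 2) F) ⊗ₖ
            (!![0, 1; -1, 0] : Matrix (Fin 2) (Fin 2) F))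
    (hR4 : ∀ (B : Matrix (Fin 2 × Fin 2) (Fin 2 × Fin 2) F) (μ : F), μ ≠ 0 →
      Bᵀ * ((!![0, 1; -1, 0] : Matrix (Fin 2) (Fin 2) F) ⊗ₖ
          (!![0, 1; -1, 0] : Matrix (Fin 2) (Fin 2) F)) * B
        = μ • ((!![0, 1; -1, 0] : Matrix (Fin 2) (Fin 2) F) ⊗ₖ
          (!![0, 1; -1, 0] : Matrix (Fin 2) (Fin 2) F)) →
      (∃ B₁ B₂ : Matrix (Fin 2) (Fin 2) F, B = B₁ ⊗ₖ B₂) ∨ B.det = -(μ ^ 2)) :
    ∃ (e' : ι ≃ Fin 2 × Fin 6) (P' : GL ι F) (g₁ : (Fin 2 → F) → (Fin 2 → F) → F)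
      (g₂ : (Fin 6 → F) → (Fin 6 → F) → F), IsSymplecticForm g₁ ∧ IsSymplecticForm g₂ ∧
      IsTensorFormStructure id (QuadraticMap.polar Q) g₁ g₂ e' P' ∧
      tensorProductSubgroup 3 4 e P ⊓ omegaGL Q ≤ tensorProductSubgroup 2 6 e' P' := by
  classical
  obtain ⟨c, hc, hT'⟩ := hT
  set J : Matrix (Fin 2) (Fin 2) F := !![0, 1; -1, 0] with hJ
  have hJdet : J.det = 1 := t34_J_det
  have hJt : Jᵀ = -J := t34_J_transpose
  set G : Matrix ι ι F := gramMatrix (QuadraticMap.polar Q) with hG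
  set G1 : Matrix (Fin 3) (Fin 3) F := gramMatrix f₁ with hG1
  set G2 : Matrix (Fin 4) (Fin 4) F := gramMatrix f₂ with hG2
  set Pm : Matrix ι ι F := (P : Matrix ι ι F) with hPm
  set Pi' : Matrix ι ι F := ((P⁻¹ : GL ι F) : Matrix ι ι F) with hPi
  have hPP : Pm * Pi' = 1 := by
    rw [hPm, hPi, ← Units.val_mul, mul_inv_cancel, Units.val_one]
  have hPP' : Pi' * Pm = 1 := by
    rw [hPm, hPi, ← Units.val_mul, inv_mul_cancel, Units.val_one]
  have hN : Pmᵀ * G * Pm = c • (G1 ⊗ₖ G2).submatrix e e :=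
    (t34_tfs_iff hQ.polar_bilinear _ e Pm c).mp hT'
  have hG1s : G1ᵀ = G1 := t34_gram_symm hf₁
  have hG2s : G2ᵀ = G2 := t34_gram_symm hf₂
  obtain ⟨c₀, hc₀, hdetG⟩ := hDISC
  have hcard : Fintype.card ι = 12 := by
    rw [Fintype.card_congr e]
    simp
  have hdetN : (Pmᵀ * G * Pm).det = c ^ 12 * (G1.det ^ 4 * G2.det ^ 3) := by
    rw [hN, Matrix.det_smul, Matrix.det_submatrix_equiv_self, Matrix.det_kronecker, hcard]
    simp
  have hdetN' : (Pmᵀ * G * Pm).det = Pm.det ^ 2 * c₀ ^ 2 := by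
    rw [Matrix.det_mul, Matrix.det_mul, Matrix.det_transpose, hdetG]
    ring
  have hPdet : Pm.det ≠ 0 := by
    intro h0
    have h1 := congrArg Matrix.det hPP
    rw [Matrix.det_mul, h0, zero_mul, Matrix.det_one] at h1
    exact zero_ne_one h1
  have hprod : Pm.det ^ 2 * c₀ ^ 2 = c ^ 12 * (G1.det ^ 4 * G2.det ^ 3) := by
    rw [← hdetN', hdetN]
  have hprod_ne : Pm.det ^ 2 * c₀ ^ 2 ≠ 0 :=
    mul_ne_zero (pow_ne_zero _ hPdet) (pow_ne_zero _ hc₀)
  have hG1det : G1.det ≠ 0 := by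
    intro h0
    apply hprod_ne
    rw [hprod, h0]
    ring
  have hG2det : G2.det ≠ 0 := by
    intro h0
    apply hprod_ne
    rw [hprod, h0]
    ring
  have hsq : IsSquare G2.det := by
    refine ⟨Pm.det * c₀ / (c ^ 6 * G1.det ^ 2 * G2.det), ?_⟩
    field_simp
    linear_combination (-1 : F) * hprod
  obtain ⟨M, ⟨M', hMM', hM'M⟩, hMJ⟩ := hHYP hsq
  -- reindexing data
  let σ : Fin 4 ≃ Fin 2 × Fin 2 := (finProdFinEquiv : Fin 2 × Fin 2 ≃ Fin 4).symm
  let τ : Fin 3 × Fin 2 ≃ Fin 6 := finProdFinEquiv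
  let M₀ : Matrix (Fin 4) (Fin 4) F := M.submatrix id σ
  let M₀' : Matrix (Fin 4) (Fin 4) F := M'.submatrix σ id
  have hM₀ : M₀ * M₀' = 1 := by
    show M.submatrix id σ * M'.submatrix σ id = 1
    rw [Matrix.submatrix_mul_equiv, hMM']
    exact Matrix.submatrix_one_equiv (Equiv.refl _)
  have hM₀' : M₀' * M₀ = 1 := by
    show M'.submatrix σ id * M.submatrix id σ = 1
    rw [← Matrix.submatrix_mul M' M σ id σ Function.bijective_id, hM'M]
    exact Matrix.submatrix_one_equiv σ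
  let W : Matrix ι ι F := ((1 : Matrix (Fin 3) (Fin 3) F) ⊗ₖ M₀).submatrix e e
  let W' : Matrix ι ι F := ((1 : Matrix (Fin 3) (Fin 3) F) ⊗ₖ M₀').submatrix e e
  have hWW' : W * W' = 1 := by
    show ((1 : Matrix (Fin 3) (Fin 3) F) ⊗ₖ M₀).submatrix e e *
      ((1 : Matrix (Fin 3) (Fin 3) F) ⊗ₖ M₀').submatrix e e = 1
    rw [Matrix.submatrix_mul_equiv, ← Matrix.mul_kronecker_mul, hM₀, mul_one,
      Matrix.one_kronecker_one]
    exact Matrix.submatrix_one_equiv e
  have hW'W : W' * W = 1 := by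
    show ((1 : Matrix (Fin 3) (Fin 3) F) ⊗ₖ M₀').submatrix e e *
      ((1 : Matrix (Fin 3) (Fin 3) F) ⊗ₖ M₀).submatrix e e = 1
    rw [Matrix.submatrix_mul_equiv, ← Matrix.mul_kronecker_mul, hM₀', mul_one,
      Matrix.one_kronecker_one]
    exact Matrix.submatrix_one_equiv e
  let w : GL ι F := ⟨W, W', hWW', hW'W⟩
  let e' : ι ≃ Fin 2 × Fin 6 :=
    e.trans (((Equiv.refl (Fin 3)).prodCongr σ).trans
      ((Equiv.prodAssoc (Fin 3) (Fin 2) (Fin 2)).symm.trans
        ((τ.prodCongr (Equiv.refl (Fin 2))).trans (Equiv.prodComm (Fin 6) (Fin 2)))))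
  have he' : ∀ i, e' i = ((σ (e i).2).2, τ ((e i).1, (σ (e i).2).1)) := fun i => rfl
  let K : Matrix (Fin 6) (Fin 6) F := (G1 ⊗ₖ J).submatrix τ.symm τ.symm
  have hKdet : K.det ≠ 0 := by
    show ((G1 ⊗ₖ J).submatrix τ.symm τ.symm).det ≠ 0
    rw [Matrix.det_submatrix_equiv_self, Matrix.det_kronecker, hJdet]
    simp [hG1det]
  have hKt : Kᵀ = -K := by
    show ((G1 ⊗ₖ J).submatrix τ.symm τ.symm)ᵀ = -((G1 ⊗ₖ J).submatrix τ.symm τ.symm)
    rw [Matrix.transpose_submatrix, ← Matrix.kroneckerMap_transpose, hG1s, hJt]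
    ext a b
    simp only [Matrix.submatrix_apply, Matrix.kroneckerMap_apply, Matrix.neg_apply, mul_neg]
  -- the transported Gram identities
  have hM₀G : M₀ᵀ * G2 * M₀ = (J ⊗ₖ J).submatrix σ σ := by
    rw [← hMJ]
    ext i j
    simp only [Matrix.mul_apply, Matrix.transpose_apply, Matrix.submatrix_apply, M₀, id]
  refine ⟨e', P * w, Cfsg.Agent.Helper96.bf J, Cfsg.Agent.Helper96.bf K,
    Cfsg.Agent.Helper96.Sy.bf_symplectic_odd h2 J (by rw [hJdet]; exact one_ne_zero) hJt,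
    Cfsg.Agent.Helper96.Sy.bf_symplectic_odd h2 K hKdet hKt, ?_, ?_⟩
  · refine ⟨c, hc, ?_⟩
    rw [Cfsg.Agent.Helper96.Sy.gramMatrix_bf, Cfsg.Agent.Helper96.Sy.gramMatrix_bf]
    refine (t34_tfs_iff hQ.polar_bilinear _ e' ((P * w : GL ι F) : Matrix ι ι F) c).mpr ?_
    have hPw : ((P * w : GL ι F) : Matrix ι ι F) = Pm * W := rfl
    rw [hPw]
    have h1 : (Pm * W)ᵀ * G * (Pm * W) = Wᵀ * (Pmᵀ * G * Pm) * W := by
      rw [Matrix.transpose_mul]
      simp only [Matrix.mul_assoc]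
    rw [h1, hN]
    have h3 : Wᵀ * (c • (G1 ⊗ₖ G2).submatrix e e) * W
        = c • (G1 ⊗ₖ (M₀ᵀ * G2 * M₀)).submatrix e e := by
      show (((1 : Matrix (Fin 3) (Fin 3) F) ⊗ₖ M₀).submatrix e e)ᵀ *
        (c • (G1 ⊗ₖ G2).submatrix e e) * ((1 : Matrix (Fin 3) (Fin 3) F) ⊗ₖ M₀).submatrix e e = _
      rw [Matrix.transpose_submatrix, Matrix.mul_smul, Matrix.smul_mul,
        Matrix.submatrix_mul_equiv, Matrix.submatrix_mul_equiv, ← Matrix.kroneckerMap_transpose,
        Matrix.transpose_one, ← Matrix.mul_kronecker_mul, ← Matrix.mul_kronecker_mul, one_mul,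
        mul_one]
    rw [h3, hM₀G]
    ext i j
    simp only [Matrix.smul_apply, Matrix.submatrix_apply, Matrix.kroneckerMap_apply, he', K,
      Equiv.symm_apply_apply, smul_eq_mul]
    ring
  · intro g hg
    obtain ⟨hgT, hgΩ⟩ := hg
    obtain ⟨a, b, hgab⟩ := t34_mem_tensor hgT
    set A : Matrix (Fin 3) (Fin 3) F := (a : Matrix (Fin 3) (Fin 3) F) with hA
    set B : Matrix (Fin 4) (Fin 4) F := (b : Matrix (Fin 4) (Fin 4) F) with hB
    set X : Matrix ι ι F := (A ⊗ₖ B).submatrix e e with hX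
    have hAdet : A.det ≠ 0 := Matrix.det_ne_zero_of_left_inverse (Units.inv_mul a)
    have hBdet : B.det ≠ 0 := Matrix.det_ne_zero_of_left_inverse (Units.inv_mul b)
    obtain ⟨x, hxΩ, hxg⟩ := Subgroup.mem_map.mp hgΩ
    have hgiso : g ∈ isometryGroup F Q := by
      rw [← hxg]
      exact x.2
    have hgdet : (g : Matrix ι ι F).det = 1 := by
      have h1 := Cfsg.Agent.Helper37.det_eq_one_of_mem_omega Q ⟨x, hxΩ⟩
      rw [← hxg]
      exact h1
    have hXN : Xᵀ * (Pmᵀ * G * Pm) * X = Pmᵀ * G * Pm := by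
      have h1 : (g : Matrix ι ι F) * Pm = Pm * X := by
        rw [hgab, Matrix.mul_assoc, hPP', Matrix.mul_one]
      have h3 := t34_iso_gram Q hQ g hgiso
      calc Xᵀ * (Pmᵀ * G * Pm) * X = (Pm * X)ᵀ * G * (Pm * X) := by
            rw [Matrix.transpose_mul]
            simp only [Matrix.mul_assoc]
        _ = ((g : Matrix ι ι F) * Pm)ᵀ * G * ((g : Matrix ι ι F) * Pm) := by rw [h1]
        _ = Pmᵀ * ((g : Matrix ι ι F)ᵀ * G * (g : Matrix ι ι F)) * Pm := by
            rw [Matrix.transpose_mul]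
            simp only [Matrix.mul_assoc]
        _ = Pmᵀ * G * Pm := by rw [h3]
    have hkron : (Aᵀ * G1 * A) ⊗ₖ (Bᵀ * G2 * B) = G1 ⊗ₖ G2 := by
      rw [hN] at hXN
      have h1 : Xᵀ * (c • (G1 ⊗ₖ G2).submatrix e e) * X
          = c • ((Aᵀ * G1 * A) ⊗ₖ (Bᵀ * G2 * B)).submatrix e e := by
        rw [hX, Matrix.transpose_submatrix, Matrix.mul_smul, Matrix.smul_mul,
          Matrix.submatrix_mul_equiv, Matrix.submatrix_mul_equiv, ← Matrix.kroneckerMap_transpose,
          ← Matrix.mul_kronecker_mul, ← Matrix.mul_kronecker_mul]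
      rw [h1] at hXN
      ext p q
      have h3 := congrFun (congrFun hXN (e.symm p)) (e.symm q)
      simp only [Matrix.smul_apply, Matrix.submatrix_apply, Equiv.apply_symm_apply,
        smul_eq_mul] at h3
      exact mul_left_cancel₀ hc h3
    obtain ⟨μ, hμ, hV, hU⟩ := t34_kron_cancel _ G1 _ G2
      (t34_gram_ne_zero hf₁ hG1det (by norm_num)) (t34_gram_ne_zero hf₂ hG2det (by norm_num)) hkron
    have hAμ : μ ^ 3 * A.det ^ 2 = 1 := by
      have h1 := congrArg Matrix.det hU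
      rw [Matrix.det_smul, Matrix.det_mul, Matrix.det_mul, Matrix.det_transpose] at h1
      simp only [Fintype.card_fin] at h1
      have h3 : (μ ^ 3 * A.det ^ 2 - 1) * G1.det = 0 := by linear_combination h1
      rcases mul_eq_zero.mp h3 with h | h
      · linear_combination h
      · exact absurd h hG1det
    set B' : Matrix (Fin 2 × Fin 2) (Fin 2 × Fin 2) F := M' * B * M with hB'
    have hB'J : B'ᵀ * (J ⊗ₖ J) * B' = μ • (J ⊗ₖ J) := by
      rw [← hMJ, hB']
      calc (M' * B * M)ᵀ * (Mᵀ * G2 * M) * (M' * B * M)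
          = Mᵀ * (Bᵀ * ((M * M')ᵀ * G2 * (M * M')) * B) * M := by
            simp only [Matrix.transpose_mul, Matrix.mul_assoc]
        _ = Mᵀ * (Bᵀ * G2 * B) * M := by
            rw [hMM', Matrix.transpose_one, Matrix.one_mul, Matrix.mul_one]
        _ = μ • (Mᵀ * G2 * M) := by
            rw [hV, Matrix.mul_smul, Matrix.smul_mul]
    have hB'det : B'.det = B.det := Matrix.det_conj_of_mul_eq_one hM'M hMM'
    have hXdet : X.det = A.det ^ 4 * B.det ^ 3 := by
      rw [hX, Matrix.det_submatrix_equiv_self, Matrix.det_kronecker]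
      simp
    have hgdet' : (g : Matrix ι ι F).det = X.det := by
      rw [hgab, Matrix.det_mul, Matrix.det_mul]
      have h1 := congrArg Matrix.det hPP
      rw [Matrix.det_mul, Matrix.det_one] at h1
      linear_combination X.det * h1
    rcases hR4 B' μ hμ hB'J with ⟨B₁, B₂, hB12⟩ | hneg
    · have hB12det : B₁.det ≠ 0 ∧ B₂.det ≠ 0 := by
        have h1 : (B₁ ⊗ₖ B₂).det = B.det := by rw [← hB12, hB'det]
        rw [Matrix.det_kronecker] at h1
        simp only [Fintype.card_fin] at h1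
        constructor
        · intro h0
          rw [h0] at h1
          apply hBdet
          rw [← h1]
          ring
        · intro h0
          rw [h0] at h1
          apply hBdet
          rw [← h1]
          ring
      set C : Matrix (Fin 6) (Fin 6) F := (A ⊗ₖ B₁).submatrix τ.symm τ.symm with hC
      have hCdet : C.det ≠ 0 := by
        rw [hC, Matrix.det_submatrix_equiv_self, Matrix.det_kronecker]
        simp [hAdet, hB12det.1]
      apply t34_mem_tensor_of e' (P * w) g B₂ C hB12det.2 hCdet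
      have hPw : ((P * w : GL ι F) : Matrix ι ι F) = Pm * W := rfl
      have hPwi : (((P * w)⁻¹ : GL ι F) : Matrix ι ι F) = W' * Pi' := by
        rw [_root_.mul_inv_rev]
        rfl
      rw [hPw, hPwi, hgab]
      have hkey : W' * X * W = (B₂ ⊗ₖ C).submatrix e' e' := by
        have h1 : W' * X * W = (A ⊗ₖ (M₀' * B * M₀)).submatrix e e := by
          show ((1 : Matrix (Fin 3) (Fin 3) F) ⊗ₖ M₀').submatrix e e * (A ⊗ₖ B).submatrix e e *
            ((1 : Matrix (Fin 3) (Fin 3) F) ⊗ₖ M₀).submatrix e e = _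
          rw [Matrix.submatrix_mul_equiv, Matrix.submatrix_mul_equiv, ← Matrix.mul_kronecker_mul,
            ← Matrix.mul_kronecker_mul, one_mul, mul_one]
        have h3 : M₀' * B * M₀ = (B₁ ⊗ₖ B₂).submatrix σ σ := by
          rw [← hB12, hB']
          ext i j
          simp only [Matrix.mul_apply, Matrix.submatrix_apply, M₀, M₀', id]
        rw [h1, h3]
        ext i j
        simp only [Matrix.submatrix_apply, Matrix.kroneckerMap_apply, he', hC,
          Equiv.symm_apply_apply]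
        ring
      have hX' : X = W * ((B₂ ⊗ₖ C).submatrix e' e') * W' := by
        rw [← hkey]
        calc X = (W * W') * X * (W * W') := by rw [hWW', Matrix.one_mul, Matrix.mul_one]
          _ = W * (W' * X * W) * W' := by simp only [Matrix.mul_assoc]
      rw [hX']
      simp only [Matrix.mul_assoc]
      rfl
    · exfalso
      have hBd : B.det = -(μ ^ 2) := by rw [← hB'det, hneg]
      have h1 : (1 : F) = A.det ^ 4 * B.det ^ 3 := by rw [← hXdet, ← hgdet', hgdet]
      rw [hBd] at h1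
      have h3 : (2 : F) = 0 := by
        linear_combination h1 - (μ ^ 3 * A.det ^ 2 + 1) * hAμ
      exact h2 h3

end Cfsg.Agent.Helper65
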