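-- helper65 library: PIECE T34 of CALL S5871 (helper97): O_3 (x) O_4^+ inside Omega_12^+ lies in Sp_2 (x) Sp_6.
import Mathlib
import Cfsg.Prelude.Def_GeometricClasses
import Cfsg.Agent.Helper65.O12T34Core
import Cfsg.Agent.Helper41.O12pDisc
import Cfsg.Agent.Helper61.O12Ruling
import Cfsg.Agent.Helper91.O12HYP4

set_option autoImplicit false
open Cfsg Cfsg.Geo Matrix
open scoped Kronecker

namespace Cfsg.Agent.Helper65

variable {ι : Type} [Fintype ι] [DecidableEq ι] {F : Type*} [Field F]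

theorem o12p_tensor_three_four [Fintype F] (h2 : (2 : F) ≠ 0) (Q : (ι → F) → F)
    (hQ : IsNondegenerateQuadraticForm Q) (hplus : IsPlusTypeOn Q ⊤)
    (e : ι ≃ Fin 3 × Fin 4) (P : GL ι F)
    (f₁ : (Fin 3 → F) → (Fin 3 → F) → F) (f₂ : (Fin 4 → F) → (Fin 4 → F) → F)
    (hf₁ : IsSymmetricForm f₁) (hf₂ : IsSymmetricForm f₂)
    (hT : IsTensorFormStructure id (QuadraticMap.polar Q) f₁ f₂ e P) :
    ∃ (e' : ι ≃ Fin 2 × Fin 6) (P' : GL ι F) (g₁ : (Fin 2 → F) → (Fin 2 → F) → F)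
      (g₂ : (Fin 6 → F) → (Fin 6 → F) → F), IsSymplecticForm g₁ ∧ IsSymplecticForm g₂ ∧
      IsTensorFormStructure id (QuadraticMap.polar Q) g₁ g₂ e' P' ∧
      tensorProductSubgroup 3 4 e P ⊓ omegaGL Q ≤ tensorProductSubgroup 2 6 e' P' :=
  t34_core h2 Q hQ e P f₁ f₂ hf₁ hf₂ hT
    (Cfsg.Agent.Helper41.o12p_plus_disc Q hQ (m := 6)
      (by rw [Fintype.card_congr e]; simp) hplus)
    (fun hsq => Cfsg.Agent.Helper91.o12p_hyp_four h2 f₂ hf₂ hsq)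
    (fun B μ hμ hB => Cfsg.Agent.Helper61.o12p_ruling h2 B μ hμ hB)

end Cfsg.Agent.Helper65
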