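import Mathlib
import Cfsg.Prelude.Def_GeometricClasses
import Cfsg.Prelude.Def_Classical
import Cfsg.Agent.Helper58.TSDefs
import Cfsg.Agent.Helper65.TSOBDefs
import Cfsg.Agent.Helper98.OPar
import Cfsg.Agent.Helper43.OrthEven

set_option autoImplicit false

/-!
# CALL OB (sub-call of CALL TS), piece FAM (helper65): hyperbolic families.
-/

namespace Cfsg.Agent.Helper65.OB

open Module Cfsg Cfsg.Geo Cfsg.Agent.Helper58.TS Cfsg.Agent.Helper65.TSOB
open Cfsg.Agent.Helper43 Cfsg.Agent.Helper43.OrthEven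

variable {ι : Type} [Fintype ι] [DecidableEq ι] {F : Type*} [Field F]

/-- transport of a hyperbolic family of coordinate vectors along a standard-form isometry -/
theorem fam_of_std {κ : Type} [Fintype κ] [DecidableEq κ] (Qb : QuadraticForm F (ι → F))
    (q₀ : (κ → F) → F) (Ψ : (κ → F) ≃ₗ[F] (ι → F)) (hΨ : ∀ z, Qb (Ψ z) = q₀ z) {n : ℕ}
    (α β : Fin n → κ)
    (h1 : ∀ k, q₀ (Pi.single (α k) 1) = 0) (h2 : ∀ k, q₀ (Pi.single (β k) 1) = 0)
    (h3 : ∀ j k, QuadraticMap.polar q₀ (Pi.single (α j) 1) (Pi.single (α k) 1) = 0)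
    (h4 : ∀ j k, QuadraticMap.polar q₀ (Pi.single (β j) 1) (Pi.single (β k) 1) = 0)
    (h5 : ∀ j k, QuadraticMap.polar q₀ (Pi.single (α j) 1) (Pi.single (β k) 1) =
      if j = k then 1 else 0) :
    HypFam Qb (fun k => Ψ (Pi.single (α k) 1)) (fun k => Ψ (Pi.single (β k) 1)) := by
  have hpol : ∀ z z', QuadraticMap.polar Qb (Ψ z) (Ψ z') = QuadraticMap.polar q₀ z z' := by
    intro z z'
    unfold QuadraticMap.polar
    rw [← map_add, hΨ, hΨ, hΨ]
  refine ⟨fun k => ?_, fun k => ?_, fun j k => ?_, fun j k => ?_, fun j k => ?_⟩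
  · rw [hΨ]; exact h1 k
  · rw [hΨ]; exact h2 k
  · rw [hpol]; exact h3 j k
  · rw [hpol]; exact h4 j k
  · rw [hpol]; exact h5 j k

/-- a subspace of dimension at least `d` contains one of dimension exactly `d` -/
theorem exists_le_finrank_eq' (U : Submodule F (ι → F)) {d : ℕ} (hd : d ≤ finrank F U) :
    ∃ U' : Submodule F (ι → F), U' ≤ U ∧ finrank F U' = d := by
  classical
  let b := Module.finBasis F U
  let v : Fin d → (ι → F) := fun j => (b (Fin.castLE hd j) : ι → F)
  have hli : LinearIndependent F v := by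
    have h1 : LinearIndependent F (fun j : Fin d => b (Fin.castLE hd j)) :=
      b.linearIndependent.comp _ (Fin.castLE_injective hd)
    exact h1.map' U.subtype (Submodule.ker_subtype U)
  refine ⟨Submodule.span F (Set.range v), ?_, ?_⟩
  · rw [Submodule.span_le]
    rintro _ ⟨j, rfl⟩
    exact (b (Fin.castLE hd j)).2
  · rw [finrank_span_eq_card hli, Fintype.card_fin]

/-- FAM -/
theorem ob_fam [Fintype F] (Q : (ι → F) → F) (hQ : IsNondegenerateQuadraticForm Q) (d δ : ℕ)
    (hd : 1 ≤ d) (hcard : Fintype.card ι = 2 * d) (hδ : TypeDefect Q δ) (n : ℕ)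
    (hn : n + δ ≤ d) :
    ∃ e f : Fin n → ι → F, HypFam (Cfsg.Agent.Helper98.op_qf Q hQ) e f := by
  classical
  set Qb : QuadraticForm F (ι → F) := Cfsg.Agent.Helper98.op_qf Q hQ with hQb
  have hV : finrank F (ι → F) = 2 * d := by rw [Module.finrank_fintype_fun_eq_card, hcard]
  have hnd : PolarNondeg Qb := by
    intro v hv
    by_contra h0
    obtain ⟨x, hx⟩ := (hQ.nondegenerate v h0).2
    exact hx (hv x)
  rcases hδ with ⟨hδ0, hplus⟩ | ⟨hδ1, hminus⟩
  · -- plus type
    have hTS : HasTS Qb d := by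
      obtain ⟨U, -, hU0, hUd⟩ := hplus
      refine ⟨U, ?_, fun u hu => hU0 u hu⟩
      rw [finrank_top, hV] at hUd
      omega
    obtain ⟨Ψ, hΨ⟩ := exists_plus_of_hasTS hd hV Qb hnd hTS
    have hnd' : n ≤ d := by omega
    refine ⟨_, _, fam_of_std Qb (Cfsg.quadFormPlus d F) Ψ hΨ
      (fun k => Sum.inl (Fin.castLE hnd' k)) (fun k => Sum.inr (Fin.castLE hnd' k))
      ?_ ?_ ?_ ?_ ?_⟩
    · intro k
      simp [Cfsg.quadFormPlus, Pi.single_apply]
    · intro k
      simp [Cfsg.quadFormPlus, Pi.single_apply]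
    · intro j k
      rw [polar_plus]
      simp [Pi.single_apply]
    · intro j k
      rw [polar_plus]
      simp [Pi.single_apply]
    · intro j k
      rw [polar_plus]
      simp [Pi.single_apply, Fin.castLE_inj, eq_comm]
  · -- minus type
    have hTS : ¬ HasTS Qb d := by
      rintro ⟨U, hUd, hU0⟩
      apply hminus
      obtain ⟨U', hU'U, hU'd⟩ := exists_le_finrank_eq' U hUd
      refine ⟨U', le_top, fun w hw => hU0 w (hU'U hw), ?_⟩
      rw [finrank_top, hV, hU'd]
    obtain ⟨ζ, -, Ψ, hΨ⟩ := exists_minus_of_not_hasTS hd hV Qb hnd hTS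
    have hnd' : n ≤ d - 1 := by omega
    refine ⟨_, _, fam_of_std Qb (Cfsg.quadFormMinus (d - 1) F 1 ζ) Ψ hΨ
      (fun k => Sum.inl (Sum.inl (Fin.castLE hnd' k)))
      (fun k => Sum.inl (Sum.inr (Fin.castLE hnd' k))) ?_ ?_ ?_ ?_ ?_⟩
    · intro k
      simp [Cfsg.quadFormMinus, Pi.single_apply]
    · intro k
      simp [Cfsg.quadFormMinus, Pi.single_apply]
    · intro j k
      rw [polar_minus]
      simp [Pi.single_apply]
    · intro j k
      rw [polar_minus]
      simp [Pi.single_apply]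
    · intro j k
      rw [polar_minus]
      simp [Pi.single_apply, Fin.castLE_inj, eq_comm]

end Cfsg.Agent.Helper65.OB
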