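import Mathlib
import Cfsg.Agent.Helper65.BiExt

/-!
General lemmas used for the Schur multiplier of a direct product: finiteness of a tensor product
of finite abelian groups, the homomorphism out of the tensor product of two abelianizations defined
by a bimultiplicative map, products of three commuting homomorphisms, and the decomposition of the
commutator subgroup of a product of two normal subgroups.
-/

namespace Cfsg.Agent.Helper65

open scoped commutatorElement TensorProduct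

/-- The tensor product over the integers of two finite abelian groups is finite. -/
theorem finite_tensorProduct_int (M N : Type*) [AddCommGroup M] [AddCommGroup N] [Finite M]
    [Finite N] : Finite (TensorProduct ℤ M N) := by
  have he : ∀ t : TensorProduct ℤ M N, (Nat.card M) • t = 0 := by
    intro t
    induction t using TensorProduct.induction_on with
    | zero => simp
    | tmul m n =>
      rw [← natCast_zsmul, TensorProduct.smul_tmul', natCast_zsmul, card_nsmul_eq_zero',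
        TensorProduct.zero_tmul]
    | add x y hx hy => rw [smul_add, hx, hy, add_zero]
  let _i1 : Module (ZMod (Nat.card M)) (TensorProduct ℤ M N) := AddCommGroup.zmodModule he
  have _i2 : NeZero (Nat.card M) := ⟨Nat.card_pos.ne'⟩
  have _i3 : Module.Finite ℤ (TensorProduct ℤ M N) :=
    @Module.Finite.tensorProduct ℤ M N _ _ _ _ _ _ _
  have _i4 : Module.Finite (ZMod (Nat.card M)) (TensorProduct ℤ M N) :=
    Module.Finite.of_restrictScalars_finite ℤ (ZMod (Nat.card M)) (TensorProduct ℤ M N)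
  exact @Module.finite_of_finite (ZMod (Nat.card M)) (TensorProduct ℤ M N) _ _ _i1 _ _i4

/-- A bimultiplicative map `Q₁ → Q₂ → K` into a commutative group induces a homomorphism from the
tensor product of the abelianizations. -/
theorem exists_tensor_lift_comm {Q₁ Q₂ K : Type*} [Group Q₁] [Group Q₂] [CommGroup K]
    (c : Q₁ → Q₂ → K) (hL : ∀ q q' r, c (q * q') r = c q r * c q' r)
    (hR : ∀ q r r', c q (r * r') = c q r * c q r') :
    ∃ θ : Multiplicative (TensorProduct ℤ (Additive (Abelianization Q₁))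
        (Additive (Abelianization Q₂))) →* K,
      ∀ q r, θ (Multiplicative.ofAdd ((Additive.ofMul (Abelianization.of q)) ⊗ₜ[ℤ]
        (Additive.ofMul (Abelianization.of r)))) = c q r := by
  let c₁ : Q₂ → (Q₁ →* K) := fun r => MonoidHom.mk' (fun q => c q r) (fun q q' => hL q q' r)
  let d₁ : Q₂ → (Abelianization Q₁ →* K) := fun r => Abelianization.lift (c₁ r)
  have hd₁ : ∀ r q, d₁ r (Abelianization.of q) = c q r := fun r q =>
    Abelianization.lift_apply_of _ _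
  have hsurj₁ : ∀ x : Abelianization Q₁, ∃ q, Abelianization.of q = x := fun x =>
    QuotientGroup.mk_surjective x
  have hsurj₂ : ∀ x : Abelianization Q₂, ∃ q, Abelianization.of q = x := fun x =>
    QuotientGroup.mk_surjective x
  have hd₁mul : ∀ r r' x, d₁ (r * r') x = d₁ r x * d₁ r' x := by
    intro r r' x
    obtain ⟨q, rfl⟩ := hsurj₁ x
    rw [hd₁, hd₁, hd₁, hR]
  let e : Abelianization Q₁ → (Abelianization Q₂ →* K) := fun x =>
    Abelianization.lift (MonoidHom.mk' (fun r => d₁ r x) (fun r r' => hd₁mul r r' x))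
  have he : ∀ x r, e x (Abelianization.of r) = d₁ r x := fun x r =>
    Abelianization.lift_apply_of _ _
  have hemul : ∀ x x' y, e (x * x') y = e x y * e x' y := by
    intro x x' y
    obtain ⟨r, rfl⟩ := hsurj₂ y
    rw [he, he, he, map_mul]
  let F : Additive (Abelianization Q₁) →+ Additive (Abelianization Q₂) →+ Additive K :=
    AddMonoidHom.mk' (fun x => MonoidHom.toAdditive (e (Additive.toMul x))) (by
      intro x x'
      refine AddMonoidHom.ext fun y => ?_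
      exact congrArg Additive.ofMul (hemul (Additive.toMul x) (Additive.toMul x')
        (Additive.toMul y)))
  let θ₀ : TensorProduct ℤ (Additive (Abelianization Q₁)) (Additive (Abelianization Q₂)) →+
      Additive K := TensorProduct.liftAddHom F (by
        intro r m n
        rw [map_zsmul, map_zsmul]
        rfl)
  refine ⟨AddMonoidHom.toMultiplicativeLeft θ₀, ?_⟩
  intro q r
  show Additive.toMul (TensorProduct.liftAddHom F _ (_ ⊗ₜ[ℤ] _)) = c q r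
  rw [TensorProduct.liftAddHom_tmul]
  show e (Abelianization.of q) (Abelianization.of r) = c q r
  rw [he, hd₁]

/-- The same for a group `K` which happens to be commutative. -/
theorem exists_tensor_lift {Q₁ Q₂ K : Type*} [Group Q₁] [Group Q₂] [Group K]
    (hK : ∀ x y : K, x * y = y * x)
    (c : Q₁ → Q₂ → K) (hL : ∀ q q' r, c (q * q') r = c q r * c q' r)
    (hR : ∀ q r r', c q (r * r') = c q r * c q r') :
    ∃ θ : Multiplicative (TensorProduct ℤ (Additive (Abelianization Q₁))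
        (Additive (Abelianization Q₂))) →* K,
      ∀ q r, θ (Multiplicative.ofAdd ((Additive.ofMul (Abelianization.of q)) ⊗ₜ[ℤ]
        (Additive.ofMul (Abelianization.of r)))) = c q r := by
  let cg : CommGroup K := { (inferInstance : Group K) with mul_comm := hK }
  obtain ⟨θ, hθ⟩ := @exists_tensor_lift_comm Q₁ Q₂ K _ _ cg c hL hR
  exact ⟨θ, hθ⟩

/-- The product of three homomorphisms into a group which happens to be commutative. -/
theorem exists_coprod3 {A B T K : Type*} [Group A] [Group B] [Group T] [Group K]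
    (hK : ∀ x y : K, x * y = y * x) (f₁ : A →* K) (f₂ : B →* K) (f₃ : T →* K) :
    ∃ π : A × B × T →* K, ∀ a b t, π (a, b, t) = f₁ a * f₂ b * f₃ t := by
  refine ⟨MonoidHom.mk' (fun y => f₁ y.1 * f₂ y.2.1 * f₃ y.2.2) ?_, fun a b t => rfl⟩
  intro y y'
  simp only [Prod.fst_mul, Prod.snd_mul, map_mul]
  rw [Commute.mul_mul_mul_comm (hK (f₁ y'.1) (f₂ y.2.1)),
    Commute.mul_mul_mul_comm (hK (f₁ y'.1 * f₂ y'.2.1) (f₃ y.2.2))]

/-- If `Γ = Δ₁ Δ₂` with `Δ₁`, `Δ₂` normal, every element of the commutator subgroup is a product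
of elements of `[Δ₁, Δ₁]`, `[Δ₂, Δ₂]` and `[Δ₁, Δ₂]`. -/
theorem commutator_decomp {Γ : Type*} [Group Γ] (Δ₁ Δ₂ : Subgroup Γ) [Δ₁.Normal] [Δ₂.Normal]
    (h : ∀ g : Γ, ∃ g₁ ∈ Δ₁, ∃ g₂ ∈ Δ₂, g = g₁ * g₂) (k : Γ) (hk : k ∈ commutator Γ) :
    ∃ d₁ ∈ ⁅Δ₁, Δ₁⁆, ∃ d₂ ∈ ⁅Δ₂, Δ₂⁆, ∃ c ∈ ⁅Δ₁, Δ₂⁆, k = d₁ * d₂ * c := by
  set D : Subgroup Γ := (⁅Δ₁, Δ₁⁆ ⊔ ⁅Δ₂, Δ₂⁆) ⊔ ⁅Δ₁, Δ₂⁆ with hD
  have hDn : D.Normal := by rw [hD]; infer_instance
  have h11 : ∀ g ∈ Δ₁, ∀ h ∈ Δ₁, ⁅g, h⁆ ∈ D := fun g hg h hh =>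
    le_sup_left (a := ⁅Δ₁, Δ₁⁆ ⊔ ⁅Δ₂, Δ₂⁆) (le_sup_left (a := ⁅Δ₁, Δ₁⁆)
      (Subgroup.commutator_mem_commutator hg hh))
  have h22 : ∀ g ∈ Δ₂, ∀ h ∈ Δ₂, ⁅g, h⁆ ∈ D := fun g hg h hh =>
    le_sup_left (a := ⁅Δ₁, Δ₁⁆ ⊔ ⁅Δ₂, Δ₂⁆) (le_sup_right (a := ⁅Δ₁, Δ₁⁆)
      (Subgroup.commutator_mem_commutator hg hh))
  have h12 : ∀ g ∈ Δ₁, ∀ h ∈ Δ₂, ⁅g, h⁆ ∈ D := fun g hg h hh =>
    le_sup_right (a := ⁅Δ₁, Δ₁⁆ ⊔ ⁅Δ₂, Δ₂⁆) (Subgroup.commutator_mem_commutator hg hh)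
  have h21 : ∀ g ∈ Δ₂, ∀ h ∈ Δ₁, ⁅g, h⁆ ∈ D := fun g hg h hh => by
    have := D.inv_mem (h12 h hh g hg)
    rwa [commutatorElement_inv] at this
  have hmulL : ∀ g₁ g₂ h : Γ, ⁅g₁, h⁆ ∈ D → ⁅g₂, h⁆ ∈ D → ⁅g₁ * g₂, h⁆ ∈ D := by
    intro g₁ g₂ h h1 h2
    have e : ⁅g₁ * g₂, h⁆ = g₁ * ⁅g₂, h⁆ * g₁⁻¹ * ⁅g₁, h⁆ := by
      simp only [commutatorElement_def]; group
    rw [e]
    exact D.mul_mem (hDn.conj_mem _ h2 g₁) h1
  have hmulR : ∀ g h₁ h₂ : Γ, ⁅g, h₁⁆ ∈ D → ⁅g, h₂⁆ ∈ D → ⁅g, h₁ * h₂⁆ ∈ D := by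
    intro g h₁ h₂ h1 h2
    have e : ⁅g, h₁ * h₂⁆ = ⁅g, h₁⁆ * (h₁ * ⁅g, h₂⁆ * h₁⁻¹) := by
      simp only [commutatorElement_def]; group
    rw [e]
    exact D.mul_mem h1 (hDn.conj_mem _ h2 h₁)
  have hall : ∀ g h : Γ, ⁅g, h⁆ ∈ D := by
    intro g h'
    obtain ⟨g₁, hg₁, g₂, hg₂, rfl⟩ := h g
    obtain ⟨h₁, hh₁, h₂, hh₂, rfl⟩ := h h'
    exact hmulL _ _ _ (hmulR _ _ _ (h11 _ hg₁ _ hh₁) (h12 _ hg₁ _ hh₂))
      (hmulR _ _ _ (h21 _ hg₂ _ hh₁) (h22 _ hg₂ _ hh₂))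
  have hle : commutator Γ ≤ D := by
    rw [commutator_def, Subgroup.commutator_le]
    exact fun g _ h _ => hall g h
  have hkD : k ∈ ((⁅Δ₁, Δ₁⁆ ⊔ ⁅Δ₂, Δ₂⁆ : Subgroup Γ) ⊔ ⁅Δ₁, Δ₂⁆ : Subgroup Γ) := hle hk
  rw [← SetLike.mem_coe, Subgroup.mul_normal, Set.mem_mul] at hkD
  obtain ⟨x, hx, c, hc, rfl⟩ := hkD
  rw [SetLike.mem_coe, ← SetLike.mem_coe, Subgroup.mul_normal, Set.mem_mul] at hx
  obtain ⟨d₁, hd₁, d₂, hd₂, rfl⟩ := hx
  exact ⟨d₁, hd₁, d₂, hd₂, c, hc, rfl⟩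

end Cfsg.Agent.Helper65
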