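import Mathlib

set_option autoImplicit false

/-!
# CALL S2113, piece T2a (helper65): an elementary abelian self-centralising subgroup of order 8
whose normaliser has order 168 has all its involutions conjugate.
-/

namespace Cfsg.Agent.Helper65

/-- An element `t` of order 7 that does not commute with `y` has seven distinct conjugates
`t ^ i * y * (t ^ i)⁻¹`, `i < 7`. -/
theorem r2_conj_inj {G : Type*} [Group G] (t y : G) (ht : orderOf t = 7) (hty : t * y ≠ y * t)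
    (i j : Fin 7) (h : t ^ (i : ℕ) * y * (t ^ (i : ℕ))⁻¹ = t ^ (j : ℕ) * y * (t ^ (j : ℕ))⁻¹) :
    i = j := by
  by_contra hij
  apply hty
  have h7 : t ^ (7 : ℤ) = 1 := by
    have := pow_orderOf_eq_one t
    rw [ht] at this
    exact_mod_cast this
  have hc0 : ((t ^ (j : ℕ))⁻¹ * t ^ (i : ℕ)) * y = y * ((t ^ (j : ℕ))⁻¹ * t ^ (i : ℕ)) := by
    calc (t ^ (j : ℕ))⁻¹ * t ^ (i : ℕ) * y
        = (t ^ (j : ℕ))⁻¹ * (t ^ (i : ℕ) * y * (t ^ (i : ℕ))⁻¹) * t ^ (i : ℕ) := by group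
      _ = (t ^ (j : ℕ))⁻¹ * (t ^ (j : ℕ) * y * (t ^ (j : ℕ))⁻¹) * t ^ (i : ℕ) := by rw [h]
      _ = y * ((t ^ (j : ℕ))⁻¹ * t ^ (i : ℕ)) := by group
  have e : t ^ (-(j : ℤ) + (i : ℤ)) = (t ^ (j : ℕ))⁻¹ * t ^ (i : ℕ) := by
    rw [zpow_add, zpow_neg, zpow_natCast, zpow_natCast]
  have hc : Commute (t ^ (-(j : ℤ) + (i : ℤ))) y := by
    rw [e]; exact hc0
  have hd : Int.gcd (-(j : ℤ) + (i : ℤ)) 7 = 1 := by
    have hne : (i : ℕ) ≠ (j : ℕ) := fun h' => hij (Fin.ext h')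
    have hi := i.isLt
    have hj := j.isLt
    have h1 : (-(j : ℤ) + (i : ℤ)).natAbs < 7 := by omega
    have h2 : (-(j : ℤ) + (i : ℤ)).natAbs ≠ 0 := by omega
    rw [Int.gcd]
    have hp : Nat.Prime 7 := by norm_num
    have : Nat.Coprime 7 (-(j : ℤ) + (i : ℤ)).natAbs :=
      (Nat.Prime.coprime_iff_not_dvd hp).2 (fun hdvd => by
        have := Nat.le_of_dvd (by omega) hdvd
        omega)
    simpa using this.symm
  have hb := Int.gcd_eq_gcd_ab (-(j : ℤ) + (i : ℤ)) 7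
  rw [hd] at hb
  have ht1 : t = (t ^ (-(j : ℤ) + (i : ℤ))) ^ (Int.gcdA (-(j : ℤ) + (i : ℤ)) 7) := by
    have : t ^ (1 : ℤ) = t ^ ((-(j : ℤ) + (i : ℤ)) * Int.gcdA (-(j : ℤ) + (i : ℤ)) 7 +
        7 * Int.gcdB (-(j : ℤ) + (i : ℤ)) 7) := by
      rw [← hb]
      norm_num
    rw [zpow_one, zpow_add, zpow_mul, zpow_mul, h7, one_zpow, mul_one] at this
    exact this
  have hfin : Commute t y := by
    rw [ht1]
    exact hc.zpow_left _
  exact hfin

/-- PIECE T2a (pure Mathlib): an elementary abelian self-centralising subgroup of order 8 whose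
normaliser has order 168: the normaliser is transitive on the seven involutions. -/
theorem r2_trans {G : Type*} [Group G] [Finite G] (S : Subgroup G) (hS8 : Nat.card S = 8)
    (hexp : ∀ x ∈ S, x * x = 1) (hC : Subgroup.centralizer (S : Set G) = S)
    (hN : Nat.card (Subgroup.normalizer (S : Set G)) = 168) :
    ∀ x ∈ S, ∀ y ∈ S, x ≠ 1 → y ≠ 1 → ∃ g : G, g * x * g⁻¹ = y := by
  classical
  -- an element of order 7 in the normaliser
  have : Fact (Nat.Prime 7) := ⟨by norm_num⟩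
  obtain ⟨t', ht'⟩ := exists_prime_orderOf_dvd_card' (G := ↥(Subgroup.normalizer (S : Set G))) 7
    (by rw [hN]; norm_num)
  obtain ⟨t, htN, rfl⟩ : ∃ t : G, ∃ h : t ∈ Subgroup.normalizer (S : Set G), t' = ⟨t, h⟩ :=
    ⟨t'.1, t'.2, rfl⟩
  have ht : orderOf t = 7 := by
    rw [← ht', ← Subgroup.orderOf_coe]
  have hconj : ∀ (i : ℕ) (x : G), x ∈ S → t ^ i * x * (t ^ i)⁻¹ ∈ S := by
    intro i x hx
    have hN' : t ^ i ∈ Subgroup.normalizer (S : Set G) := pow_mem htN i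
    exact (Subgroup.mem_normalizer_iff.mp hN' x).mp hx
  -- the orbit of an element not commuting with `t` is `S \ {1}`
  have horb : ∀ y ∈ S, t * y ≠ y * t → ∀ w ∈ S, w ≠ 1 →
      ∃ i : Fin 7, t ^ (i : ℕ) * y * (t ^ (i : ℕ))⁻¹ = w := by
    intro y hy hty w hw hw1
    let f : Fin 7 → ↥S := fun i => ⟨t ^ (i : ℕ) * y * (t ^ (i : ℕ))⁻¹, hconj i y hy⟩
    have hf : Function.Injective f := by
      intro i j hij
      exact r2_conj_inj t y ht hty i j (congrArg Subtype.val hij)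
    have hy1 : y ≠ 1 := by
      rintro rfl
      exact hty (by rw [mul_one, one_mul])
    have hsub : Set.range f ⊆ ({1}ᶜ : Set ↥S) := by
      rintro _ ⟨i, rfl⟩
      rw [Set.mem_compl_iff, Set.mem_singleton_iff]
      intro h1
      have h2 : t ^ (i : ℕ) * y * (t ^ (i : ℕ))⁻¹ = 1 := congrArg Subtype.val h1
      apply hy1
      have : y = (t ^ (i : ℕ))⁻¹ * (t ^ (i : ℕ) * y * (t ^ (i : ℕ))⁻¹) * t ^ (i : ℕ) := by group
      rw [this, h2]; group
    have hc1 : (Set.range f).ncard = 7 := by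
      rw [← Set.image_univ, Set.ncard_image_of_injective _ hf, Set.ncard_univ, Nat.card_fin]
    have hc2 : ({1}ᶜ : Set ↥S).ncard = 7 := by
      rw [Set.ncard_compl, Set.ncard_singleton, hS8]
    have heq : Set.range f = ({1}ᶜ : Set ↥S) :=
      Set.eq_of_subset_of_ncard_le hsub (by rw [hc1, hc2]) (Set.toFinite _)
    have hwm : (⟨w, hw⟩ : ↥S) ∈ ({1}ᶜ : Set ↥S) := by
      rw [Set.mem_compl_iff, Set.mem_singleton_iff]
      intro h
      exact hw1 (congrArg Subtype.val h)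
    rw [← heq] at hwm
    obtain ⟨i, hi⟩ := hwm
    exact ⟨i, congrArg Subtype.val hi⟩
  -- `t` commutes with no non-identity element of `S`
  have hnc : ∀ x ∈ S, x ≠ 1 → t * x ≠ x * t := by
    intro x₀ hx₀ hx₀1 hcomm
    have hall : ∀ y ∈ S, t * y = y * t := by
      intro y hy
      by_contra hty
      obtain ⟨i, hi⟩ := horb y hy hty x₀ hx₀ hx₀1
      have hci : Commute (t ^ (i : ℕ)) x₀ := Commute.pow_left hcomm _
      have hy' : y = x₀ := by
        have e1 : y = (t ^ (i : ℕ))⁻¹ * (t ^ (i : ℕ) * y * (t ^ (i : ℕ))⁻¹) * t ^ (i : ℕ) := by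
          group
        rw [e1, hi, mul_assoc, ← hci.eq, ← mul_assoc, inv_mul_cancel, one_mul]
      exact hty (by rw [hy']; exact hcomm)
    have htC : t ∈ Subgroup.centralizer (S : Set G) := by
      rw [Subgroup.mem_centralizer_iff]
      intro y hy
      exact (hall y hy).symm
    rw [hC] at htC
    have h2 : t ^ 2 = 1 := by rw [pow_two]; exact hexp t htC
    have := orderOf_dvd_of_pow_eq_one h2
    rw [ht] at this
    norm_num at this
  intro x hx y hy hx1 hy1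
  obtain ⟨i, hi⟩ := horb x hx (hnc x hx hx1) y hy hy1
  exact ⟨t ^ (i : ℕ), hi⟩

end Cfsg.Agent.Helper65
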