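import Mathlib
import Cfsg.Prelude.Def_KGroupFacts
import Cfsg.Agent.Helper35.StemSylow

set_option autoImplicit false

/-!
# CALL S2113, piece T2b (helper65): a stem extension of a group whose Sylow 2-subgroups are
elementary abelian of order 8 with all involutions conjugate has no element of order 2 in its
kernel.
-/

namespace Cfsg.Agent.Helper65

open scoped commutatorElement

/-- Elements of the kernel lying in a Sylow 2-subgroup have square 1. -/
theorem r2_ker_sq {Γ G : Type*} [Group Γ] [Finite Γ] [Group G] (σ : Γ →* G)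
    (hσ : Cfsg.IsStemExtension σ)
    (hS : ∀ S : Sylow 2 G, ∀ x ∈ S, x * x = 1)
    (L : Sylow 2 Γ) (k : Γ) (hkL : k ∈ L) (hk : k ∈ σ.ker) : k * k = 1 := by
  classical
  have hσ' := hσ
  obtain ⟨hsurj, hcen, hder⟩ := hσ
  have hst := Cfsg.Agent.Helper35.stem_subgroupMap_sylow σ hσ' 2 L
  have hexp : ∀ x ∈ L, σ x * σ x = 1 := by
    intro x hx
    apply hS (L.mapSurjective hsurj)
    change σ x ∈ ((L.mapSurjective hsurj : Sylow 2 G) : Subgroup G)
    rw [Sylow.coe_mapSurjective]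
    exact Subgroup.mem_map_of_mem σ hx
  have hkc : ∀ k ∈ σ.ker, ∀ g : Γ, g * k = k * g := fun k hk g =>
    Subgroup.mem_center_iff.mp (hcen hk) g
  -- commutators of elements of `L` lie in the kernel and have square 1
  have hcomm : ∀ x ∈ L, ∀ y ∈ L, ⁅x, y⁆ ∈ σ.ker ∧ ⁅x, y⁆ * ⁅x, y⁆ = 1 := by
    intro x hx y hy
    have h1 : ⁅x, y⁆ ∈ σ.ker := by
      rw [MonoidHom.mem_ker, map_commutatorElement, commutatorElement_eq_one_iff_mul_comm]
      have hxy := hexp (x * y) (mul_mem hx hy)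
      rw [map_mul] at hxy
      have hxx := hexp x hx
      have hyy := hexp y hy
      have ha : (σ x)⁻¹ = σ x := inv_eq_of_mul_eq_one_left hxx
      have hb : (σ y)⁻¹ = σ y := inv_eq_of_mul_eq_one_left hyy
      have hab : (σ x * σ y)⁻¹ = σ x * σ y := inv_eq_of_mul_eq_one_left hxy
      calc σ x * σ y = (σ x * σ y)⁻¹ := hab.symm
        _ = (σ y)⁻¹ * (σ x)⁻¹ := mul_inv_rev _ _
        _ = σ y * σ x := by rw [ha, hb]
    refine ⟨h1, ?_⟩
    have hxx : x * x ∈ σ.ker := by rw [MonoidHom.mem_ker, map_mul]; exact hexp x hx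
    have e1 : ⁅x * x, y⁆ = 1 := by
      rw [commutatorElement_eq_one_iff_mul_comm]
      exact (hkc _ hxx y).symm
    have e2 : ⁅x * x, y⁆ = x * ⁅x, y⁆ * x⁻¹ * ⁅x, y⁆ := by
      rw [commutatorElement_def, commutatorElement_def]; group
    rw [e1, hkc _ h1 x, mul_inv_cancel_right] at e2
    exact e2.symm
  -- every element of the commutator subgroup of `L` is a kernel element of square 1
  have hclos : ∀ w : ↥(L : Subgroup Γ), w ∈ commutator ↥(L : Subgroup Γ) →
      (w : Γ) ∈ σ.ker ∧ (w : Γ) * (w : Γ) = 1 := by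
    intro w hw
    rw [commutator_eq_closure] at hw
    induction hw using Subgroup.closure_induction with
    | mem w hw =>
      obtain ⟨x, y, rfl⟩ := hw
      have := hcomm x x.2 y y.2
      have e : ((⁅x, y⁆ : ↥(L : Subgroup Γ)) : Γ) = ⁅(x : Γ), (y : Γ)⁆ := by
        simp [commutatorElement_def]
      rw [e]
      exact this
    | one => exact ⟨one_mem _, by simp⟩
    | mul a b _ _ iha ihb =>
      refine ⟨by simpa using mul_mem iha.1 ihb.1, ?_⟩
      have hc := hkc _ ihb.1 (a : Γ)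
      calc ((a * b : ↥(L : Subgroup Γ)) : Γ) * ((a * b : ↥(L : Subgroup Γ)) : Γ)
          = (a : Γ) * ((b : Γ) * (a : Γ)) * (b : Γ) := by
            simp only [Subgroup.coe_mul]; group
        _ = (a : Γ) * ((a : Γ) * (b : Γ)) * (b : Γ) := by rw [hc]
        _ = ((a : Γ) * (a : Γ)) * ((b : Γ) * (b : Γ)) := by group
        _ = 1 := by rw [iha.2, ihb.2, one_mul]
    | inv a _ iha =>
      refine ⟨by simpa using inv_mem iha.1, ?_⟩
      have : ((a⁻¹ : ↥(L : Subgroup Γ)) : Γ) * ((a⁻¹ : ↥(L : Subgroup Γ)) : Γ) =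
          ((a : Γ) * (a : Γ))⁻¹ := by simp
      rw [this, iha.2, inv_one]
  have hmem : (⟨k, hkL⟩ : ↥(L : Subgroup Γ)) ∈ (σ.subgroupMap (L : Subgroup Γ)).ker := by
    rw [MonoidHom.mem_ker]
    apply Subtype.ext
    exact MonoidHom.mem_ker.mp hk
  exact (hclos _ (hst.2.2 hmem)).2

/-- PIECE T2b (Mathlib + `Helper35.stem_subgroupMap_sylow`). -/
theorem r2_main {Γ G : Type*} [Group Γ] [Finite Γ] [Group G] [Finite G] (σ : Γ →* G)
    (hσ : Cfsg.IsStemExtension σ)
    (hS : ∀ S : Sylow 2 G, Nat.card S = 8 ∧ (∀ x ∈ S, x * x = 1) ∧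
      ∀ x ∈ S, ∀ y ∈ S, x ≠ 1 → y ≠ 1 → ∃ g : G, g * x * g⁻¹ = y)
    (z : Γ) (hz : z ∈ σ.ker) (hz2 : orderOf z = 2) : False := by
  classical
  have hσ' := hσ
  obtain ⟨hsurj, hcen, hder⟩ := hσ
  have hkc : ∀ k ∈ σ.ker, ∀ g : Γ, g * k = k * g := fun k hk g =>
    Subgroup.mem_center_iff.mp (hcen hk) g
  have hS2 : ∀ S : Sylow 2 G, ∀ x ∈ S, x * x = 1 := fun S => (hS S).2.1
  -- a Sylow 2-subgroup containing `z`
  have hzp : IsPGroup 2 (Subgroup.zpowers z) := by
    apply IsPGroup.of_card (n := 1)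
    rw [Nat.card_zpowers, hz2, pow_one]
  obtain ⟨L, hL⟩ := hzp.exists_le_sylow
  have hzL : z ∈ (L : Subgroup Γ) := hL (Subgroup.mem_zpowers z)
  obtain ⟨h8, hexpS, htrans⟩ := hS (L.mapSurjective hsurj)
  have hmemS : ∀ x ∈ L, σ x ∈ (L.mapSurjective hsurj : Sylow 2 G) := by
    intro x hx
    change σ x ∈ ((L.mapSurjective hsurj : Sylow 2 G) : Subgroup G)
    rw [Sylow.coe_mapSurjective]
    exact Subgroup.mem_map_of_mem σ hx
  have hliftS : ∀ g ∈ (L.mapSurjective hsurj : Sylow 2 G), ∃ x ∈ L, σ x = g := by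
    intro g hg
    change g ∈ ((L.mapSurjective hsurj : Sylow 2 G) : Subgroup G) at hg
    rw [Sylow.coe_mapSurjective] at hg
    exact Subgroup.mem_map.mp hg
  have hexp : ∀ x ∈ L, x * x ∈ σ.ker := by
    intro x hx
    rw [MonoidHom.mem_ker, map_mul]
    exact hexpS _ (hmemS x hx)
  -- 2-elements of the kernel have square 1
  have hk2 : ∀ k ∈ σ.ker, (∃ n : ℕ, orderOf k = 2 ^ n) → k * k = 1 := by
    intro k hk ⟨n, hn⟩
    have hkp : IsPGroup 2 (Subgroup.zpowers k) := by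
      apply IsPGroup.of_card (n := n)
      rw [Nat.card_zpowers, hn]
    obtain ⟨L', hL'⟩ := hkp.exists_le_sylow
    exact r2_ker_sq σ hσ' hS2 L' k (hL' (Subgroup.mem_zpowers k)) hk
  have hord : ∀ x ∈ L, ∃ n : ℕ, orderOf x = 2 ^ n := by
    intro x hx
    obtain ⟨n, hn⟩ := (IsPGroup.iff_orderOf.mp L.isPGroup') ⟨x, hx⟩
    exact ⟨n, by rw [← hn, Subgroup.orderOf_mk]⟩
  -- all elements of `L` outside the kernel have the same square
  have hsq : ∀ x ∈ L, ∀ y ∈ L, σ x ≠ 1 → σ y ≠ 1 → x * x = y * y := by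
    intro x hx y hy hx1 hy1
    obtain ⟨g, hg⟩ := htrans _ (hmemS x hx) _ (hmemS y hy) hx1 hy1
    obtain ⟨γ, rfl⟩ := hsurj g
    have hkk : (γ * x * γ⁻¹)⁻¹ * y ∈ σ.ker := by
      rw [MonoidHom.mem_ker, map_mul, map_inv, map_mul, map_mul, map_inv, hg, inv_mul_cancel]
    set k := (γ * x * γ⁻¹)⁻¹ * y with hkdef
    have hy' : y = γ * x * γ⁻¹ * k := by rw [hkdef]; group
    have hko : ∃ n : ℕ, orderOf k = 2 ^ n := by
      obtain ⟨n1, hn1⟩ := hord x hx
      obtain ⟨n2, hn2⟩ := hord y hy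
      have hc : Commute ((γ * x * γ⁻¹)⁻¹) y := by
        have h1 : Commute (γ * x * γ⁻¹) y := by
          rw [hy']
          have : Commute (γ * x * γ⁻¹) k := hkc k hkk _
          exact (Commute.refl _).mul_right this
        exact h1.inv_left
      have hd := hc.orderOf_mul_dvd_lcm
      have ho1 : orderOf ((γ * x * γ⁻¹)⁻¹) = 2 ^ n1 := by
        rw [orderOf_inv, ← hn1]
        have : γ * x * γ⁻¹ = MulAut.conj γ x := by simp [MulAut.conj_apply]
        rw [this, MulEquiv.orderOf_eq]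
      rw [ho1, hn2] at hd
      have hl : Nat.lcm (2 ^ n1) (2 ^ n2) ∣ 2 ^ (max n1 n2) :=
        Nat.lcm_dvd (pow_dvd_pow 2 (le_max_left _ _)) (pow_dvd_pow 2 (le_max_right _ _))
      obtain ⟨n, -, hn⟩ := (Nat.dvd_prime_pow Nat.prime_two).mp (hd.trans hl)
      exact ⟨n, hn⟩
    have hkk2 := hk2 k hkk hko
    have hxx := hexp x hx
    calc x * x = γ * (x * x) * γ⁻¹ := by
          rw [hkc _ hxx γ, mul_inv_cancel_right]
      _ = (γ * x * γ⁻¹) * (γ * x * γ⁻¹) * (k * k) := by rw [hkk2]; group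
      _ = (γ * x * γ⁻¹ * k) * (γ * x * γ⁻¹ * k) := by
          have := hkc k hkk (γ * x * γ⁻¹)
          calc (γ * x * γ⁻¹) * (γ * x * γ⁻¹) * (k * k)
              = (γ * x * γ⁻¹) * ((γ * x * γ⁻¹) * k) * k := by group
            _ = (γ * x * γ⁻¹) * (k * (γ * x * γ⁻¹)) * k := by rw [this]
            _ = (γ * x * γ⁻¹ * k) * (γ * x * γ⁻¹ * k) := by group
      _ = y * y := by rw [← hy']
  -- three suitable elements of the Sylow subgroup of `G`
  have hpick : ∀ F : Finset ↥((L.mapSurjective hsurj : Sylow 2 G) : Subgroup G), F.card < 8 →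
      ∃ e : ↥((L.mapSurjective hsurj : Sylow 2 G) : Subgroup G), e ∉ F := by
    intro F hF
    by_contra hcon
    push Not at hcon
    have : Fintype ↥((L.mapSurjective hsurj : Sylow 2 G) : Subgroup G) := Fintype.ofFinite _
    have h1 : Finset.univ ⊆ F := fun e _ => hcon e
    have h2 := Finset.card_le_card h1
    rw [Finset.card_univ, ← Nat.card_eq_fintype_card, h8] at h2
    omega
  obtain ⟨α, hα⟩ := hpick {1} (by rw [Finset.card_singleton]; norm_num)
  obtain ⟨β, hβ⟩ := hpick {1, α} (lt_of_le_of_lt (Finset.card_le_two) (by norm_num))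
  obtain ⟨γ', hγ⟩ := hpick {1, α, β, α * β} (lt_of_le_of_lt (Finset.card_le_four) (by norm_num))
  simp only [Finset.mem_singleton, Finset.mem_insert, not_or] at hα hβ hγ
  obtain ⟨a, haL, ha⟩ := hliftS α α.2
  obtain ⟨b, hbL, hb⟩ := hliftS β β.2
  obtain ⟨c, hcL, hc⟩ := hliftS γ' γ'.2
  have hαα : (α : G) * (α : G) = 1 := hexpS _ α.2
  have hββ : (β : G) * (β : G) = 1 := hexpS _ β.2
  have hne : ∀ e : ↥((L.mapSurjective hsurj : Sylow 2 G) : Subgroup G), e ≠ 1 → (e : G) ≠ 1 :=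
    fun e he h => he (Subtype.ext h)
  have ha1 : σ a ≠ 1 := by rw [ha]; exact hne α hα
  have hb1 : σ b ≠ 1 := by rw [hb]; exact hne β hβ.1
  have hc1 : σ c ≠ 1 := by rw [hc]; exact hne γ' hγ.1
  have hab1 : σ (a * b) ≠ 1 := by
    rw [map_mul, ha, hb]
    intro h
    apply hβ.2
    apply Subtype.ext
    have : (β : G) = (α : G)⁻¹ := (inv_eq_of_mul_eq_one_right h).symm
    rw [this]
    exact inv_eq_of_mul_eq_one_left hαα
  have hac1 : σ (a * c) ≠ 1 := by
    rw [map_mul, ha, hc]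
    intro h
    apply hγ.2.1
    apply Subtype.ext
    have : (γ' : G) = (α : G)⁻¹ := (inv_eq_of_mul_eq_one_right h).symm
    rw [this]
    exact inv_eq_of_mul_eq_one_left hαα
  have hbc1 : σ (b * c) ≠ 1 := by
    rw [map_mul, hb, hc]
    intro h
    apply hγ.2.2.1
    apply Subtype.ext
    have : (γ' : G) = (β : G)⁻¹ := (inv_eq_of_mul_eq_one_right h).symm
    rw [this]
    exact inv_eq_of_mul_eq_one_left hββ
  have habc1 : σ (a * (b * c)) ≠ 1 := by
    rw [map_mul, map_mul, ha, hb, hc]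
    intro h
    apply hγ.2.2.2
    apply Subtype.ext
    have hαβ : ((α * β : ↥((L.mapSurjective hsurj : Sylow 2 G) : Subgroup G)) : G) *
        ((α * β : ↥((L.mapSurjective hsurj : Sylow 2 G) : Subgroup G)) : G) = 1 :=
      hexpS _ (α * β).2
    have h' : ((α * β : ↥((L.mapSurjective hsurj : Sylow 2 G) : Subgroup G)) : G) * (γ' : G) = 1 := by
      rw [Subgroup.coe_mul, mul_assoc]; exact h
    have : (γ' : G) = ((α * β : ↥((L.mapSurjective hsurj : Sylow 2 G) : Subgroup G)) : G)⁻¹ :=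
      (inv_eq_of_mul_eq_one_right h').symm
    rw [this]
    exact inv_eq_of_mul_eq_one_left hαβ
  -- the common square `s`
  have hsker : a * a ∈ σ.ker := hexp a haL
  have hcs : ∀ g : Γ, Commute g (a * a) := fun g => hkc _ hsker g
  have hrel : ∀ x ∈ L, ∀ y ∈ L, x * x = a * a → y * y = a * a → (x * y) * (x * y) = a * a →
      y * x = x * y * (a * a)⁻¹ := by
    intro x _ y _ hx hy hxy
    have e1 : x * (y * x) * y = a * a := by
      calc x * (y * x) * y = (x * y) * (x * y) := by group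
        _ = a * a := hxy
    have e2 : x * (x * y * (a * a)⁻¹) * y = a * a := by
      calc x * (x * y * (a * a)⁻¹) * y = (x * x) * (y * (a * a)⁻¹) * y := by group
        _ = (x * x) * ((a * a)⁻¹ * y) * y := by rw [(hcs y).inv_right.eq]
        _ = (x * x) * (a * a)⁻¹ * (y * y) := by group
        _ = a * a := by rw [hx, hy, mul_inv_cancel, one_mul]
    have e3 : x * (y * x) * y = x * (x * y * (a * a)⁻¹) * y := by rw [e1, e2]
    exact mul_left_cancel (mul_right_cancel e3)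
  have h1 := hrel a haL b hbL rfl (hsq b hbL a haL hb1 ha1)
    (hsq (a * b) (mul_mem haL hbL) a haL hab1 ha1)
  have h2 := hrel a haL c hcL rfl (hsq c hcL a haL hc1 ha1)
    (hsq (a * c) (mul_mem haL hcL) a haL hac1 ha1)
  have h3 := hrel a haL (b * c) (mul_mem hbL hcL) rfl
    (hsq (b * c) (mul_mem hbL hcL) a haL hbc1 ha1)
    (hsq (a * (b * c)) (mul_mem haL (mul_mem hbL hcL)) a haL habc1 ha1)
  have hs1 : a * a = 1 := by
    have e : (b * c) * a = a * (b * c) * (a * a)⁻¹ * (a * a)⁻¹ := by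
      calc (b * c) * a = b * (c * a) := by group
        _ = b * (a * c * (a * a)⁻¹) := by rw [h2]
        _ = (b * a) * c * (a * a)⁻¹ := by group
        _ = (a * b * (a * a)⁻¹) * c * (a * a)⁻¹ := by rw [h1]
        _ = a * b * ((a * a)⁻¹ * c) * (a * a)⁻¹ := by group
        _ = a * b * (c * (a * a)⁻¹) * (a * a)⁻¹ := by rw [(hcs c).inv_right.eq]
        _ = a * (b * c) * (a * a)⁻¹ * (a * a)⁻¹ := by group
    rw [h3] at e
    have e' : (1 : Γ) = (a * a)⁻¹ := by
      have := mul_left_cancel (a := a * (b * c) * (a * a)⁻¹) (b := 1) (c := (a * a)⁻¹)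
        (by rw [mul_one]; exact e)
      exact this
    rw [← inv_inj, inv_one]
    exact e'.symm
  -- `L` has exponent 2, hence is abelian
  have hall : ∀ x ∈ L, x * x = 1 := by
    intro x hx
    by_cases hx1 : σ x = 1
    · exact hk2 x (MonoidHom.mem_ker.mpr hx1) (hord x hx)
    · rw [hsq x hx a haL hx1 ha1, hs1]
  have hLcomm : ∀ x ∈ L, ∀ y ∈ L, x * y = y * x := by
    intro x hx y hy
    have hxx := hall x hx
    have hyy := hall y hy
    have hxy := hall (x * y) (mul_mem hx hy)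
    have hax : x⁻¹ = x := inv_eq_of_mul_eq_one_left hxx
    have hby : y⁻¹ = y := inv_eq_of_mul_eq_one_left hyy
    have habxy : (x * y)⁻¹ = x * y := inv_eq_of_mul_eq_one_left hxy
    calc x * y = (x * y)⁻¹ := habxy.symm
      _ = y⁻¹ * x⁻¹ := mul_inv_rev _ _
      _ = y * x := by rw [hax, hby]
  have hst := Cfsg.Agent.Helper35.stem_subgroupMap_sylow σ hσ' 2 L
  have hbot : commutator ↥(L : Subgroup Γ) = ⊥ := by
    rw [eq_bot_iff, _root_.commutator_def, Subgroup.commutator_le]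
    intro x _ y _
    rw [Subgroup.mem_bot, commutatorElement_eq_one_iff_mul_comm]
    exact Subtype.ext (hLcomm x x.2 y y.2)
  have hmem : (⟨z, hzL⟩ : ↥(L : Subgroup Γ)) ∈ (σ.subgroupMap (L : Subgroup Γ)).ker := by
    rw [MonoidHom.mem_ker]
    apply Subtype.ext
    exact MonoidHom.mem_ker.mp hz
  have hz1 := hst.2.2 hmem
  rw [hbot, Subgroup.mem_bot] at hz1
  have hz1' : z = 1 := congrArg Subtype.val hz1
  rw [hz1', orderOf_one] at hz2
  exact absurd hz2 (by norm_num)

end Cfsg.Agent.Helper65
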