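import Mathlib
import Cfsg.Agent.Helper65.R3Defs
import Cfsg.Agent.Helper35.StemPairing

set_option autoImplicit false
set_option linter.unusedSectionVars false

/-!
# CALL S2113, pieces A1 and B1 (helper65): lifts of `U₃`, resp. of `U₂`, commute.
-/

namespace Cfsg.Agent.Helper65

open scoped commutatorElement

section
variable {K : Type*} [Field K] [Fintype K] [CharP K 3] {G : Type*} [Group G] {Γ : Type*} [Group Γ]

/-- PIECE A1: lifts of `U₃` commute. -/
theorem r3_A1 (S : R3 K G Γ) (hq : 9 < Fintype.card K) :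
    ∀ x y : Γ, (∃ v, S.σ x = S.X 0 0 v) → (∃ v, S.σ y = S.X 0 0 v) → x * y = y * x := by
  refine Cfsg.Agent.Helper35.stemp_comm_of_field_action (F := K) (by omega) (by omega) (by omega)
    (by omega) (by omega) S.σ S.hcen (fun v => S.X 0 0 v) ?_ (fun a => S.hsec 0 0 a) ?_
  · intro a b
    rw [S.X_mul0, add_zero]
  · intro t ht
    have ht2 : t ^ 2 ≠ 0 := pow_ne_zero 2 ht
    obtain ⟨τ, hτ⟩ := S.htor (t ^ 2) ht2
    refine ⟨τ, fun b => ?_⟩
    have h := S.conj_η0 ht2 0 b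
    rw [mul_zero] at h
    rw [hτ, ← h, inv_mul_cancel_right]

/-- PIECE B1 (uses A2): lifts of `U₂` commute. -/
theorem r3_B1 (S : R3 K G Γ) (hq : 9 < Fintype.card K)
    (hA2 : ∀ x y : Γ, (∃ u v, S.σ x = S.X 0 u v) → (∃ v, S.σ y = S.X 0 0 v) → x * y = y * x) :
    ∀ x y : Γ, (∃ u v, S.σ x = S.X 0 u v) → (∃ u v, S.σ y = S.X 0 u v) → x * y = y * x := by
  have hb : ∀ x y : Γ, (∃ a, S.σ x = S.X 0 a 0) → (∃ b, S.σ y = S.X 0 b 0) → x * y = y * x := by
    refine Cfsg.Agent.Helper35.stemp_comm_of_field_action (F := K) (by omega) (by omega)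
      (by omega) (by omega) (by omega) S.σ S.hcen (fun b => S.X 0 b 0) ?_
      (fun a => S.hsec 0 a 0) ?_
    · intro a b
      rw [S.X_mul0, add_zero]
    · intro t ht
      have hL : S.L t ≠ 0 := (map_ne_zero S.L).mpr ht
      have hz : S.L t * t ≠ 0 := mul_ne_zero hL ht
      obtain ⟨τ, hτ⟩ := S.htor (S.L t * t) hz
      refine ⟨τ, fun b => ?_⟩
      have hw : S.L (S.L t * t) * (S.L t * t)⁻¹ = t ^ 2 := by
        rw [map_mul, S.hLL]
        field_simp
      have h := S.conj_η0 hz b 0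
      rw [mul_zero, hw] at h
      rw [hτ, ← h, inv_mul_cancel_right]
  intro x y ⟨u, v, hx⟩ ⟨u', v', hy⟩
  -- decompose `x = b * c * k`, `y = b' * c' * k'`
  obtain ⟨b, hb0⟩ := S.hsec 0 u 0
  obtain ⟨c, hc0⟩ := S.hsec 0 0 v
  obtain ⟨b', hb0'⟩ := S.hsec 0 u' 0
  obtain ⟨c', hc0'⟩ := S.hsec 0 0 v'
  have ex : S.σ (b * c) = S.σ x := by
    rw [map_mul, hb0, hc0, hx, S.X_mul0, add_zero, zero_add]
  have ey : S.σ (b' * c') = S.σ y := by
    rw [map_mul, hb0', hc0', hy, S.X_mul0, add_zero, zero_add]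
  obtain ⟨k, hk, rfl⟩ := S.exists_ker ex
  obtain ⟨k', hk', rfl⟩ := S.exists_ker ey
  have h1 : b * b' = b' * b := hb b b' ⟨u, hb0⟩ ⟨u', hb0'⟩
  have h2 : b * c' = c' * b := hA2 b c' ⟨u, 0, hb0⟩ ⟨v', hc0'⟩
  have h3 : b' * c = c * b' := hA2 b' c ⟨u', 0, hb0'⟩ ⟨v, hc0⟩
  have h4 : c * c' = c' * c := hA2 c c' ⟨0, v, hc0⟩ ⟨v', hc0'⟩
  have h5 : ∀ g : Γ, g * k = k * g := S.ker_comm hk
  have h6 : ∀ g : Γ, g * k' = k' * g := S.ker_comm hk'
  have e1 : (b * c) * (b' * c') = (b' * c') * (b * c) := by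
    calc (b * c) * (b' * c') = b * (c * b') * c' := by group
      _ = b * (b' * c) * c' := by rw [h3]
      _ = (b * b') * (c * c') := by group
      _ = (b' * b) * (c' * c) := by rw [h1, h4]
      _ = b' * (b * c') * c := by group
      _ = b' * (c' * b) * c := by rw [h2]
      _ = (b' * c') * (b * c) := by group
  have hk1 : k * (b' * c' * k') = (b' * c' * k') * k := (h5 _).symm
  have hk2 : k' * (b * c) = (b * c) * k' := (h6 _).symm
  calc b * c * k * (b' * c' * k') = (b * c) * (k * (b' * c' * k')) := by group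
    _ = (b * c) * ((b' * c' * k') * k) := by rw [hk1]
    _ = ((b * c) * (b' * c')) * k' * k := by group
    _ = ((b' * c') * (b * c)) * k' * k := by rw [e1]
    _ = (b' * c') * ((b * c) * k') * k := by group
    _ = (b' * c') * (k' * (b * c)) * k := by rw [hk2]
    _ = b' * c' * k' * (b * c * k) := by group

end

end Cfsg.Agent.Helper65
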