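import Mathlib
import Cfsg.Agent.Helper65.R3Defs

set_option autoImplicit false
set_option linter.unusedSectionVars false

/-!
# CALL S2113, piece C1 (helper65): a homomorphic, torus-equivariant section of `U₂`.
-/

namespace Cfsg.Agent.Helper65

open scoped commutatorElement

section
variable {K : Type*} [Field K] [Fintype K] [CharP K 3] {G : Type*} [Group G] {Γ : Type*} [Group Γ]

/-- There is `μ` with `L μ ≠ μ`. -/
theorem r3c1_exists_mu (S : R3 K G Γ) (hq : 9 < Fintype.card K) : ∃ μ : K, S.L μ ≠ μ := by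
  classical
  by_contra hcon
  push Not at hcon
  have h3 : ∀ c : K, c ^ 3 = c := fun c => by
    have := S.hLL c
    rw [hcon, hcon] at this
    exact this.symm
  -- every element is a root of `X ^ 3 - X`
  have hp : (Polynomial.X ^ 3 - Polynomial.X : Polynomial K) ≠ 0 := by
    intro h
    have := congrArg (fun p => Polynomial.coeff p 3) h
    simp [Polynomial.coeff_X] at this
  have hsub : (Finset.univ : Finset K) ⊆ (Polynomial.X ^ 3 - Polynomial.X : Polynomial K).roots.toFinset := by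
    intro c _
    rw [Multiset.mem_toFinset, Polynomial.mem_roots hp]
    simp [Polynomial.IsRoot, h3 c]
  have hcard := Finset.card_le_card hsub
  have h1 : (Polynomial.X ^ 3 - Polynomial.X : Polynomial K).roots.toFinset.card ≤ 3 := by
    refine (Multiset.toFinset_card_le _).trans ((Polynomial.card_roots' _).trans ?_)
    have : (Polynomial.X ^ 3 - Polynomial.X : Polynomial K).natDegree ≤ 3 := by
      refine (Polynomial.natDegree_sub_le _ _).trans ?_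
      simp
    exact this
  rw [Finset.card_univ] at hcard
  omega

/-- PIECE C1 (uses B1): a homomorphic, torus-equivariant section of `U₂`. -/
theorem r3_C1 (S : R3 K G Γ) (hq : 9 < Fintype.card K)
    (hB1 : ∀ x y : Γ, (∃ u v, S.σ x = S.X 0 u v) → (∃ u v, S.σ y = S.X 0 u v) → x * y = y * x) :
    ∃ Bc : K → K → Γ, (∀ u v, S.σ (Bc u v) = S.X 0 u v) ∧
      (∀ u v u' v', Bc (u + u') (v + v') = Bc u v * Bc u' v') ∧
      (∀ z : K, z ≠ 0 → ∀ τ : Γ, S.σ τ = S.η z →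
        ∀ u v, τ * Bc u v * τ⁻¹ = Bc (S.L z * z⁻¹ * u) (z * v)) := by
  classical
  obtain ⟨μ, hμ⟩ := r3c1_exists_mu S hq
  have hμ0 : μ ≠ 0 := by
    rintro rfl
    exact hμ (map_zero _)
  have hμ1 : μ - 1 ≠ 0 := by
    intro h
    have : μ = 1 := sub_eq_zero.mp h
    rw [this] at hμ
    exact hμ (map_one _)
  have hw : S.L μ * μ⁻¹ - 1 ≠ 0 := by
    intro h
    have h' : S.L μ * μ⁻¹ = 1 := sub_eq_zero.mp h
    apply hμ
    field_simp at h'
    exact h'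
  obtain ⟨τ, hτ⟩ := S.htor μ hμ0
  choose s hs using fun u v : K => S.hsec 0 u v
  -- `δ x = τ x τ⁻¹ x⁻¹`
  set δ : Γ → Γ := fun x => τ * x * τ⁻¹ * x⁻¹ with hδ
  -- conjugation by a torus lift on lifts of `U₂`
  have hconj : ∀ (z : K), z ≠ 0 → ∀ τ' : Γ, S.σ τ' = S.η z → ∀ (x : Γ) (u v : K),
      S.σ x = S.X 0 u v → S.σ (τ' * x * τ'⁻¹) = S.X 0 (S.L z * z⁻¹ * u) (z * v) := by
    intro z hz τ' hτ' x u v hx
    rw [map_mul, map_mul, map_inv, hτ', hx, S.conj_η0 hz]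
  have hδσ : ∀ (x : Γ) (u v : K), S.σ x = S.X 0 u v →
      S.σ (δ x) = S.X 0 ((S.L μ * μ⁻¹ - 1) * u) ((μ - 1) * v) := by
    intro x u v hx
    rw [hδ]
    simp only
    rw [map_mul, hconj μ hμ0 τ hτ x u v hx, map_inv, hx, S.X_inv0, S.X_mul0]
    congr 1 <;> ring
  -- `δ` is multiplicative on lifts of `U₂`
  have hδmul : ∀ (x y : Γ) (u v u' v' : K), S.σ x = S.X 0 u v → S.σ y = S.X 0 u' v' →
      δ (x * y) = δ x * δ y := by
    intro x y u v u' v' hx hy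
    have h1 : x⁻¹ * δ y = δ y * x⁻¹ := by
      have hxi : S.σ x⁻¹ = S.X 0 (-u) (-v) := by rw [map_inv, hx, S.X_inv0]
      exact hB1 _ _ ⟨_, _, hxi⟩ ⟨_, _, hδσ y u' v' hy⟩
    rw [hδ] at h1 ⊢
    simp only at h1 ⊢
    calc τ * (x * y) * τ⁻¹ * (x * y)⁻¹
        = τ * x * τ⁻¹ * ((τ * y * τ⁻¹ * y⁻¹) * x⁻¹) := by group
      _ = τ * x * τ⁻¹ * (x⁻¹ * (τ * y * τ⁻¹ * y⁻¹)) := by rw [h1]
      _ = τ * x * τ⁻¹ * x⁻¹ * (τ * y * τ⁻¹ * y⁻¹) := by group
  -- `δ` kills the kernel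
  have hδker : ∀ (x k : Γ), k ∈ S.σ.ker → δ (x * k) = δ x := by
    intro x k hk
    have e1 := S.ker_comm hk τ⁻¹
    rw [hδ]
    simp only
    calc τ * (x * k) * τ⁻¹ * (x * k)⁻¹ = τ * x * (k * τ⁻¹) * k⁻¹ * x⁻¹ := by group
      _ = τ * x * (τ⁻¹ * k) * k⁻¹ * x⁻¹ := by rw [e1]
      _ = τ * x * τ⁻¹ * x⁻¹ := by group
  -- `δ` depends only on the image
  have hδcongr : ∀ x y : Γ, S.σ x = S.σ y → δ x = δ y := by
    intro x y h
    obtain ⟨k, hk, rfl⟩ := S.exists_ker h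
    exact (hδker x k hk).symm
  refine ⟨fun u v => δ (s ((S.L μ * μ⁻¹ - 1)⁻¹ * u) ((μ - 1)⁻¹ * v)), ?_, ?_, ?_⟩
  · intro u v
    rw [hδσ _ _ _ (hs _ _)]
    congr 1
    · field_simp
    · field_simp
  · intro u v u' v'
    simp only
    rw [← hδmul _ _ _ _ _ _ (hs _ _) (hs _ _)]
    apply hδcongr
    rw [map_mul, hs, hs, hs, S.X_mul0]
    congr 1 <;> ring
  · intro z hz τ' hτ' u v
    simp only
    -- `τ' τ τ'⁻¹ = τ k`
    have hcomm : S.σ (τ' * τ * τ'⁻¹) = S.σ τ := by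
      rw [map_mul, map_mul, map_inv, hτ', hτ, S.hηc z μ hz hμ0, mul_inv_cancel_right]
    set x := s ((S.L μ * μ⁻¹ - 1)⁻¹ * u) ((μ - 1)⁻¹ * v) with hx
    have e1 : τ' * δ x * τ'⁻¹ =
        (τ' * τ * τ'⁻¹) * (τ' * x * τ'⁻¹) * (τ' * τ * τ'⁻¹)⁻¹ * (τ' * x * τ'⁻¹)⁻¹ := by
      rw [hδ]
      simp only
      group
    have e2 : (τ' * τ * τ'⁻¹) * (τ' * x * τ'⁻¹) * (τ' * τ * τ'⁻¹)⁻¹ =
        τ * (τ' * x * τ'⁻¹) * τ⁻¹ := S.conj_congr hcomm _
    rw [e1, e2]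
    change δ (τ' * x * τ'⁻¹) = _
    apply hδcongr
    rw [hconj z hz τ' hτ' x _ _ (hs _ _), hs]
    congr 1 <;> ring

end

end Cfsg.Agent.Helper65
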