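import Mathlib
import Cfsg.Agent.Helper65.R3Defs
import Cfsg.Agent.Helper65.R3A1
import Cfsg.Agent.Helper65.R3C1
import Cfsg.Agent.Helper80.R3A2
import Cfsg.Agent.Helper80.R3A3
import Cfsg.Agent.Helper37.R3C2
import Cfsg.Agent.Helper39.R3D1
import Cfsg.Agent.Helper39.R3D2

set_option autoImplicit false
set_option linter.unusedSectionVars false

/-!
# CALL S2113 (helper65): assembly of the abstract 3-part

In the setting `R3 K G Γ` (a central extension `σ` over the unipotent group of a Ree group, with the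
torus action), an element of the kernel of `σ` that is a product of commutators of lifts of `U` is
trivial. Pieces: A1, B1, C1 (helper65), A2, A3 (helper80), C2 (helper37), D1, D2 (helper39).
-/

namespace Cfsg.Agent.Helper65

open scoped commutatorElement

section
variable {K : Type*} [Field K] [Fintype K] [CharP K 3] {G : Type*} [Group G] {Γ : Type*} [Group Γ]

/-- An element of the kernel of `σ` that is a product of commutators of lifts of `U` is trivial. -/
theorem r3_main (S : R3 K G Γ) (hq : 9 < Fintype.card K) :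
    ∀ w ∈ Subgroup.closure {c : Γ | ∃ x y : Γ, (∃ t u v, S.σ x = S.X t u v) ∧
      (∃ t u v, S.σ y = S.X t u v) ∧ c = ⁅x, y⁆}, S.σ w = 1 → w = 1 := by
  classical
  have hA1 := r3_A1 S hq
  have hA2 := Cfsg.Agent.Helper80.r3_A2 S hq hA1
  have hA3 := Cfsg.Agent.Helper80.r3_A3 S hq hA2
  have hB1 := r3_B1 S hq hA2
  obtain ⟨Bc, hBσ, hBadd, hBeq⟩ := r3_C1 S hq hB1
  have hC2 := Cfsg.Agent.Helper37.r3_C2 S hq hA3 hB1 Bc hBσ hBadd hBeq
  choose a ha using fun t : K => S.hsec t 0 0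
  have hD1 := Cfsg.Agent.Helper39.r3_D1 S hq hB1 Bc hBσ hBadd hBeq hC2 a ha
  have hD2 := Cfsg.Agent.Helper39.r3_D2 S hB1 Bc hBσ hBadd hC2 a ha hD1
  have hB0 : Bc 0 0 = 1 := by
    have h := hBadd 0 0 0 0
    rw [add_zero] at h
    exact (mul_eq_left.mp h.symm)
  -- the range of `Bc` is a subgroup
  let R : Subgroup Γ :=
    { carrier := {g | ∃ u v, g = Bc u v}
      mul_mem' := by
        rintro _ _ ⟨u, v, rfl⟩ ⟨u', v', rfl⟩
        exact ⟨u + u', v + v', (hBadd u v u' v').symm⟩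
      one_mem' := ⟨0, 0, hB0.symm⟩
      inv_mem' := by
        rintro _ ⟨u, v, rfl⟩
        refine ⟨-u, -v, ?_⟩
        rw [inv_eq_iff_mul_eq_one, ← hBadd, add_neg_cancel, add_neg_cancel, hB0] }
  have hle : Subgroup.closure {c : Γ | ∃ x y : Γ, (∃ t u v, S.σ x = S.X t u v) ∧
      (∃ t u v, S.σ y = S.X t u v) ∧ c = ⁅x, y⁆} ≤ R := by
    rw [Subgroup.closure_le]
    rintro c ⟨x, y, hx, hy, rfl⟩
    obtain ⟨u, v, h⟩ := hD2 x y hx hy
    exact ⟨u, v, h⟩
  intro w hw hσw
  obtain ⟨u, v, rfl⟩ := hle hw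
  rw [hBσ, ← S.X_zero] at hσw
  obtain ⟨-, hu, hv⟩ := S.hinj _ _ _ _ _ _ hσw
  rw [hu, hv, hB0]

end

end Cfsg.Agent.Helper65
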