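import Mathlib
import Cfsg.Agent.Helper65.Hopf
import Cfsg.Agent.Helper65.Hopf2
import Cfsg.Agent.Helper65.Hopf3

/-!
Restriction (transfer) and corestriction between the Schur multiplier of a finite group and that
of a subgroup, via the Hopf formula: `exists_res_cor`.
-/

set_option autoImplicit false

namespace Cfsg.Agent.Helper65

open scoped commutatorElement

/-- Conjugation `x ↦ t⁻¹ x t` on a normal subgroup. -/
def conjNormal {F : Type*} [Group F] (R : Subgroup F) [hR : R.Normal] (t : F) : R →* R where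
  toFun x := ⟨t⁻¹ * x.1 * t, by
    have := hR.conj_mem x.1 x.2 t⁻¹
    rwa [inv_inv] at this⟩
  map_one' := by
    apply Subtype.ext
    simp
  map_mul' x y := by
    apply Subtype.ext
    simp [mul_assoc]

theorem conjNormal_coe {F : Type*} [Group F] (R : Subgroup F) [R.Normal] (t : F) (x : R) :
    (conjNormal R t x : F) = t⁻¹ * x.1 * t := rfl

theorem conjNormal_mul {F : Type*} [Group F] (R : Subgroup F) [R.Normal] (t u : F) (x : R) :
    conjNormal R (t * u) x = conjNormal R u (conjNormal R t x) := by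
  apply Subtype.ext
  simp only [conjNormal_coe, mul_inv_rev, mul_assoc]

/-- The norm (transfer) map: for `R ≤ H ≤ F` with `R` normal in `F` and `H` of finite index, and
a homomorphism `ν` from `R` to a commutative group which is invariant under conjugation by `H`,
the product of the conjugates of `ν` over `F ⧸ H` is invariant under conjugation by `F`. -/
theorem exists_norm_hom {F : Type*} [Group F] (H R : Subgroup F) [H.FiniteIndex] [R.Normal]
    {Z : Type*} [CommGroup Z] (ν : R →* Z)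
    (hν : ∀ u ∈ H, ∀ x : R, ν (conjNormal R u x) = ν x) :
    ∃ N : R →* Z, (∀ (f : F) (x : R), N (conjNormal R f x) = N x) ∧
      (∀ {Z' : Type*} [Monoid Z'] (γ : Z →* Z'),
        (∀ (t : F) (x : R), γ (ν (conjNormal R t x)) = γ (ν x)) →
        ∀ x, γ (N x) = γ (ν x) ^ H.index) := by
  classical
  have : Fintype (F ⧸ H) := Fintype.ofFinite _
  have key : ∀ (t t' : F) (x : R), t⁻¹ * t' ∈ H → ν (conjNormal R t' x) = ν (conjNormal R t x) := by
    intro t t' x h
    have e : t' = t * (t⁻¹ * t') := by group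
    rw [e, conjNormal_mul, hν _ h]
  let w : F ⧸ H → (R →* Z) := fun q => ν.comp (conjNormal R q.out)
  have hN : ∀ x : R, (∏ q : F ⧸ H, w q) x = ∏ q : F ⧸ H, ν (conjNormal R q.out x) := by
    intro x
    rw [MonoidHom.finsetProd_apply]
    rfl
  refine ⟨∏ q : F ⧸ H, w q, ?_, ?_⟩
  · intro f x
    rw [hN, hN]
    have h1 : ∀ q : F ⧸ H, ν (conjNormal R q.out (conjNormal R f x)) =
        ν (conjNormal R (f • q).out x) := by
      intro q
      rw [← conjNormal_mul]
      apply key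
      apply QuotientGroup.eq.mp
      rw [QuotientGroup.out_eq']
      conv_lhs => rw [← QuotientGroup.out_eq' q]
      rfl
    rw [Finset.prod_congr rfl (fun q _ => h1 q)]
    exact Equiv.prod_comp (MulAction.toPerm f) (fun q : F ⧸ H => ν (conjNormal R q.out x))
  · intro Z' _ γ hγ x
    have h2 : ∀ s : Finset (F ⧸ H), γ (∏ q ∈ s, ν (conjNormal R q.out x)) = γ (ν x) ^ s.card := by
      intro s
      induction s using Finset.induction_on with
      | empty => simp
      | insert a s ha ih =>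
        rw [Finset.prod_insert ha, map_mul, ih, hγ, Finset.card_insert_of_notMem ha, pow_succ']
    rw [hN, h2, Finset.card_univ, Subgroup.index_eq_card, Nat.card_eq_fintype_card]

/-- The abelianization of a free group is torsion free. -/
theorem abelianization_freeGroup_torsion_free {α : Type*} (y : Abelianization (FreeGroup α))
    (n : ℕ) (hn : 0 < n) (h : y ^ n = 1) : y = 1 := by
  let e := FreeAbelianGroup.equivFinsupp α
  have key : ∀ z : FreeAbelianGroup α, n • z = 0 → z = 0 := by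
    intro z hz
    have h2 : n • e z = 0 := by rw [← map_nsmul, hz, map_zero]
    rcases smul_eq_zero.mp h2 with h | h
    · omega
    · exact e.injective (h.trans (map_zero e).symm)
  exact key (Additive.ofMul y) (congrArg Additive.ofMul h)

universe u

/-- Restriction and corestriction: for a subgroup `U` of a finite group `G` with multipliers `B`
and `A`, there are homomorphisms `r : A →* B` and `c : B →* A` with `c (r a) = a ^ U.index`. -/
theorem exists_res_cor {G : Type u} [Group G] [Finite G] (U : Subgroup G)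
    {A : Type*} {B : Type*} [CommGroup A] [CommGroup B] (hA : Cfsg.HasSchurMultiplier G A)
    (hB : Cfsg.HasSchurMultiplier U B) :
    ∃ (r : A →* B) (c : B →* A), ∀ a, c (r a) = a ^ U.index := by
  classical
  let φ : FreeGroup G →* G := FreeGroup.lift id
  have hφ : Function.Surjective φ := fun q => ⟨FreeGroup.of q, by simp [φ]⟩
  let H : Subgroup (FreeGroup G) := U.comap φ
  have hindex : H.index = U.index := Subgroup.index_comap_of_surjective U hφ
  have hfi : H.FiniteIndex := ⟨by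
    rw [hindex]
    exact Subgroup.index_ne_zero_of_finite⟩
  obtain ⟨α', ⟨bas⟩⟩ := IsFreeGroup.nonempty_basis (G := H)
  let ι : FreeGroup α' ≃* H := bas.repr.symm
  let φ' : FreeGroup α' →* U := (φ.subgroupComap U).comp ι.toMonoidHom
  have hφ' : Function.Surjective φ' :=
    (φ.subgroupComap_surjective_of_surjective U hφ).comp ι.surjective
  have hφ'val : ∀ w, ((φ' w : U) : G) = φ (ι w : FreeGroup G) := fun w => rfl
  let R : Subgroup (FreeGroup G) := φ.ker
  have hRn : R.Normal := MonoidHom.normal_ker φ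
  have hRH : R ≤ H := fun x hx => by
    show φ x ∈ U
    rw [MonoidHom.mem_ker.mp hx]
    exact U.one_mem
  -- the map `H → F_U / [F_U, R]`
  let ν₀ : H →* HopfE φ' := (hopfMk φ').comp ι.symm.toMonoidHom
  have hν₀ker : ∀ x : R, ν₀ ⟨x.1, hRH x.2⟩ ∈ (hopfBar φ').ker := by
    intro x
    rw [MonoidHom.mem_ker]
    show hopfBar φ' (hopfMk φ' (ι.symm ⟨x.1, hRH x.2⟩)) = 1
    rw [hopfBar_mk]
    apply Subtype.ext
    rw [hφ'val, MulEquiv.apply_symm_apply]
    exact MonoidHom.mem_ker.mp x.2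
  let cg' : CommGroup (hopfBar φ').ker :=
    { (inferInstance : Group (hopfBar φ').ker) with
      mul_comm := fun a b => Subtype.ext
        (Subgroup.mem_center_iff.mp (hopfBar_ker_le_center φ' b.2) a.1) }
  let ν : R →* (hopfBar φ').ker :=
    MonoidHom.mk' (fun x => ⟨ν₀ ⟨x.1, hRH x.2⟩, hν₀ker x⟩)
      (fun x y => Subtype.ext (map_mul ν₀ ⟨x.1, hRH x.2⟩ ⟨y.1, hRH y.2⟩))
  have hνval : ∀ x : R, ((ν x : (hopfBar φ').ker) : HopfE φ') = ν₀ ⟨x.1, hRH x.2⟩ := fun x => rfl
  have hν : ∀ u ∈ H, ∀ x : R, ν (conjNormal R u x) = ν x := by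
    intro u hu x
    apply Subtype.ext
    rw [hνval, hνval]
    have e1 : (⟨(conjNormal R u x : FreeGroup G), hRH (conjNormal R u x).2⟩ : H) =
        (⟨u, hu⟩ : H)⁻¹ * ⟨x.1, hRH x.2⟩ * ⟨u, hu⟩ := rfl
    rw [e1, map_mul, map_mul, map_inv]
    have hz := Subgroup.mem_center_iff.mp (hopfBar_ker_le_center φ' (hν₀ker x)) (ν₀ ⟨u, hu⟩)
    rw [mul_assoc, ← hz, inv_mul_cancel_left]
  obtain ⟨N, hNinv, hNpow⟩ := @exists_norm_hom _ _ H R hfi hRn _ cg' ν hν
  -- descent to `R / [F, R]`
  have hρmem : ∀ x : R, hopfMk φ x.1 ∈ (hopfBar φ).ker := by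
    intro x
    rw [MonoidHom.mem_ker, hopfBar_mk]
    exact MonoidHom.mem_ker.mp x.2
  let ρ : R →* (hopfBar φ).ker :=
    MonoidHom.mk' (fun x => ⟨hopfMk φ x.1, hρmem x⟩)
      (fun x y => Subtype.ext (map_mul (hopfMk φ) x.1 y.1))
  have hρ : Function.Surjective ρ := by
    rintro ⟨z, hz⟩
    obtain ⟨f, rfl⟩ := hopfMk_surjective φ z
    rw [MonoidHom.mem_ker, hopfBar_mk] at hz
    exact ⟨⟨f, hz⟩, rfl⟩
  have hNC : ∀ x : R, x.1 ∈ hopfC φ → N x = 1 := by
    have hle : hopfC φ ≤ N.ker.map R.subtype := by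
      show ⁅(⊤ : Subgroup (FreeGroup G)), φ.ker⁆ ≤ N.ker.map R.subtype
      rw [Subgroup.commutator_le]
      intro f _ x hx
      refine ⟨conjNormal R f⁻¹ ⟨x, hx⟩ * (⟨x, hx⟩ : R)⁻¹, ?_, ?_⟩
      · show N (conjNormal R f⁻¹ ⟨x, hx⟩ * (⟨x, hx⟩ : R)⁻¹) = 1
        rw [map_mul, hNinv, map_inv, mul_inv_cancel]
      · show (conjNormal R f⁻¹ ⟨x, hx⟩ : FreeGroup G) * x⁻¹ = ⁅f, x⁆
        rw [conjNormal_coe, commutatorElement_def, inv_inv]
    intro x hx
    obtain ⟨y, hy, hyx⟩ := hle hx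
    have : y = x := Subtype.ext hyx
    rw [← this]
    exact hy
  have hρker : ρ.ker ≤ N.ker := by
    intro x hx
    rw [MonoidHom.mem_ker] at hx ⊢
    apply hNC
    have h1 : hopfMk φ x.1 = 1 := congrArg Subtype.val hx
    exact (QuotientGroup.eq_one_iff _).mp h1
  let Nbar : (hopfBar φ).ker →* (hopfBar φ').ker := ρ.liftOfSurjective hρ ⟨N, hρker⟩
  have hNbar : ∀ x : R, Nbar (ρ x) = N x := fun x =>
    MonoidHom.liftOfRightInverse_comp_apply _ _ _ ⟨N, hρker⟩ x
  -- the map back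
  let ψ₀ : FreeGroup α' →* HopfE φ := (hopfMk φ).comp (H.subtype.comp ι.toMonoidHom)
  have hψ₀ : ∀ w, hopfBar φ (ψ₀ w) = ((φ' w : U) : G) := fun w => rfl
  have hψ₀ker : hopfC φ' ≤ ψ₀.ker := by
    show ⁅(⊤ : Subgroup (FreeGroup α')), φ'.ker⁆ ≤ ψ₀.ker
    rw [Subgroup.commutator_le]
    intro f _ x hx
    rw [MonoidHom.mem_ker, map_commutatorElement]
    have hz : ψ₀ x ∈ Subgroup.center (HopfE φ) := by
      apply hopfBar_ker_le_center φ
      rw [MonoidHom.mem_ker, hψ₀, MonoidHom.mem_ker.mp hx]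
      rfl
    rw [commutatorElement_def, Subgroup.mem_center_iff.mp hz (ψ₀ f)]
    group
  let γ : HopfE φ' →* HopfE φ := QuotientGroup.lift (hopfC φ') ψ₀ hψ₀ker
  have hγmk : ∀ w, γ (hopfMk φ' w) = ψ₀ w := fun w => rfl
  have hγν₀ : ∀ h : H, γ (ν₀ h) = hopfMk φ h.1 := by
    intro h
    show γ (hopfMk φ' (ι.symm h)) = hopfMk φ h.1
    rw [hγmk]
    show hopfMk φ ((ι (ι.symm h) : H) : FreeGroup G) = hopfMk φ h.1
    rw [MulEquiv.apply_symm_apply]
  have hγbar : ∀ y, hopfBar φ (γ y) = ((hopfBar φ' y : U) : G) := by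
    intro y
    obtain ⟨w, rfl⟩ := hopfMk_surjective φ' y
    rw [hγmk, hψ₀, hopfBar_mk]
  have hγker : ∀ y, y ∈ (hopfBar φ').ker → γ y ∈ (hopfBar φ).ker := by
    intro y hy
    rw [MonoidHom.mem_ker, hγbar, MonoidHom.mem_ker.mp hy]
    rfl
  -- composition is the power map
  have hcomp : ∀ x : R, γ ((N x : (hopfBar φ').ker) : HopfE φ') = hopfMk φ x.1 ^ U.index := by
    intro x
    have h1 := hNpow (γ.comp (hopfBar φ').ker.subtype) (by
      intro t x
      show γ (ν (conjNormal R t x) : HopfE φ') = γ (ν x : HopfE φ')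
      rw [hνval, hνval, hγν₀, hγν₀]
      show hopfMk φ (conjNormal R t x : FreeGroup G) = hopfMk φ x.1
      rw [conjNormal_coe, map_mul, map_mul, map_inv]
      have hz := Subgroup.mem_center_iff.mp (hopfBar_ker_le_center φ (hρmem x)) (hopfMk φ t)
      rw [mul_assoc, ← hz, inv_mul_cancel_left]) x
    rw [hindex] at h1
    have h2 : (γ.comp (hopfBar φ').ker.subtype) (ν x) = hopfMk φ x.1 := by
      show γ (ν x : HopfE φ') = hopfMk φ x.1
      rw [hνval, hγν₀]
    rw [h2] at h1
    exact h1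
  -- the Hopf multipliers
  have hfinM : Finite (hopfM φ) := finite_hopfM φ
  have hfinM' : Finite (hopfM φ') := finite_hopfM φ'
  have hres_mem : ∀ z : hopfM φ, ((Nbar ⟨z.1, z.2.1⟩ : (hopfBar φ').ker) : HopfE φ') ∈ hopfM φ' := by
    intro z
    refine ⟨(Nbar ⟨z.1, z.2.1⟩).2, ?_⟩
    have hn : 0 < Nat.card (hopfM φ) := Nat.card_pos
    have h1 : z ^ Nat.card (hopfM φ) = 1 := pow_card_eq_one'
    have h2 : (⟨z.1, z.2.1⟩ : (hopfBar φ).ker) ^ Nat.card (hopfM φ) = 1 := by
      apply Subtype.ext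
      have := congrArg Subtype.val h1
      exact this
    have h3 : Nbar ⟨z.1, z.2.1⟩ ^ Nat.card (hopfM φ) = 1 := by
      rw [← map_pow, h2, map_one]
    have h4 : ((Nbar ⟨z.1, z.2.1⟩ : (hopfBar φ').ker) : HopfE φ') ^ Nat.card (hopfM φ) = 1 := by
      have := congrArg Subtype.val h3
      exact this
    have h5 : hopfAb φ' ((Nbar ⟨z.1, z.2.1⟩ : (hopfBar φ').ker) : HopfE φ') = 1 := by
      apply abelianization_freeGroup_torsion_free _ _ hn
      rw [← map_pow, h4, map_one]
    have h6 : ((Nbar ⟨z.1, z.2.1⟩ : (hopfBar φ').ker) : HopfE φ') ∈ (hopfAb φ').ker := h5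
    rw [hopfAb_ker] at h6
    exact h6
  let res : hopfM φ →* hopfM φ' :=
    MonoidHom.mk' (fun z => ⟨((Nbar ⟨z.1, z.2.1⟩ : (hopfBar φ').ker) : HopfE φ'), hres_mem z⟩)
      (fun z w => Subtype.ext (by
        have h := congrArg Subtype.val (map_mul Nbar ⟨z.1, z.2.1⟩ ⟨w.1, w.2.1⟩)
        exact h))
  have hcor_mem : ∀ y : hopfM φ', γ y.1 ∈ hopfM φ := by
    intro y
    refine ⟨hγker _ y.2.1, ?_⟩
    have h1 : γ y.1 ∈ (commutator (HopfE φ')).map γ := Subgroup.mem_map_of_mem γ y.2.2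
    rw [commutator_def, Subgroup.map_commutator] at h1
    rw [commutator_def]
    exact Subgroup.commutator_mono le_top le_top h1
  let cor : hopfM φ' →* hopfM φ :=
    MonoidHom.mk' (fun y => ⟨γ y.1, hcor_mem y⟩) (fun y w => Subtype.ext (map_mul γ y.1 w.1))
  have hcorres : ∀ z : hopfM φ, cor (res z) = z ^ U.index := by
    intro z
    obtain ⟨x, hx⟩ := hρ ⟨z.1, z.2.1⟩
    apply Subtype.ext
    show γ ((Nbar ⟨z.1, z.2.1⟩ : (hopfBar φ').ker) : HopfE φ') = ((z ^ U.index : hopfM φ) : HopfE φ)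
    rw [← hx, hNbar, hcomp]
    have h1 : hopfMk φ x.1 = z.1 := congrArg Subtype.val hx
    rw [h1]
    rfl
  -- identification with `A` and `B`
  obtain ⟨hfinA, hcardA⟩ := card_le_card_hopfM_of_hasSchurMultiplier φ hφ hA
  obtain ⟨hfinB, hcardB⟩ := card_le_card_hopfM_of_hasSchurMultiplier φ' hφ' hB
  obtain ⟨πA, hπA⟩ := exists_surjective_of_central_ext hA (hopfBar φ)
    (hopfBar_surjective φ hφ) (hopfBar_ker_le_center φ)
  obtain ⟨πB, hπB⟩ := exists_surjective_of_central_ext hB (hopfBar φ')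
    (hopfBar_surjective φ' hφ') (hopfBar_ker_le_center φ')
  have hbijA : Function.Bijective πA :=
    (Nat.bijective_iff_surjective_and_card πA).mpr
      ⟨hπA, le_antisymm hcardA (Nat.card_le_card_of_surjective πA hπA)⟩
  have hbijB : Function.Bijective πB :=
    (Nat.bijective_iff_surjective_and_card πB).mpr
      ⟨hπB, le_antisymm hcardB (Nat.card_le_card_of_surjective πB hπB)⟩
  let eA : A ≃* hopfM φ := MulEquiv.ofBijective πA hbijA
  let eB : B ≃* hopfM φ' := MulEquiv.ofBijective πB hbijB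
  refine ⟨eB.symm.toMonoidHom.comp (res.comp eA.toMonoidHom),
    eA.symm.toMonoidHom.comp (cor.comp eB.toMonoidHom), ?_⟩
  intro a
  show eA.symm (cor (eB (eB.symm (res (eA a))))) = a ^ U.index
  rw [MulEquiv.apply_symm_apply, hcorres, map_pow, MulEquiv.symm_apply_apply]

end Cfsg.Agent.Helper65
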