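import Mathlib

set_option autoImplicit false

/-!
# Sub-CALL S74T2 (helper65), piece ARITH: choice of blocks.
-/

namespace Cfsg.Agent.Helper65.S74T2

/-- ARITH: choice of blocks. -/
theorem t2_arith (d m A h e : ℕ) (hsum : 2 * A + h + e = d) (he : Even e) (hme : Even m)
    (hmd : m < d) (hcond : (2 * d) % 4 = 2 ∨ m % 4 = 0) :
    ∃ a' h' e' : ℕ, a' ≤ A ∧ h' ≤ h ∧ e' ≤ e ∧ Even e' ∧ 4 * a' + 2 * h' + 2 * e' = m := by
  obtain ⟨μ, rfl⟩ := hme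
  obtain ⟨ε, rfl⟩ := he
  by_cases hμ : μ % 2 = 0
  · obtain ⟨ν, rfl⟩ : ∃ ν, μ = 2 * ν := ⟨μ / 2, by omega⟩
    rcases le_or_gt ν ε with h1 | h1
    · exact ⟨0, 0, 2 * ν, by omega, by omega, by omega, ⟨ν, by ring⟩, by omega⟩
    · rcases le_or_gt (ν - ε) A with h3 | h3
      · exact ⟨ν - ε, 0, 2 * ε, by omega, by omega, by omega, ⟨ε, by ring⟩, by omega⟩
      · exact ⟨A, 2 * (ν - ε - A), 2 * ε, le_rfl, by omega, by omega, ⟨ε, by ring⟩, by omega⟩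
  · obtain ⟨ν, rfl⟩ : ∃ ν, μ = 2 * ν + 1 := ⟨μ / 2, by omega⟩
    have hd2 : (2 * d) % 4 = 2 := by omega
    rcases le_or_gt ν ε with h1 | h1
    · exact ⟨0, 1, 2 * ν, by omega, by omega, by omega, ⟨ν, by ring⟩, by omega⟩
    · rcases le_or_gt (ν - ε) A with h3 | h3
      · exact ⟨ν - ε, 1, 2 * ε, by omega, by omega, by omega, ⟨ε, by ring⟩, by omega⟩
      · exact ⟨A, 1 + 2 * (ν - ε - A), 2 * ε, le_rfl, by omega, by omega, ⟨ε, by ring⟩,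
          by omega⟩

end Cfsg.Agent.Helper65.S74T2
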