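import Mathlib
import Cfsg.Prelude.Def_GeometricClasses
import Cfsg.Prelude.Def_Classical
import Cfsg.Agent.Helper96.OHDefs
import Cfsg.Agent.Helper65.OSubAll

set_option autoImplicit false
set_option linter.unusedSectionVars false
set_option linter.unusedVariables false

/-!
# Sub-CALL S74T2 (helper65), pieces GDUAL, BLK2, BLK4 and the combination BLK: invariant
nondegenerate blocks of an involution of `O(Q)` in characteristic `2`.
-/

namespace Cfsg.Agent.Helper65.S74T2

open Module Cfsg Cfsg.Geo Cfsg.Agent.Helper96.OH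

variable {ι : Type} [Fintype ι] [DecidableEq ι] {F : Type*} [Field F] (Q : (ι → F) → F)

/-- GDUAL: a family with a dual family inside its span spans a nondegenerate subspace. -/
theorem t2_gdual (hQ : IsNondegenerateQuadraticForm Q) {n : ℕ} (b b' : Fin n → (ι → F))
    (hb' : ∀ j, b' j ∈ Submodule.span F (Set.range b))
    (hdual : ∀ i j, QuadraticMap.polar Q (b i) (b' j) = if i = j then 1 else 0) :
    ONd Q (Submodule.span F (Set.range b)) ∧ finrank F ↥(Submodule.span F (Set.range b)) = n := by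
  classical
  have hpair : ∀ (c : Fin n → F) (j : Fin n),
      QuadraticMap.polar Q (∑ i, c i • b i) (b' j) = c j := by
    intro c j
    rw [← pB_apply Q hQ, map_sum, LinearMap.sum_apply]
    simp only [map_smul, LinearMap.smul_apply, pB_apply, hdual, smul_eq_mul, mul_ite, mul_one,
      mul_zero]
    simp
  have hli : LinearIndependent F b := by
    rw [Fintype.linearIndependent_iff]
    intro c hc j
    have h1 := hpair c j
    rw [hc] at h1
    rw [← h1, ← pB_apply Q hQ, map_zero, LinearMap.zero_apply]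
  refine ⟨?_, ?_⟩
  · intro u hu hu0
    obtain ⟨c, rfl⟩ := (Submodule.mem_span_range_iff_exists_fun F).mp hu
    have hex : ∃ j, c j ≠ 0 := by
      by_contra hcon
      push Not at hcon
      apply hu0
      simp [hcon]
    obtain ⟨j, hj⟩ := hex
    have h1 : QuadraticMap.polar Q (∑ i, c i • b i) (b' j) ≠ 0 := by
      rw [hpair]; exact hj
    exact ⟨⟨b' j, hb' j, by rwa [QuadraticMap.polar_comm]⟩, ⟨b' j, hb' j, h1⟩⟩
  · rw [finrank_span_eq_card hli, Fintype.card_fin]

/-- BLK2: the invariant nondegenerate plane `span {v, T v}`. -/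
theorem t2_blk2 (hQ : IsNondegenerateQuadraticForm Q) (h2 : (2 : F) = 0)
    (T : Module.End F (ι → F)) (hT : OPres Q T) (hTT : T ^ 2 = 1)
    (K : Submodule F (ι → F)) (hKT : K.map T ≤ K) (v : ι → F) (hv : v ∈ K)
    (hne : QuadraticMap.polar Q v (T v) ≠ 0) :
    ∃ P : Submodule F (ι → F), P ≤ K ∧ P.map T ≤ P ∧ ONd Q P ∧ finrank F ↥P = 2 := by
  classical
  have hTTv : ∀ u, T (T u) = u := fun u => by
    have h := congrArg (fun f : Module.End F (ι → F) => f u) hTT
    simpa [pow_two] using h
  have hself : ∀ u, QuadraticMap.polar Q u u = 0 := fun u => by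
    rw [← pB_apply Q hQ, pB_self, h2, zero_mul]
  have hsr : ∀ (a : F) (x y : ι → F),
      QuadraticMap.polar Q x (a • y) = a * QuadraticMap.polar Q x y := by
    intro a x y
    rw [← pB_apply Q hQ, map_smul, smul_eq_mul, pB_apply]
  have hTvK : T v ∈ K := hKT ⟨v, hv, rfl⟩
  have hbmem : ∀ i, (![v, T v] : Fin 2 → (ι → F)) i ∈
      Submodule.span F (Set.range (![v, T v] : Fin 2 → (ι → F))) :=
    fun i => Submodule.subset_span ⟨i, rfl⟩
  have hb' : ∀ j, (![(QuadraticMap.polar Q v (T v))⁻¹ • T v,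
      (QuadraticMap.polar Q v (T v))⁻¹ • v] : Fin 2 → (ι → F)) j ∈
      Submodule.span F (Set.range (![v, T v] : Fin 2 → (ι → F))) := by
    intro j
    fin_cases j
    · exact Submodule.smul_mem _ _ (hbmem 1)
    · exact Submodule.smul_mem _ _ (hbmem 0)
  have hdual : ∀ i j, QuadraticMap.polar Q ((![v, T v] : Fin 2 → (ι → F)) i)
      ((![(QuadraticMap.polar Q v (T v))⁻¹ • T v,
        (QuadraticMap.polar Q v (T v))⁻¹ • v] : Fin 2 → (ι → F)) j) = if i = j then 1 else 0 := by
    intro i j
    fin_cases i <;> fin_cases j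
    · show QuadraticMap.polar Q v ((QuadraticMap.polar Q v (T v))⁻¹ • T v) = 1
      rw [hsr]; exact inv_mul_cancel₀ hne
    · show QuadraticMap.polar Q v ((QuadraticMap.polar Q v (T v))⁻¹ • v) = 0
      rw [hsr, hself, mul_zero]
    · show QuadraticMap.polar Q (T v) ((QuadraticMap.polar Q v (T v))⁻¹ • T v) = 0
      rw [hsr, hself, mul_zero]
    · show QuadraticMap.polar Q (T v) ((QuadraticMap.polar Q v (T v))⁻¹ • v) = 1
      rw [hsr, QuadraticMap.polar_comm Q (T v) v]; exact inv_mul_cancel₀ hne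
  obtain ⟨hnd, hdim⟩ := t2_gdual Q hQ _ _ hb' hdual
  refine ⟨Submodule.span F (Set.range (![v, T v] : Fin 2 → (ι → F))), ?_, ?_, hnd, hdim⟩
  · rw [Submodule.span_le]
    rintro _ ⟨i, rfl⟩
    fin_cases i
    · exact hv
    · exact hTvK
  · rw [Submodule.map_span, Submodule.span_le]
    rintro _ ⟨_, ⟨i, rfl⟩, rfl⟩
    fin_cases i
    · exact hbmem 1
    · show T (T v) ∈ _
      rw [hTTv]; exact hbmem 0

/-- BLK4: the invariant nondegenerate plus-type 4-space `span {v, N v, w, N w}`. -/
theorem t2_blk4 (hQ : IsNondegenerateQuadraticForm Q) (h2 : (2 : F) = 0)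
    (T : Module.End F (ι → F)) (hT : OPres Q T) (hTT : T ^ 2 = 1)
    (K : Submodule F (ι → F)) (hKT : K.map T ≤ K) (hK : ONd Q K)
    (halt : ∀ u ∈ K, QuadraticMap.polar Q u (T u) = 0) (v : ι → F) (hv : v ∈ K)
    (hne : T v ≠ v) :
    ∃ P : Submodule F (ι → F), P ≤ K ∧ P.map T ≤ P ∧ ONd Q P ∧ finrank F ↥P = 4 ∧ OPl Q P := by
  classical
  have hTTv : ∀ u, T (T u) = u := fun u => by
    have h := congrArg (fun f : Module.End F (ι → F) => f u) hTT
    simpa [pow_two] using h
  have hself : ∀ u, pB Q hQ u u = 0 := fun u => by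
    rw [pB_self, h2, zero_mul]
  have hsym : ∀ x y, pB Q hQ x y = pB Q hQ y x := pB_comm Q hQ
  have hpres : ∀ x y, pB Q hQ (T x) (T y) = pB Q hQ x y := upres_of Q hQ T hT
  have hadj : ∀ x y, pB Q hQ (T x) y = pB Q hQ x (T y) := fun x y => by
    have h := hpres x (T y)
    rw [hTTv] at h
    exact h
  have htt : ∀ a : F, a + a = 0 := fun a => by rw [← two_mul, h2, zero_mul]
  have hvv : ∀ u : ι → F, u + u = 0 := fun u => by
    rw [← two_smul F u, h2, zero_smul]
  have hNv0 : T v + v ≠ 0 := by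
    intro h0
    apply hne
    have h1 : T v = T v + (v + v) := by rw [hvv, add_zero]
    rw [h1, ← add_assoc, h0, zero_add]
  have hTvK : T v ∈ K := hKT ⟨v, hv, rfl⟩
  have hNvK : T v + v ∈ K := K.add_mem hTvK hv
  obtain ⟨-, w0, hw0K, hw0⟩ := hK (T v + v) hNvK hNv0
  have hw0' : pB Q hQ (T v + v) w0 ≠ 0 := hw0
  obtain ⟨w, hwK, hw1⟩ : ∃ w ∈ K, pB Q hQ (T v + v) w = 1 :=
    ⟨(pB Q hQ (T v + v) w0)⁻¹ • w0, K.smul_mem _ hw0K, by
      rw [map_smul, smul_eq_mul]; exact inv_mul_cancel₀ hw0'⟩
  have hTwK : T w ∈ K := hKT ⟨w, hwK, rfl⟩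
  have hNwK : T w + w ∈ K := K.add_mem hTwK hwK
  -- the Gram table of `v, N v, w, N w`
  have av : pB Q hQ v (T v) = 0 := halt v hv
  have aw : pB Q hQ w (T w) = 0 := halt w hwK
  have g12 : pB Q hQ v (T v + v) = 0 := by rw [map_add, av, hself, add_zero]
  have g21 : pB Q hQ (T v + v) v = 0 := by rw [hsym, g12]
  have g34 : pB Q hQ w (T w + w) = 0 := by rw [map_add, aw, hself, add_zero]
  have g43 : pB Q hQ (T w + w) w = 0 := by rw [hsym, g34]
  have g23 : pB Q hQ (T v + v) w = 1 := hw1
  have g32 : pB Q hQ w (T v + v) = 1 := by rw [hsym, g23]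
  have g14 : pB Q hQ v (T w + w) = 1 := by
    rw [map_add, ← hadj, ← hw1, map_add, LinearMap.add_apply]
  have g41 : pB Q hQ (T w + w) v = 1 := by rw [hsym, g14]
  have g24 : pB Q hQ (T v + v) (T w + w) = 0 := by
    rw [map_add, map_add, LinearMap.add_apply, LinearMap.add_apply, hpres, hadj v w]
    linear_combination htt (pB Q hQ v w) + htt (pB Q hQ v (T w))
  have g42 : pB Q hQ (T w + w) (T v + v) = 0 := by rw [hsym, g24]
  have g13 : pB Q hQ w v = pB Q hQ v w := hsym w v
  -- the span
  have hbmem : ∀ i, (![v, T v + v, w, T w + w] : Fin 4 → (ι → F)) i ∈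
      Submodule.span F (Set.range (![v, T v + v, w, T w + w] : Fin 4 → (ι → F))) :=
    fun i => Submodule.subset_span ⟨i, rfl⟩
  have hb' : ∀ j, (![T w + w, w + pB Q hQ v w • (T w + w), T v + v,
      v + pB Q hQ v w • (T v + v)] : Fin 4 → (ι → F)) j ∈
      Submodule.span F (Set.range (![v, T v + v, w, T w + w] : Fin 4 → (ι → F))) := by
    intro j
    fin_cases j
    · exact hbmem 3
    · exact Submodule.add_mem _ (hbmem 2) (Submodule.smul_mem _ _ (hbmem 3))
    · exact hbmem 1
    · exact Submodule.add_mem _ (hbmem 0) (Submodule.smul_mem _ _ (hbmem 1))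
  have hdual : ∀ i j, QuadraticMap.polar Q ((![v, T v + v, w, T w + w] : Fin 4 → (ι → F)) i)
      ((![T w + w, w + pB Q hQ v w • (T w + w), T v + v,
        v + pB Q hQ v w • (T v + v)] : Fin 4 → (ι → F)) j) = if i = j then 1 else 0 := by
    intro i j
    fin_cases i <;> fin_cases j
    · show pB Q hQ v (T w + w) = 1
      exact g14
    · show pB Q hQ v (w + pB Q hQ v w • (T w + w)) = 0
      rw [map_add, map_smul, g14, smul_eq_mul, mul_one]; exact htt _
    · show pB Q hQ v (T v + v) = 0
      exact g12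
    · show pB Q hQ v (v + pB Q hQ v w • (T v + v)) = 0
      rw [map_add, map_smul, g12, hself, smul_zero, add_zero]
    · show pB Q hQ (T v + v) (T w + w) = 0
      exact g24
    · show pB Q hQ (T v + v) (w + pB Q hQ v w • (T w + w)) = 1
      rw [map_add, map_smul, g24, g23, smul_zero, add_zero]
    · show pB Q hQ (T v + v) (T v + v) = 0
      exact hself _
    · show pB Q hQ (T v + v) (v + pB Q hQ v w • (T v + v)) = 0
      rw [map_add, map_smul, g21, hself, smul_zero, add_zero]
    · show pB Q hQ w (T w + w) = 0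
      exact g34
    · show pB Q hQ w (w + pB Q hQ v w • (T w + w)) = 0
      rw [map_add, map_smul, g34, hself, smul_zero, add_zero]
    · show pB Q hQ w (T v + v) = 1
      exact g32
    · show pB Q hQ w (v + pB Q hQ v w • (T v + v)) = 0
      rw [map_add, map_smul, g32, g13, smul_eq_mul, mul_one]; exact htt _
    · show pB Q hQ (T w + w) (T w + w) = 0
      exact hself _
    · show pB Q hQ (T w + w) (w + pB Q hQ v w • (T w + w)) = 0
      rw [map_add, map_smul, g43, hself, smul_zero, add_zero]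
    · show pB Q hQ (T w + w) (T v + v) = 0
      exact g42
    · show pB Q hQ (T w + w) (v + pB Q hQ v w • (T v + v)) = 1
      rw [map_add, map_smul, g41, g42, smul_zero, add_zero]
  obtain ⟨hnd, hdim⟩ := t2_gdual Q hQ _ _ hb' hdual
  have hTN : ∀ u, T (T u + u) = T u + u := fun u => by
    rw [map_add, hTTv, add_comm]
  have hTu : ∀ u, T u = (T u + u) + u := fun u => by
    rw [add_assoc, hvv, add_zero]
  refine ⟨Submodule.span F (Set.range (![v, T v + v, w, T w + w] : Fin 4 → (ι → F))), ?_, ?_, hnd,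
    hdim, ?_⟩
  · rw [Submodule.span_le]
    rintro _ ⟨i, rfl⟩
    fin_cases i
    · exact hv
    · exact hNvK
    · exact hwK
    · exact hNwK
  · rw [Submodule.map_span, Submodule.span_le]
    rintro _ ⟨_, ⟨i, rfl⟩, rfl⟩
    fin_cases i
    · show T v ∈ _
      have h := Submodule.add_mem _ (hbmem 1) (hbmem 0)
      have e : (![v, T v + v, w, T w + w] : Fin 4 → (ι → F)) 1 +
          (![v, T v + v, w, T w + w] : Fin 4 → (ι → F)) 0 = T v := (hTu v).symm
      rw [e] at h
      exact h
    · show T (T v + v) ∈ _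
      rw [hTN]; exact hbmem 1
    · show T w ∈ _
      have h := Submodule.add_mem _ (hbmem 3) (hbmem 2)
      have e : (![v, T v + v, w, T w + w] : Fin 4 → (ι → F)) 3 +
          (![v, T v + v, w, T w + w] : Fin 4 → (ι → F)) 2 = T w := (hTu w).symm
      rw [e] at h
      exact h
    · show T (T w + w) ∈ _
      rw [hTN]; exact hbmem 3
  · -- plus type: `span {N v, N w}` is totally singular of dimension `2`
    have hQN : ∀ u ∈ K, Q (T u + u) = 0 := by
      intro u hu
      rw [q_add Q, hT u, ← pB_apply Q hQ, hsym,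
        show pB Q hQ u (T u) = 0 from halt u hu, add_zero]
      exact htt _
    have hsr : ∀ (a : F) (x y : ι → F), pB Q hQ x (a • y) = a * pB Q hQ x y := by
      intro a x y
      rw [map_smul, smul_eq_mul]
    refine ⟨Submodule.span F {T v + v, T w + w}, ?_, ?_, ?_⟩
    · rw [Submodule.span_le]
      rintro x (rfl | rfl)
      · exact hbmem 1
      · exact hbmem 3
    · intro x hx
      obtain ⟨a, b, rfl⟩ := Submodule.mem_span_pair.mp hx
      rw [q_add Q, hQ.smul, hQ.smul, hQN v hv, hQN w hwK, ← pB_apply Q hQ, hsr, map_smul,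
        LinearMap.smul_apply, g24]
      simp
    · rw [hdim]
      have hli : LinearIndependent F (![T v + v, T w + w] : Fin 2 → (ι → F)) := by
        rw [LinearIndependent.pair_iff]
        intro a b hab
        have h1 : pB Q hQ (a • (T v + v) + b • (T w + w)) w = 0 := by
          rw [hab, map_zero, LinearMap.zero_apply]
        have h3 : pB Q hQ (a • (T v + v) + b • (T w + w)) v = 0 := by
          rw [hab, map_zero, LinearMap.zero_apply]
        rw [map_add, map_smul, map_smul, LinearMap.add_apply, LinearMap.smul_apply,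
          LinearMap.smul_apply, g23, g43, smul_eq_mul, smul_eq_mul, mul_one, mul_zero,
          add_zero] at h1
        rw [map_add, map_smul, map_smul, LinearMap.add_apply, LinearMap.smul_apply,
          LinearMap.smul_apply, g21, g41, smul_eq_mul, smul_eq_mul, mul_one, mul_zero,
          zero_add] at h3
        exact ⟨h1, h3⟩
      have h4 := finrank_span_eq_card hli
      rw [Fintype.card_fin] at h4
      have h5 : Set.range (![T v + v, T w + w] : Fin 2 → (ι → F)) = {T v + v, T w + w} := by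
        ext x
        simp only [Set.mem_range, Set.mem_insert_iff, Set.mem_singleton_iff]
        constructor
        · rintro ⟨i, rfl⟩
          fin_cases i
          · exact Or.inl rfl
          · exact Or.inr rfl
        · rintro (rfl | rfl)
          · exact ⟨0, rfl⟩
          · exact ⟨1, rfl⟩
      rw [h5] at h4
      rw [h4]

/-- BLK: every nonzero invariant nondegenerate `K` contains an invariant nondegenerate block of
dimension `2`, or of dimension `4` and plus type. -/
theorem t2_blk (hQ : IsNondegenerateQuadraticForm Q) (h2 : (2 : F) = 0)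
    (T : Module.End F (ι → F)) (hT : OPres Q T) (hTT : T ^ 2 = 1)
    (K : Submodule F (ι → F)) (hKT : K.map T ≤ K) (hK : ONd Q K) (hK0 : K ≠ ⊥) :
    ∃ P : Submodule F (ι → F), P ≤ K ∧ P.map T ≤ P ∧ ONd Q P ∧
      (finrank F ↥P = 2 ∨ (finrank F ↥P = 4 ∧ OPl Q P)) := by
  by_cases h1 : ∃ v ∈ K, QuadraticMap.polar Q v (T v) ≠ 0
  · obtain ⟨v, hv, hne⟩ := h1
    obtain ⟨P, h1, h2', h3, h4⟩ := t2_blk2 Q hQ h2 T hT hTT K hKT v hv hne
    exact ⟨P, h1, h2', h3, Or.inl h4⟩
  · push Not at h1
    by_cases h3 : ∃ v ∈ K, T v ≠ v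
    · obtain ⟨v, hv, hne⟩ := h3
      obtain ⟨P, h1', h2', h3', h4, h5⟩ := t2_blk4 Q hQ h2 T hT hTT K hKT hK h1 v hv hne
      exact ⟨P, h1', h2', h3', Or.inr ⟨h4, h5⟩⟩
    · push Not at h3
      obtain ⟨E, hEK, hEnd, hEdim⟩ := Cfsg.Agent.Helper65.OHAll.o_plane_char2 Q hQ h2 K hK hK0
      refine ⟨E, hEK, ?_, hEnd, Or.inl hEdim⟩
      rintro _ ⟨u, hu, rfl⟩
      rw [h3 u (hEK hu)]
      exact hu

end Cfsg.Agent.Helper65.S74T2
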