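import Mathlib
import Cfsg.Prelude.Def_GeometricClasses
import Cfsg.Prelude.Def_Classical
import Cfsg.Agent.Helper96.OHDefs
import Cfsg.Agent.Helper31.OHOPERP
import Cfsg.Agent.Helper33.OType

set_option autoImplicit false
set_option linter.unusedSectionVars false
set_option linter.unusedVariables false

/-!
# Sub-CALL S74T2 (helper65), piece DEC: block decomposition for an isometry of finite order.
-/

namespace Cfsg.Agent.Helper65.S74T2

open Module Cfsg Cfsg.Geo Cfsg.Agent.Helper96.OH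

variable {ι : Type} [Fintype ι] [DecidableEq ι] {F : Type*} [Field F] (Q : (ι → F) → F)

/-- DEC: block decomposition by strong induction. -/
theorem t2_dec [Fintype F] (hQ : IsNondegenerateQuadraticForm Q)
    (T : Module.End F (ι → F)) (hT : OPres Q T) (hTT : T ^ 2 = 1)
    (hblk : ∀ K : Submodule F (ι → F), K.map T ≤ K → ONd Q K → K ≠ ⊥ →
      ∃ P : Submodule F (ι → F), P ≤ K ∧ P.map T ≤ P ∧ ONd Q P ∧
        (finrank F ↥P = 2 ∨ (finrank F ↥P = 4 ∧ OPl Q P)))
    (n : ℕ) (K : Submodule F (ι → F)) (hKT : K.map T ≤ K) (hK : ONd Q K)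
    (hn : finrank F ↥K = 2 * n) :
    ∃ A h e : ℕ, 2 * A + h + e = n ∧ ∀ a' h' e' : ℕ, a' ≤ A → h' ≤ h → e' ≤ e →
      ∃ X : Submodule F (ι → F), X ≤ K ∧ X.map T ≤ X ∧ ONd Q X ∧
        finrank F ↥X = 4 * a' + 2 * h' + 2 * e' ∧ (OPl Q X ↔ Even e') := by
  classical
  induction n using Nat.strong_induction_on generalizing K with
  | _ n ih =>
    by_cases hn0 : n = 0
    · subst hn0
      refine ⟨0, 0, 0, rfl, ?_⟩
      intro a' h' e' ha hh he
      have ha0 : a' = 0 := by omega
      have hh0 : h' = 0 := by omega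
      have he0 : e' = 0 := by omega
      subst ha0 hh0 he0
      refine ⟨⊥, bot_le, ?_, ?_, ?_, ?_⟩
      · rw [Submodule.map_bot]
      · intro w hw hw0
        exact absurd ((Submodule.mem_bot F).mp hw) hw0
      · simp
      · exact ⟨fun _ => ⟨0, rfl⟩, fun _ => Cfsg.Agent.Helper33.o_plus_bot Q hQ⟩
    · have hK0 : K ≠ ⊥ := by
        rintro rfl
        rw [finrank_bot] at hn
        omega
      obtain ⟨P, hPK, hPT, hP, hPdim⟩ := hblk K hKT hK hK0
      obtain ⟨K', hK'K, hK'T, hK', hinf, hsup, horth, hdim⟩ :=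
        Cfsg.Agent.Helper31.OH5992.o_perp Q hQ T hT 2 two_pos hTT K P hK hP hPK hKT hPT
      have hPev : Even (finrank F ↥P) := by
        rcases hPdim with h | ⟨h, -⟩ <;> rw [h] <;> decide
      have hjoin : ∀ (X' : Submodule F (ι → F)), X' ≤ K' → X'.map T ≤ X' → ONd Q X' →
          Even (finrank F ↥X') →
          (P ⊔ X' ≤ K) ∧ ((P ⊔ X').map T ≤ P ⊔ X') ∧ ONd Q (P ⊔ X') ∧
          finrank F ↥(P ⊔ X') = finrank F ↥P + finrank F ↥X' ∧
          (OPl Q (P ⊔ X') ↔ (OPl Q P ↔ OPl Q X')) := by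
        intro X' hX'K hX'T hX' hX'ev
        have ho : OOrth Q P X' := fun u hu v hv => horth u hu v (hX'K hv)
        refine ⟨sup_le hPK (hX'K.trans hK'K), ?_,
          Cfsg.Agent.Helper33.OType.nondeg_sup Q hQ P X' hP hX' ho,
          Cfsg.Agent.Helper33.OType.finrank_sup_of_orth Q P X' hP ho,
          Cfsg.Agent.Helper33.o_type_mul Q hQ P X' hP hX' ho hPev hX'ev⟩
        rw [Submodule.map_sup]
        exact sup_le_sup hPT hX'T
      rcases hPdim with hP2 | ⟨hP4, hPpl⟩
      · have hn' : finrank F ↥K' = 2 * (n - 1) := by omega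
        obtain ⟨A, h, e, hsum, hsel⟩ := ih (n - 1) (by omega) K' hK'T hK' hn'
        by_cases hPpl : OPl Q P
        · refine ⟨A, h + 1, e, by omega, ?_⟩
          intro a' h' e' ha hh he
          by_cases hh' : h' ≤ h
          · obtain ⟨X, hXK, hXT, hX, hXdim, hXpl⟩ := hsel a' h' e' ha hh' he
            exact ⟨X, hXK.trans hK'K, hXT, hX, hXdim, hXpl⟩
          · have hh1 : h' = h + 1 := by omega
            subst hh1
            obtain ⟨X, hXK, hXT, hX, hXdim, hXpl⟩ := hsel a' h e' ha le_rfl he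
            obtain ⟨j1, j2, j3, j4, j5⟩ := hjoin X hXK hXT hX
              (by rw [hXdim]; exact ⟨2 * a' + h + e', by ring⟩)
            refine ⟨P ⊔ X, j1, j2, j3, by rw [j4, hP2, hXdim]; ring, ?_⟩
            rw [j5, hXpl]
            exact ⟨fun hh => hh.mp hPpl, fun hh => ⟨fun _ => hh, fun _ => hPpl⟩⟩
        · refine ⟨A, h, e + 1, by omega, ?_⟩
          intro a' h' e' ha hh he
          by_cases he' : e' ≤ e
          · obtain ⟨X, hXK, hXT, hX, hXdim, hXpl⟩ := hsel a' h' e' ha hh he'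
            exact ⟨X, hXK.trans hK'K, hXT, hX, hXdim, hXpl⟩
          · have he1 : e' = e + 1 := by omega
            subst he1
            obtain ⟨X, hXK, hXT, hX, hXdim, hXpl⟩ := hsel a' h' e ha hh le_rfl
            obtain ⟨j1, j2, j3, j4, j5⟩ := hjoin X hXK hXT hX
              (by rw [hXdim]; exact ⟨2 * a' + h' + e, by ring⟩)
            refine ⟨P ⊔ X, j1, j2, j3, by rw [j4, hP2, hXdim]; ring, ?_⟩
            rw [j5, hXpl, Nat.even_add_one]
            exact ⟨fun hh he => hPpl (hh.mpr he),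
              fun hh => ⟨fun h1 => absurd h1 hPpl, fun h1 => absurd h1 hh⟩⟩
      · have hn' : finrank F ↥K' = 2 * (n - 2) := by omega
        obtain ⟨A, h, e, hsum, hsel⟩ := ih (n - 2) (by omega) K' hK'T hK' hn'
        refine ⟨A + 1, h, e, by omega, ?_⟩
        intro a' h' e' ha hh he
        by_cases ha' : a' ≤ A
        · obtain ⟨X, hXK, hXT, hX, hXdim, hXpl⟩ := hsel a' h' e' ha' hh he
          exact ⟨X, hXK.trans hK'K, hXT, hX, hXdim, hXpl⟩
        · have ha1 : a' = A + 1 := by omega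
          subst ha1
          obtain ⟨X, hXK, hXT, hX, hXdim, hXpl⟩ := hsel A h' e' le_rfl hh he
          obtain ⟨j1, j2, j3, j4, j5⟩ := hjoin X hXK hXT hX
            (by rw [hXdim]; exact ⟨2 * A + h' + e', by ring⟩)
          refine ⟨P ⊔ X, j1, j2, j3, by rw [j4, hP4, hXdim]; ring, ?_⟩
          rw [j5, hXpl]
          exact ⟨fun hh => hh.mp hPpl, fun hh => ⟨fun _ => hh, fun _ => hPpl⟩⟩

end Cfsg.Agent.Helper65.S74T2
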