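import Mathlib
import Cfsg.Prelude.Def_GeometricClasses
import Cfsg.Prelude.Def_Classical
import Cfsg.Agent.Helper65.S74Defs
import Cfsg.Agent.Helper65.S74T2BLK
import Cfsg.Agent.Helper65.S74T2DEC
import Cfsg.Agent.Helper65.S74T2ARITH
import Cfsg.Agent.Helper35.TSSTDP
import Cfsg.Agent.Helper96.OHAux
import Cfsg.Agent.Helper70.TSR2Z
import Cfsg.Agent.Helper97.OForm

set_option autoImplicit false
set_option linter.unusedSectionVars false
set_option linter.unusedVariables false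

/-!
# CALL S74 (row S5974), stage T2G (helper65): `r = p = 2`, every involution of `Ω⁺_{2d}(q)`,
`q` even, fixes a hyperbolic `m`-space when `d` is odd or `4 ∣ m`.
-/

namespace Cfsg.Agent.Helper65.S74

open Module Cfsg Cfsg.Geo Cfsg.Agent.Helper96.OH Cfsg.Agent.Helper96.OHAux
open Cfsg.Agent.Helper65.S74T2
open scoped MatrixGroups

variable {F : Type*} [Field F] [Fintype F]

/-- T2G. -/
theorem s74_two_even_good {p : ℕ} [Fact p.Prime] [CharP F p] {q : ℕ} (hq : Fintype.card F = q)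
    (d m : ℕ) (hd : 4 ≤ d) (hm : 2 ≤ m) (hme : Even m) (hmd : m < d) (hp2 : p = 2)
    (hcond : (2 * d) % 4 = 2 ∨ m % 4 = 0 ∨ q % 4 = 1) :
    AllHyp (Cfsg.quadFormPlus d F) 2 m := by
  classical
  subst hp2
  have h2 : (2 : F) = 0 := by exact_mod_cast CharP.cast_eq_zero F 2
  have hQ := (Cfsg.Agent.Helper35.TS5973.ts_std_plus (F := F) d).1
  have hpl := (Cfsg.Agent.Helper35.TS5973.ts_std_plus (F := F) d).2
  have hqev : 2 ∣ q := by
    rw [← hq]
    exact (CharP.cast_eq_zero_iff F 2 (Fintype.card F)).mp (Nat.cast_card_eq_zero F)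
  have hcond' : (2 * d) % 4 = 2 ∨ m % 4 = 0 := by omega
  intro x hx hxr hns
  have hxiso := Cfsg.Agent.Helper97.Gen.omegaGL_le _ hx
  have hT := oh_opres_toLin' (Cfsg.quadFormPlus d F) x hxiso
  obtain ⟨z, hz⟩ := hxr
  have hz1 : z = 1 := by
    have hM : ∀ v, Cfsg.quadFormPlus d F
        ((x : Matrix (Fin d ⊕ Fin d) (Fin d ⊕ Fin d) F).mulVec v) = Cfsg.quadFormPlus d F v :=
      fun v => by
        have := hT v
        rwa [Matrix.toLin'_apply] at this
    have hzz : (x : Matrix (Fin d ⊕ Fin d) (Fin d ⊕ Fin d) F) *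
        (x : Matrix (Fin d ⊕ Fin d) (Fin d ⊕ Fin d) F) = z • 1 := by
      rw [← hz, pow_two]; rfl
    rcases Cfsg.Agent.Helper70.TSR2.r2_z (Cfsg.quadFormPlus d F) hQ ⟨Sum.inl ⟨0, by omega⟩⟩ _ hM z hzz
      with h | h
    · exact h
    · rw [h]
      linear_combination (-1 : F) * h2
  have hTT : Matrix.toLin' (x : Matrix (Fin d ⊕ Fin d) (Fin d ⊕ Fin d) F) ^ 2 = 1 := by
    rw [oh_toLin'_pow_eq, ← Units.val_pow_eq_pow_val, hz, hz1, one_smul, Matrix.toLin'_one]; rfl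
  have hcard : finrank F (⊤ : Submodule F (Fin d ⊕ Fin d → F)) = 2 * d := by
    rw [finrank_top, Module.finrank_fintype_fun_eq_card]
    simp; omega
  obtain ⟨A, h, e, hsum, hsel⟩ := t2_dec (Cfsg.quadFormPlus d F) hQ _ hT hTT
    (fun K hKT hK hK0 => t2_blk (Cfsg.quadFormPlus d F) hQ h2 _ hT hTT K hKT hK hK0) d ⊤ le_top
    (ond_top _ hQ) hcard
  have he : Even e := by
    obtain ⟨X, -, -, hXnd, hXdim, hXpl⟩ := hsel A h e le_rfl le_rfl le_rfl
    have hXtop : X = ⊤ := by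
      apply Submodule.eq_top_of_finrank_eq
      rw [hXdim, Module.finrank_fintype_fun_eq_card]
      simp; omega
    rw [hXtop] at hXpl
    exact hXpl.mp hpl
  obtain ⟨a', h', e', ha, hh, hee, heven, hdim⟩ := t2_arith d m A h e hsum he hme hmd hcond'
  obtain ⟨X, -, hXT, hXnd, hXdim, hXpl⟩ := hsel a' h' e' ha hh hee
  exact (invHyp_iff _ _ m).mpr ⟨X, ⟨by rw [hXdim, hdim], hXnd, hXpl.mpr heven⟩, hXT⟩

end Cfsg.Agent.Helper65.S74
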