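import Mathlib
import Cfsg.Prelude.Def_GeometricClasses
import Cfsg.Prelude.Def_Classical
import Cfsg.Agent.Helper35.S88Defs
import Cfsg.Agent.Helper58.TSDefs
import Cfsg.Agent.Helper43.PrimeOrdO3
import Cfsg.Agent.Helper33.OType
import Cfsg.Agent.Helper43.S88OEDefs

set_option autoImplicit false

/-!
# Sub-CALL S88OE piece ELLBR (helper65): bridge between the abstract and the concrete notion of
elliptic subspace along an isometric linear equivalence.
-/

namespace Cfsg.Agent.Helper65.S88OE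

open Module Polynomial Cfsg Cfsg.Geo Cfsg.Agent.Helper58.TS Cfsg.Agent.Helper35.S88
open Cfsg.Agent.Helper43 Cfsg.Agent.Helper43.OrthEven Cfsg.Agent.Helper43.CycFactors
  Cfsg.Agent.Helper43.PrimeOrdMat Cfsg.Agent.Helper43.S88OE
open scoped MatrixGroups

universe u

section conc

variable {ι : Type} [Fintype ι] [DecidableEq ι] {F : Type u} [Field F]

/-- `HasTS` transports along an isometric linear equivalence. -/
theorem ellbr_hasTS_equiv {Va Vb : Type*} [AddCommGroup Va] [Module F Va] [AddCommGroup Vb]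
    [Module F Vb] (Qa : QuadraticForm F Va) (Qb : QuadraticForm F Vb) (e : Va ≃ₗ[F] Vb)
    (he : ∀ v, Qb (e v) = Qa v) (l : ℕ) (h : HasTS Qa l) : HasTS Qb l := by
  obtain ⟨U, hU, h0⟩ := h
  refine ⟨U.map (e : Va →ₗ[F] Vb), ?_, ?_⟩
  · rw [LinearEquiv.finrank_map_eq]
    exact hU
  · rintro _ ⟨u, hu, rfl⟩
    show Qb (e u) = 0
    rw [he]
    exact h0 u hu

/-- ELLBR -/
theorem oe_ell_bridge (Q : (ι → F) → F) (hQ : IsNondegenerateQuadraticForm Q) {V' : Type u}
    [AddCommGroup V'] [Module F V'] [FiniteDimensional F V'] (Q' : QuadraticForm F V')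
    (Φ : V' ≃ₗ[F] (ι → F)) (hΦ : ∀ v, Q (Φ v) = Q' v) (W : Submodule F V') (l : ℕ)
    (hW : finrank F W = 2 * l) :
    (PolarNondeg (Q'.comp W.subtype) ∧ ¬ HasTS (Q'.comp W.subtype) l) ↔
      (IsNondegenerateOn (QuadraticMap.polar Q) (W.map (Φ : V' →ₗ[F] (ι → F))) ∧
        ¬ IsPlusTypeOn Q (W.map (Φ : V' →ₗ[F] (ι → F)))) := by
  have hpol : ∀ v w : V', QuadraticMap.polar Q (Φ v) (Φ w) = QuadraticMap.polar Q' v w := by
    intro v w
    unfold QuadraticMap.polar
    rw [← map_add, hΦ, hΦ, hΦ]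
  have hpolc : ∀ v w : W, QuadraticMap.polar (Q'.comp W.subtype) v w =
      QuadraticMap.polar Q' (v : V') (w : V') := by
    intro v w
    unfold QuadraticMap.polar
    rfl
  have hdim : finrank F ↥(W.map (Φ : V' →ₗ[F] (ι → F))) = 2 * l := by
    rw [LinearEquiv.finrank_map_eq]
    exact hW
  -- nondegeneracy
  have hnd : PolarNondeg (Q'.comp W.subtype) ↔
      IsNondegenerateOn (QuadraticMap.polar Q) (W.map (Φ : V' →ₗ[F] (ι → F))) := by
    constructor
    · intro h w' hw' hw'0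
      obtain ⟨v, hv, rfl⟩ := hw'
      have hv0 : (⟨v, hv⟩ : W) ≠ 0 := by
        intro h0
        apply hw'0
        have : v = 0 := congrArg Subtype.val h0
        rw [this]
        exact map_zero _
      have hex : ∃ w : W, QuadraticMap.polar (Q'.comp W.subtype) ⟨v, hv⟩ w ≠ 0 := by
        by_contra hcon
        push Not at hcon
        exact hv0 (h ⟨v, hv⟩ hcon)
      obtain ⟨w, hw⟩ := hex
      rw [hpolc] at hw
      have h1 : QuadraticMap.polar Q (Φ v) (Φ (w : V')) ≠ 0 := by rw [hpol]; exact hw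
      refine ⟨⟨Φ (w : V'), ⟨(w : V'), w.2, rfl⟩, ?_⟩, ⟨Φ (w : V'), ⟨(w : V'), w.2, rfl⟩, h1⟩⟩
      rw [QuadraticMap.polar_comm]
      exact h1
    · intro h v hv
      by_contra hv0
      have hv0' : (v : V') ≠ 0 := fun h0 => hv0 (Subtype.ext h0)
      have hΦv0 : Φ (v : V') ≠ 0 := by
        intro h0
        exact hv0' (Φ.map_eq_zero_iff.mp h0)
      obtain ⟨-, x, hx, hx0⟩ := h (Φ (v : V')) ⟨(v : V'), v.2, rfl⟩ hΦv0
      obtain ⟨w, hw, rfl⟩ := hx
      have h1 := hv ⟨w, hw⟩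
      rw [hpolc] at h1
      apply hx0
      show QuadraticMap.polar Q (Φ (v : V')) (Φ w) = 0
      rw [hpol]
      exact h1
  -- the isometric equivalence `W ≃ W.map Φ`
  have he : ∀ v : W, (Cfsg.Agent.Helper33.OType.restr Q hQ (W.map (Φ : V' →ₗ[F] (ι → F))))
      ((Φ.submoduleMap W) v) = (Q'.comp W.subtype) v := by
    intro v
    rw [Cfsg.Agent.Helper33.OType.restr_apply]
    show Q (Φ (v : V')) = Q' (v : V')
    exact hΦ _
  have he' : ∀ v : ↥(W.map (Φ : V' →ₗ[F] (ι → F))), (Q'.comp W.subtype)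
      ((Φ.submoduleMap W).symm v) =
      (Cfsg.Agent.Helper33.OType.restr Q hQ (W.map (Φ : V' →ₗ[F] (ι → F)))) v := by
    intro v
    rw [← he ((Φ.submoduleMap W).symm v), LinearEquiv.apply_symm_apply]
  constructor
  · rintro ⟨h1, h2⟩
    have h1' := hnd.mp h1
    refine ⟨h1', fun hpl => h2 ?_⟩
    have h3 := (Cfsg.Agent.Helper33.OType.plus_iff_hasTS Q hQ _ h1' hdim).mp hpl
    exact ellbr_hasTS_equiv _ _ (Φ.submoduleMap W).symm he' l h3
  · rintro ⟨h1, h2⟩
    refine ⟨hnd.mpr h1, fun hts => h2 ?_⟩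
    exact (Cfsg.Agent.Helper33.OType.plus_iff_hasTS Q hQ _ h1 hdim).mpr
      (ellbr_hasTS_equiv _ _ (Φ.submoduleMap W) he l hts)

end conc

end Cfsg.Agent.Helper65.S88OE
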