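import Mathlib
import Cfsg.Prelude.Def_KGroupFacts
import Cfsg.Agent.Helper98.F4
import Cfsg.Agent.Helper65.F9

set_option autoImplicit false

/-!
# A triple cover of `SL₂(9)`

We construct a stem extension of `SL₂(F9)` with kernel of order `3` inside
`SL₃(F4) × SL₂(F9)`: the first factor carries the triple cover `3.A₆` (the stabiliser of a
hyperoval), the second one `SL₂(9) = 2.A₆`, and the two are glued along `A₆ ≅ PSL₂(9)` by
means of the six Petersen graphs on the projective line over `F9`.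
-/

namespace Cfsg.Agent.Helper65.SL29

open Matrix Cfsg.Agent.Helper98 Cfsg.Agent.Helper65
open scoped commutatorElement

/-- The ambient group. -/
abbrev X : Type := Matrix.SpecialLinearGroup (Fin 3) F4 × Matrix.SpecialLinearGroup (Fin 2) F9

/-! ### Generation of `SL₂` over a field -/

section gen
variable {K : Type*} [Field K]

/-- Upper unitriangular matrices. -/
def su (t : K) : Matrix.SpecialLinearGroup (Fin 2) K :=
  ⟨!![1, t; 0, 1], by simp [Matrix.det_fin_two]⟩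

/-- Lower unitriangular matrices. -/
def sl (t : K) : Matrix.SpecialLinearGroup (Fin 2) K :=
  ⟨!![1, 0; t, 1], by simp [Matrix.det_fin_two]⟩

/-- The Weyl element. -/
def sw : Matrix.SpecialLinearGroup (Fin 2) K :=
  ⟨!![0, 1; -1, 0], by simp [Matrix.det_fin_two]⟩

theorem su_add (a b : K) : su (a + b) = su a * su b := by
  apply Subtype.ext
  rw [Matrix.SpecialLinearGroup.coe_mul]
  simp [su, add_comm]

theorem su_zero : su (0 : K) = 1 := by
  ext i j
  fin_cases i <;> fin_cases j <;> simp [su]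

theorem su_nsmul (n : ℕ) (a : K) : su (n • a) = su a ^ n := by
  induction n with
  | zero => rw [zero_smul, su_zero, pow_zero]
  | succ n ih => rw [succ_nsmul, su_add, ih, pow_succ]

theorem sw_mul_su (t : K) : sw * su (-t) = sl t * sw := by
  apply Subtype.ext
  rw [Matrix.SpecialLinearGroup.coe_mul, Matrix.SpecialLinearGroup.coe_mul]
  simp [sw, su, sl]

theorem sl_eq (t : K) : sl t = sw * su (-t) * sw⁻¹ := by
  rw [sw_mul_su, mul_inv_cancel_right]

theorem eq_of_lower_ne_zero (g : Matrix.SpecialLinearGroup (Fin 2) K) (hr : g.1 1 0 ≠ 0) :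
    g = su ((g.1 0 0 - 1) / g.1 1 0) * sl (g.1 1 0) * su ((g.1 1 1 - 1) / g.1 1 0) := by
  have hdet : g.1 0 0 * g.1 1 1 - g.1 0 1 * g.1 1 0 = 1 := by
    have := g.2
    rwa [Matrix.det_fin_two] at this
  apply Subtype.ext
  rw [Matrix.SpecialLinearGroup.coe_mul, Matrix.SpecialLinearGroup.coe_mul]
  simp only [su, sl, Matrix.mul_fin_two]
  ext i j
  fin_cases i <;> fin_cases j
  · simp
    field_simp
    try ring
  · simp
    field_simp
    linear_combination (-1 : K) * hdet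
  · simp
  · simp
    field_simp
    try ring

/-- `SL₂` of a field is generated by the unitriangular matrices. -/
theorem sl2_gen (T : Subgroup (Matrix.SpecialLinearGroup (Fin 2) K))
    (hu : ∀ t : K, su t ∈ T) (hl : ∀ t : K, sl t ∈ T) : T = ⊤ := by
  rw [eq_top_iff]
  intro g _
  have key : ∀ g : Matrix.SpecialLinearGroup (Fin 2) K, g.1 1 0 ≠ 0 → g ∈ T := by
    intro g hr
    rw [eq_of_lower_ne_zero g hr]
    exact T.mul_mem (T.mul_mem (hu _) (hl _)) (hu _)
  by_cases hr : g.1 1 0 = 0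
  · have hdet : g.1 0 0 * g.1 1 1 - g.1 0 1 * g.1 1 0 = 1 := by
      have := g.2
      rwa [Matrix.det_fin_two] at this
    have hp : g.1 0 0 ≠ 0 := by
      intro h0
      rw [h0, hr] at hdet
      simp at hdet
    have h1 : (sl (1 : K) * g).1 1 0 ≠ 0 := by
      rw [Matrix.SpecialLinearGroup.coe_mul]
      simp [sl, Matrix.mul_apply, Fin.sum_univ_two, hr, hp]
    have h2 := key _ h1
    have h3 : g = (sl (1 : K))⁻¹ * (sl (1 : K) * g) := by rw [inv_mul_cancel_left]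
    rw [h3]
    exact T.mul_mem (T.inv_mem (hl 1)) h2
  · exact key g hr

end gen

/-! ### The explicit elements -/

/-- Lift of a `3`-cycle. -/
def ahat : Matrix.SpecialLinearGroup (Fin 3) F4 :=
  ⟨!![0, 1, 0; F4.w, F4.v, 0; 0, F4.w, F4.v], by rw [Matrix.det_fin_three]; decide⟩

/-- Lift of a disjoint `3`-cycle. -/
def bhat : Matrix.SpecialLinearGroup (Fin 3) F4 :=
  ⟨!![1, 0, 1; 0, F4.w, F4.w; 0, 0, F4.v], by rw [Matrix.det_fin_three]; decide⟩

/-- Lift of a double transposition. -/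
def what : Matrix.SpecialLinearGroup (Fin 3) F4 :=
  ⟨!![0, 1, 0; 1, 0, 0; 0, 0, 1], by rw [Matrix.det_fin_three]; decide⟩

/-- The scalar matrix `c • 1` as an element of `SL₃(F4)`. -/
def scal (c : F4) (hc : c ≠ 0) : Matrix.SpecialLinearGroup (Fin 3) F4 :=
  ⟨c • (1 : Matrix (Fin 3) (Fin 3) F4), by
    rw [Matrix.det_smul, Matrix.det_one, mul_one, Fintype.card_fin]
    revert c
    decide⟩

/-- The central element of order `3`. -/
def zhat : Matrix.SpecialLinearGroup (Fin 3) F4 := scal F4.v (by decide)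

theorem ahat_mul_bhat : ahat * bhat = zhat * (bhat * ahat) := by
  apply Subtype.ext
  rw [Matrix.SpecialLinearGroup.coe_mul, Matrix.SpecialLinearGroup.coe_mul,
    Matrix.SpecialLinearGroup.coe_mul]
  decide

/-- The three generators. -/
def ga : X := (ahat, su 1)
/-- The three generators. -/
def gb : X := (bhat, su F9.i)
/-- The three generators. -/
def gw : X := (what, sw)

/-- The hyperoval. -/
def q : Fin 6 → Fin 3 → F4 :=
  ![![1, 0, 0], ![0, 1, 0], ![0, 0, 1], ![1, 1, 1], ![1, F4.w, F4.v], ![1, F4.v, F4.w]]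

/-- The projective line over `F9`. -/
def p : Fin 10 → Fin 2 → F9 :=
  ![![1, 0], ![0, 1], ![⟨0, 1⟩, 1], ![⟨0, 2⟩, 1], ![1, 1], ![⟨1, 1⟩, 1], ![⟨1, 2⟩, 1],
    ![⟨2, 0⟩, 1], ![⟨2, 1⟩, 1], ![⟨2, 2⟩, 1]]

/-- The six Petersen graphs on the projective line, as bit masks. -/
def grMask : Fin 6 → ℕ :=
  ![86706611291931922049411072112, 90414376151912278272757695360,
    477248292830187246997257626184, 339970879635483856662362132772,
    203264859800491547193866466450, 69426308119478911141030282254]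

/-- The six Petersen graphs on the projective line. -/
def gr (i : Fin 6) (u v : Fin 10) : Bool := (grMask i).testBit (10 * u.val + v.val)

theorem gr_inj : ∀ i i' : Fin 6, (∀ u v, gr i' u v = gr i u v) → i' = i := by decide

theorem p_inj : ∀ j k : Fin 10, ∀ c : F9, c ≠ 0 → p j = c • p k → j = k := by decide

/-- The permutations induced by the generators. -/
def pia : Equiv.Perm (Fin 6) := ⟨![1, 5, 2, 3, 4, 0], ![5, 0, 2, 3, 4, 1], by decide, by decide⟩
/-- The permutations induced by the generators. -/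
def pib : Equiv.Perm (Fin 6) := ⟨![0, 1, 4, 2, 3, 5], ![0, 1, 3, 4, 2, 5], by decide, by decide⟩
/-- The permutations induced by the generators. -/
def piw : Equiv.Perm (Fin 6) := ⟨![1, 0, 2, 3, 5, 4], ![1, 0, 2, 3, 5, 4], by decide, by decide⟩
/-- The permutations induced by the generators. -/
def rhoa : Equiv.Perm (Fin 10) :=
  ⟨![0, 4, 5, 6, 7, 8, 9, 1, 2, 3], ![0, 7, 8, 9, 1, 2, 3, 4, 5, 6], by decide, by decide⟩
/-- The permutations induced by the generators. -/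
def rhob : Equiv.Perm (Fin 10) :=
  ⟨![0, 2, 3, 1, 5, 6, 4, 8, 9, 7], ![0, 3, 1, 2, 6, 4, 5, 9, 7, 8], by decide, by decide⟩
/-- The permutations induced by the generators. -/
def rhow : Equiv.Perm (Fin 10) :=
  ⟨![1, 0, 2, 3, 7, 6, 5, 4, 9, 8], ![1, 0, 2, 3, 7, 6, 5, 4, 9, 8], by decide, by decide⟩

/-- The compatibility relation between the two factors. -/
def Compat (x : X) (π : Equiv.Perm (Fin 6)) (ρ : Equiv.Perm (Fin 10)) : Prop :=
  (∀ i, ∃ c : F4, c ≠ 0 ∧ (x.1 : Matrix (Fin 3) (Fin 3) F4) *ᵥ q i = c • q (π i)) ∧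
  (∀ j, ∃ c : F9, c ≠ 0 ∧ (x.2 : Matrix (Fin 2) (Fin 2) F9) *ᵥ p j = c • p (ρ j)) ∧
  (∀ i u v, gr (π i) (ρ u) (ρ v) = gr i u v)

theorem compat_ga : Compat ga pia rhoa := by
  refine ⟨?_, ?_, ?_⟩ <;> decide

theorem compat_gb : Compat gb pib rhob := by
  refine ⟨?_, ?_, ?_⟩ <;> decide

theorem compat_gw : Compat gw piw rhow := by
  refine ⟨?_, ?_, ?_⟩ <;> decide

theorem compat_one : Compat 1 1 1 := by
  refine ⟨fun i => ⟨1, one_ne_zero, ?_⟩, fun j => ⟨1, one_ne_zero, ?_⟩, fun i u v => rfl⟩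
  · rw [Prod.fst_one, Matrix.SpecialLinearGroup.coe_one, Matrix.one_mulVec, one_smul]
    rfl
  · rw [Prod.snd_one, Matrix.SpecialLinearGroup.coe_one, Matrix.one_mulVec, one_smul]
    rfl

theorem compat_mul {x y : X} {π π' : Equiv.Perm (Fin 6)} {ρ ρ' : Equiv.Perm (Fin 10)}
    (hx : Compat x π ρ) (hy : Compat y π' ρ') : Compat (x * y) (π * π') (ρ * ρ') := by
  obtain ⟨hx1, hx2, hx3⟩ := hx
  obtain ⟨hy1, hy2, hy3⟩ := hy
  refine ⟨fun i => ?_, fun j => ?_, fun i u v => ?_⟩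
  · obtain ⟨c', hc', h'⟩ := hy1 i
    obtain ⟨c, hc, h⟩ := hx1 (π' i)
    refine ⟨c' * c, mul_ne_zero hc' hc, ?_⟩
    rw [Prod.fst_mul, Matrix.SpecialLinearGroup.coe_mul, ← Matrix.mulVec_mulVec, h',
      Matrix.mulVec_smul, h, smul_smul, Equiv.Perm.mul_apply]
  · obtain ⟨c', hc', h'⟩ := hy2 j
    obtain ⟨c, hc, h⟩ := hx2 (ρ' j)
    refine ⟨c' * c, mul_ne_zero hc' hc, ?_⟩
    rw [Prod.snd_mul, Matrix.SpecialLinearGroup.coe_mul, ← Matrix.mulVec_mulVec, h',
      Matrix.mulVec_smul, h, smul_smul, Equiv.Perm.mul_apply]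
  · rw [Equiv.Perm.mul_apply, Equiv.Perm.mul_apply, Equiv.Perm.mul_apply, hx3, hy3]

theorem compat_inv {x : X} {π : Equiv.Perm (Fin 6)} {ρ : Equiv.Perm (Fin 10)}
    (hx : Compat x π ρ) : Compat x⁻¹ π⁻¹ ρ⁻¹ := by
  obtain ⟨hx1, hx2, hx3⟩ := hx
  refine ⟨fun i => ?_, fun j => ?_, fun i u v => ?_⟩
  · obtain ⟨c, hc, h⟩ := hx1 (π⁻¹ i)
    refine ⟨c⁻¹, inv_ne_zero hc, ?_⟩
    rw [show π (π⁻¹ i) = i by simp] at h
    have h1 : ((x⁻¹).1 : Matrix (Fin 3) (Fin 3) F4) *ᵥ
        ((x.1 : Matrix (Fin 3) (Fin 3) F4) *ᵥ q (π⁻¹ i)) = q (π⁻¹ i) := by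
      rw [Matrix.mulVec_mulVec, ← Matrix.SpecialLinearGroup.coe_mul, ← Prod.fst_mul,
        inv_mul_cancel, Prod.fst_one, Matrix.SpecialLinearGroup.coe_one, Matrix.one_mulVec]
    rw [h, Matrix.mulVec_smul] at h1
    rw [← h1, smul_smul, inv_mul_cancel₀ hc, one_smul]
  · obtain ⟨c, hc, h⟩ := hx2 (ρ⁻¹ j)
    refine ⟨c⁻¹, inv_ne_zero hc, ?_⟩
    rw [show ρ (ρ⁻¹ j) = j by simp] at h
    have h1 : ((x⁻¹).2 : Matrix (Fin 2) (Fin 2) F9) *ᵥ
        ((x.2 : Matrix (Fin 2) (Fin 2) F9) *ᵥ p (ρ⁻¹ j)) = p (ρ⁻¹ j) := by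
      rw [Matrix.mulVec_mulVec, ← Matrix.SpecialLinearGroup.coe_mul, ← Prod.snd_mul,
        inv_mul_cancel, Prod.snd_one, Matrix.SpecialLinearGroup.coe_one, Matrix.one_mulVec]
    rw [h, Matrix.mulVec_smul] at h1
    rw [← h1, smul_smul, inv_mul_cancel₀ hc, one_smul]
  · have := hx3 (π⁻¹ i) (ρ⁻¹ u) (ρ⁻¹ v)
    rw [show π (π⁻¹ i) = i by simp, show ρ (ρ⁻¹ u) = u by simp, show ρ (ρ⁻¹ v) = v by simp] at this
    exact this.symm

/-- The triple cover. -/
def Γ : Subgroup X := Subgroup.closure {ga, gb, gw}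

theorem exists_compat {x : X} (hx : x ∈ Γ) : ∃ π ρ, Compat x π ρ := by
  induction hx using Subgroup.closure_induction with
  | mem x hx =>
    rcases hx with rfl | rfl | rfl
    · exact ⟨_, _, compat_ga⟩
    · exact ⟨_, _, compat_gb⟩
    · exact ⟨_, _, compat_gw⟩
  | one => exact ⟨_, _, compat_one⟩
  | mul x y _ _ hx hy =>
    obtain ⟨π, ρ, h⟩ := hx
    obtain ⟨π', ρ', h'⟩ := hy
    exact ⟨_, _, compat_mul h h'⟩
  | inv x _ hx =>
    obtain ⟨π, ρ, h⟩ := hx
    exact ⟨_, _, compat_inv h⟩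

end Cfsg.Agent.Helper65.SL29
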