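import Mathlib
import Cfsg.Prelude.Def_KGroupFacts
import Cfsg.Agent.Helper65.SL29Cover

set_option autoImplicit false

/-!
# The triple cover of `SL₂(9)` is a stem extension

The subgroup `Γ` of `SL₃(F4) × SL₂(F9)` constructed in `SL29Cover` projects onto `SL₂(F9)` with
kernel of order `3`, central and contained in the commutator subgroup.
-/

namespace Cfsg.Agent.Helper65.SL29

open Matrix Cfsg.Agent.Helper98 Cfsg.Agent.Helper65
open scoped commutatorElement

theorem scal_of_fix (M : Matrix (Fin 3) (Fin 3) F4)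
    (h : ∀ i, ∃ c : F4, c ≠ 0 ∧ M *ᵥ q i = c • q i) : ∃ c : F4, c ≠ 0 ∧ M = c • 1 := by
  obtain ⟨c0, hc0, h0⟩ := h 0
  obtain ⟨c1, hc1, h1⟩ := h 1
  obtain ⟨c2, hc2, h2⟩ := h 2
  obtain ⟨c3, hc3, h3⟩ := h 3
  have e00 := congrFun h0 0
  have e10 := congrFun h0 1
  have e20 := congrFun h0 2
  have e01 := congrFun h1 0
  have e11 := congrFun h1 1
  have e21 := congrFun h1 2
  have e02 := congrFun h2 0
  have e12 := congrFun h2 1
  have e22 := congrFun h2 2
  have f0 := congrFun h3 0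
  have f1 := congrFun h3 1
  have f2 := congrFun h3 2
  simp [q, Matrix.mulVec, dotProduct, Fin.sum_univ_three] at e00 e10 e20 e01 e11 e21 e02 e12 e22 f0 f1 f2
  rw [e01, e02, add_zero, add_zero] at f0
  rw [e10, e12, zero_add, add_zero] at f1
  rw [e20, e21, zero_add, zero_add] at f2
  refine ⟨c3, hc3, ?_⟩
  ext i j
  fin_cases i <;> fin_cases j <;>
    simp [Matrix.smul_apply, e10, e20, e01, e21, e02, e12, f0, f1, f2]

/-- The central element of order three of the cover. -/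
def z0 : X := (zhat, 1)

theorem ga_mul_gb : ga * gb = z0 * (gb * ga) := by
  refine Prod.ext ?_ ?_
  · exact ahat_mul_bhat
  · show su 1 * su F9.i = 1 * (su F9.i * su 1)
    rw [one_mul, ← su_add, ← su_add, add_comm]

theorem comm_ga_gb : ⁅ga, gb⁆ = z0 := by
  rw [commutatorElement_def, ga_mul_gb]
  group

theorem ga_mem : ga ∈ Γ := Subgroup.subset_closure (by simp)
theorem gb_mem : gb ∈ Γ := Subgroup.subset_closure (by simp)
theorem gw_mem : gw ∈ Γ := Subgroup.subset_closure (by simp)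

theorem z0_mem : z0 ∈ Γ := by
  rw [← comm_ga_gb, commutatorElement_def]
  exact Γ.mul_mem (Γ.mul_mem (Γ.mul_mem ga_mem gb_mem) (Γ.inv_mem ga_mem)) (Γ.inv_mem gb_mem)

theorem scal_mul_scal (c d : F4) (hc : c ≠ 0) (hd : d ≠ 0) :
    scal c hc * scal d hd = scal (c * d) (mul_ne_zero hc hd) := by
  apply Subtype.ext
  rw [Matrix.SpecialLinearGroup.coe_mul]
  simp [scal, smul_smul, mul_comm]

theorem scal_one : scal 1 one_ne_zero = 1 := by
  apply Subtype.ext
  simp [scal]

theorem scal_comm (c : F4) (hc : c ≠ 0) (g : Matrix.SpecialLinearGroup (Fin 3) F4) :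
    g * scal c hc = scal c hc * g := by
  apply Subtype.ext
  rw [Matrix.SpecialLinearGroup.coe_mul, Matrix.SpecialLinearGroup.coe_mul]
  simp [scal]

theorem z0_comm (g : X) : g * z0 = z0 * g := by
  refine Prod.ext ?_ ?_
  · exact scal_comm F4.v (by decide) g.1
  · show g.2 * 1 = 1 * g.2
    rw [mul_one, one_mul]

theorem z0_pow_three : z0 ^ 3 = 1 := by
  refine Prod.ext ?_ ?_
  · show zhat ^ 3 = 1
    rw [pow_succ, pow_two, zhat, scal_mul_scal, scal_mul_scal, ← scal_one]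
    congr 1
  · show (1 : Matrix.SpecialLinearGroup (Fin 2) F9) ^ 3 = 1
    rw [one_pow]

theorem z0_ne_one : z0 ≠ 1 := by
  intro h
  have h1 : (zhat : Matrix (Fin 3) (Fin 3) F4) 0 0 = (1 : Matrix (Fin 3) (Fin 3) F4) 0 0 := by
    have := congrArg Prod.fst h
    have h2 : zhat = 1 := this
    rw [h2, Matrix.SpecialLinearGroup.coe_one]
  revert h1
  simp [zhat, scal]

/-- The kernel of the projection to `SL₂(F9)` consists of the powers of `z0`. -/
theorem ker_form {x : X} (hx : x ∈ Γ) (h2 : x.2 = 1) : x ∈ Subgroup.zpowers z0 := by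
  obtain ⟨π, ρ, h1, hρ, hg⟩ := exists_compat hx
  have hρ1 : ρ = 1 := by
    refine Equiv.ext fun j => ?_
    obtain ⟨c, hc, hj⟩ := hρ j
    rw [h2, Matrix.SpecialLinearGroup.coe_one, Matrix.one_mulVec] at hj
    rw [Equiv.Perm.one_apply]
    exact (p_inj j (ρ j) c hc hj).symm
  have hπ1 : π = 1 := by
    refine Equiv.ext fun i => ?_
    rw [Equiv.Perm.one_apply]
    have := gr_inj i (π i) (fun u v => by
      have := hg i u v
      rwa [hρ1, Equiv.Perm.one_apply, Equiv.Perm.one_apply] at this)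
    rw [this]
  obtain ⟨c, hc, hM⟩ := scal_of_fix x.1.1 (fun i => by
    obtain ⟨c, hc, hi⟩ := h1 i
    rw [hπ1, Equiv.Perm.one_apply] at hi
    exact ⟨c, hc, hi⟩)
  have hx1 : x = (scal c hc, 1) := Prod.ext (Subtype.ext hM) h2
  rw [hx1]
  have hv2 : z0 ^ 2 = (scal F4.w (by decide), 1) := by
    refine Prod.ext ?_ ?_
    · show zhat ^ 2 = _
      rw [pow_two, zhat, scal_mul_scal]
      congr 1
    · show (1 : Matrix.SpecialLinearGroup (Fin 2) F9) ^ 2 = 1
      rw [one_pow]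
  cases c with
  | z => exact absurd rfl hc
  | o =>
    have : ((scal F4.o hc, 1) : X) = 1 := Prod.ext scal_one rfl
    rw [this]
    exact Subgroup.one_mem _
  | w =>
    rw [← hv2]
    exact Subgroup.pow_mem _ (Subgroup.mem_zpowers z0) 2
  | v => exact Subgroup.mem_zpowers z0

/-- The projection of the cover onto `SL₂(F9)`. -/
def σ9 : ↥Γ →* Matrix.SpecialLinearGroup (Fin 2) F9 :=
  (MonoidHom.snd _ _).comp Γ.subtype

theorem F9_decomp : ∀ t : F9, t = t.re.val • (1 : F9) + t.im.val • F9.i := by decide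

theorem su_mem_map (t : F9) :
    su t ∈ Γ.map (MonoidHom.snd (Matrix.SpecialLinearGroup (Fin 3) F4)
      (Matrix.SpecialLinearGroup (Fin 2) F9)) := by
  have ha : su (1 : F9) ∈ Γ.map (MonoidHom.snd (Matrix.SpecialLinearGroup (Fin 3) F4)
      (Matrix.SpecialLinearGroup (Fin 2) F9)) := ⟨ga, ga_mem, rfl⟩
  have hb : su F9.i ∈ Γ.map (MonoidHom.snd (Matrix.SpecialLinearGroup (Fin 3) F4)
      (Matrix.SpecialLinearGroup (Fin 2) F9)) := ⟨gb, gb_mem, rfl⟩
  rw [F9_decomp t, su_add, su_nsmul, su_nsmul]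
  exact mul_mem (pow_mem ha _) (pow_mem hb _)

theorem map_snd_eq_top :
    Γ.map (MonoidHom.snd (Matrix.SpecialLinearGroup (Fin 3) F4)
      (Matrix.SpecialLinearGroup (Fin 2) F9)) = ⊤ := by
  have hw : (sw : Matrix.SpecialLinearGroup (Fin 2) F9) ∈
      Γ.map (MonoidHom.snd (Matrix.SpecialLinearGroup (Fin 3) F4)
      (Matrix.SpecialLinearGroup (Fin 2) F9)) := ⟨gw, gw_mem, rfl⟩
  refine sl2_gen _ su_mem_map (fun t => ?_)
  rw [sl_eq]
  exact mul_mem (mul_mem hw (su_mem_map _)) (inv_mem hw)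

theorem σ9_surjective : Function.Surjective σ9 := by
  intro g
  have hg : g ∈ Γ.map (MonoidHom.snd (Matrix.SpecialLinearGroup (Fin 3) F4)
      (Matrix.SpecialLinearGroup (Fin 2) F9)) := by
    rw [map_snd_eq_top]
    trivial
  obtain ⟨x, hx, rfl⟩ := hg
  exact ⟨⟨x, hx⟩, rfl⟩

/-- The central element as an element of the cover. -/
def z0' : ↥Γ := ⟨z0, z0_mem⟩

theorem z0_zpow_snd (k : ℤ) : (z0 ^ k).2 = 1 := by
  rw [Prod.pow_snd]
  exact one_zpow k

theorem σ9_ker_eq : σ9.ker = Subgroup.zpowers z0' := by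
  ext x
  constructor
  · intro h
    obtain ⟨k, hk⟩ := ker_form x.2 (MonoidHom.mem_ker.mp h)
    refine ⟨k, Subtype.ext ?_⟩
    rw [Subgroup.coe_zpow]
    exact hk
  · rintro ⟨k, hk⟩
    rw [MonoidHom.mem_ker, ← hk]
    show ((z0' ^ k : ↥Γ) : X).2 = 1
    rw [Subgroup.coe_zpow]
    exact z0_zpow_snd k

theorem σ9_stem : Cfsg.IsStemExtension σ9 := by
  refine ⟨σ9_surjective, ?_, ?_⟩
  · rw [σ9_ker_eq, Subgroup.zpowers_le, Subgroup.mem_center_iff]
    intro g
    exact Subtype.ext (z0_comm g.1)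
  · rw [σ9_ker_eq, Subgroup.zpowers_le]
    have h : z0' = ⁅(⟨ga, ga_mem⟩ : ↥Γ), ⟨gb, gb_mem⟩⁆ := by
      apply Subtype.ext
      show z0 = _
      rw [← comm_ga_gb]
      rfl
    rw [h, _root_.commutator_def]
    exact Subgroup.commutator_mem_commutator (Subgroup.mem_top _) (Subgroup.mem_top _)

/-- A cyclic group of order `n` is isomorphic to `Multiplicative (ZMod n)`. -/
theorem nonempty_mulEquiv_zmod {G : Type*} [Group G] (n : ℕ) (h : Nat.card G = n)
    (hc : IsCyclic G) : Nonempty (G ≃* Multiplicative (ZMod n)) := by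
  subst h
  exact ⟨(zmodCyclicMulEquiv hc).symm⟩

theorem σ9_ker_card : Nat.card σ9.ker = 3 := by
  have : Fact (Nat.Prime 3) := ⟨by norm_num⟩
  rw [σ9_ker_eq, Nat.card_zpowers]
  exact orderOf_eq_prime (Subtype.ext z0_pow_three)
    (fun h => z0_ne_one (congrArg Subtype.val h))

theorem σ9_ker_iso : Nonempty (σ9.ker ≃* Multiplicative (ZMod 3)) := by
  have : Fact (Nat.Prime 3) := ⟨by norm_num⟩
  exact nonempty_mulEquiv_zmod 3 σ9_ker_card (isCyclic_of_prime_card σ9_ker_card)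


end Cfsg.Agent.Helper65.SL29
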