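import Mathlib
import Cfsg.Prelude.Def_KGroupFacts
import Cfsg.Agent.Helper35.SL2Stem
import Cfsg.Agent.Helper35.StemPairing
import Cfsg.Agent.Helper5.SLCard
import Cfsg.Agent.Helper66.Schur
import Cfsg.Agent.S0016
import Cfsg.Agent.Helper65.SL29Stem

set_option autoImplicit false

/-!
# The Schur multiplier of `SL₂(9)` has order at most three

Every finite stem extension of `SL₂(F)`, `|F| = 9`, has kernel of order dividing `3`; and stem
extensions can be transported along isomorphisms of the base group.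
-/

namespace Cfsg.Agent.Helper65.SL29

open Matrix Cfsg.Agent.Helper65
open scoped commutatorElement

universe u v w

/-- Transport of a finite stem extension along an isomorphism of the base, into any universe. -/
theorem stem_transport {G : Type u} {G' : Type v} [Group G] [Group G'] (e : G ≃* G')
    {Γ : Type w} [Group Γ] [Finite Γ] (σ : Γ →* G) (hσ : Cfsg.IsStemExtension σ)
    {A : Type*} [Group A] (hA : Nonempty (σ.ker ≃* A)) :
    ∃ (Γ' : Type (max v w)) (_ : Group Γ') (_ : Finite Γ') (σ' : Γ' →* G'),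
      Cfsg.IsStemExtension σ' ∧ Nonempty (σ'.ker ≃* A) := by
  obtain ⟨hsurj, hcen, hder⟩ := hσ
  obtain ⟨eA⟩ := hA
  obtain ⟨u, -⟩ : ∃ u : ULift.{v} Γ ≃* Γ, u = MulEquiv.ulift := ⟨_, rfl⟩
  obtain ⟨σ', hσ'⟩ : ∃ σ' : ULift.{v} Γ →* G', σ' = e.toMonoidHom.comp (σ.comp u.toMonoidHom) :=
    ⟨_, rfl⟩
  have hker : ∀ x : ULift.{v} Γ, x ∈ σ'.ker ↔ u x ∈ σ.ker := by
    intro x
    rw [hσ', MonoidHom.mem_ker, MonoidHom.mem_ker]
    show e (σ (u x)) = 1 ↔ σ (u x) = 1
    exact e.map_eq_one_iff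
  refine ⟨ULift.{v} Γ, inferInstance, inferInstance, σ', ⟨?_, ?_, ?_⟩, ?_⟩
  · rw [hσ']
    exact e.surjective.comp (hsurj.comp u.surjective)
  · intro x hx
    have h1 := hcen ((hker x).mp hx)
    rw [Subgroup.mem_center_iff] at h1 ⊢
    intro g
    apply u.injective
    rw [map_mul, map_mul]
    exact h1 (u g)
  · intro x hx
    have h1 := hder ((hker x).mp hx)
    have h2 : (commutator Γ).map u.symm.toMonoidHom = commutator (ULift.{v} Γ) := by
      rw [_root_.commutator_def, _root_.commutator_def, Subgroup.map_commutator,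
        Subgroup.map_top_of_surjective _ u.symm.surjective]
    rw [← h2]
    exact ⟨u x, h1, u.symm_apply_apply x⟩
  · refine ⟨MulEquiv.trans ?_ eA⟩
    exact
      { toFun := fun x => ⟨u x.1, (hker x.1).mp x.2⟩
        invFun := fun y => ⟨u.symm y.1, (hker _).mpr (by rw [u.apply_symm_apply]; exact y.2)⟩
        left_inv := fun x => Subtype.ext (u.symm_apply_apply _)
        right_inv := fun y => Subtype.ext (u.apply_symm_apply _)
        map_mul' := fun x y => Subtype.ext (map_mul u _ _) }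

/-- A ring isomorphism induces an isomorphism of special linear groups. -/
noncomputable def slMapEquiv {R S : Type*} [CommRing R] [CommRing S] (f : R ≃+* S) :
    Matrix.SpecialLinearGroup (Fin 2) R ≃* Matrix.SpecialLinearGroup (Fin 2) S :=
  MonoidHom.toMulEquiv (Matrix.SpecialLinearGroup.map f.toRingHom)
    (Matrix.SpecialLinearGroup.map f.symm.toRingHom)
    (by
      ext g i j
      exact f.symm_apply_apply _)
    (by
      ext g i j
      exact f.apply_symm_apply _)

/-- Cross characteristic: the kernel of a finite stem extension of `SL₂(F)` has no element of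
prime order `ℓ` different from the characteristic. -/
theorem sl2_stem_no_cross {F : Type*} [Field F] [Fintype F] {Γ : Type*} [Group Γ] [Finite Γ]
    (σ : Γ →* Matrix.SpecialLinearGroup (Fin 2) F) (hσ : Cfsg.IsStemExtension σ)
    (ℓ : ℕ) (hℓ : ℓ.Prime) (hℓp : (ℓ : F) ≠ 0) (z : Γ) (hzk : z ∈ σ.ker)
    (hzo : orderOf z = ℓ) : False := by
  classical
  have hℓfact : Fact ℓ.Prime := ⟨hℓ⟩
  have hzp : IsPGroup ℓ (Subgroup.zpowers z) := by
    apply IsPGroup.of_card (n := 1)
    rw [Nat.card_zpowers, hzo, pow_one]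
  obtain ⟨L, hL⟩ := hzp.exists_le_sylow
  have hzL : z ∈ (L : Subgroup Γ) := hL (Subgroup.mem_zpowers z)
  have hst := Cfsg.Agent.Helper35.stem_subgroupMap_sylow σ hσ ℓ L
  have hP : IsPGroup ℓ ((L : Subgroup Γ).map σ) := L.isPGroup'.map σ
  have hker : (σ.subgroupMap (L : Subgroup Γ)).ker = ⊥ := by
    rcases Cfsg.Agent.S0016.result ℓ hP
      (fun H K hH hK => Cfsg.Agent.Helper35.sl2sum_unique_subgroup ℓ hℓp
        ((L : Subgroup Γ).map σ) hP H K hH hK) with hc | ⟨_, n, ⟨e⟩⟩
    · exact Cfsg.Agent.Helper35.stem_ker_eq_bot_of_isCyclic _ hst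
    · exact Cfsg.Agent.Helper35.stem_ker_eq_bot_of_quaternion _ hst (2 ^ n) e
  have hz1 : (⟨z, hzL⟩ : (L : Subgroup Γ)) ∈ (σ.subgroupMap (L : Subgroup Γ)).ker := by
    rw [MonoidHom.mem_ker]
    apply Subtype.ext
    exact MonoidHom.mem_ker.mp hzk
  rw [hker, Subgroup.mem_bot] at hz1
  have hz2 : z = 1 := congrArg Subtype.val hz1
  rw [hz2, orderOf_one] at hzo
  exact hℓ.one_lt.ne hzo

theorem sl2u_nsmul' {F : Type*} [Field F] (n : ℕ) (a : F) :
    Cfsg.Agent.Helper35.sl2u (n • a) = Cfsg.Agent.Helper35.sl2u a ^ n := by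
  induction n with
  | zero => rw [zero_smul, Cfsg.Agent.Helper35.sl2u_zero, pow_zero]
  | succ n ih => rw [succ_nsmul, Cfsg.Agent.Helper35.sl2u_add, ih, pow_succ]

/-- The kernel of a finite stem extension of `SL₂(F)`, `|F| = 9`, has order dividing `3`. -/
theorem sl2_nine_ker_card_dvd {F : Type*} [Field F] [Fintype F] (hF : Fintype.card F = 9)
    {Γ : Type*} [Group Γ] [Finite Γ]
    (σ : Γ →* Matrix.SpecialLinearGroup (Fin 2) F) (hσ : Cfsg.IsStemExtension σ) :
    Nat.card σ.ker ∣ 3 := by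
  classical
  have hσ0 := hσ
  obtain ⟨hsurj, hcen, hder⟩ := hσ
  -- characteristic 3
  have hchar : CharP F 3 := by
    obtain ⟨p, hp⟩ := CharP.exists F
    obtain ⟨n, hpp, hcard⟩ := FiniteField.card F p
    rw [hF] at hcard
    have h3 : p ∣ 3 ^ 2 := by
      rw [show 3 ^ 2 = 9 by norm_num, hcard]
      exact dvd_pow_self p n.ne_zero
    have h4 : p = 3 :=
      (Nat.prime_dvd_prime_iff_eq hpp (by norm_num)).mp (hpp.dvd_of_dvd_pow h3)
    rw [← h4]
    exact hp
  -- a basis over the prime field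
  obtain ⟨e0, e1, hspan⟩ : ∃ e0 e1 : F, ∀ a : F, ∃ m n : ℕ, a = m • e0 + n • e1 := by
    have f : F9 ≃+* F := FiniteField.ringEquivOfCardEq (by rw [F9.card_eq, hF])
    refine ⟨f 1, f F9.i, fun a => ⟨(f.symm a).re.val, (f.symm a).im.val, ?_⟩⟩
    have h := congrArg f (F9_decomp (f.symm a))
    rw [f.apply_symm_apply, map_add, map_nsmul, map_nsmul] at h
    exact h
  -- lifts
  obtain ⟨A, hA⟩ := hsurj (Cfsg.Agent.Helper35.sl2u e0)
  obtain ⟨B, hB⟩ := hsurj (Cfsg.Agent.Helper35.sl2u e1)
  obtain ⟨c, hc⟩ : ∃ c : Γ, c = ⁅A, B⁆ := ⟨_, rfl⟩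
  have hkc : ∀ k ∈ σ.ker, ∀ g : Γ, g * k = k * g := fun k hk g =>
    Subgroup.mem_center_iff.mp (hcen hk) g
  have hck : c ∈ σ.ker := by
    rw [hc, MonoidHom.mem_ker, map_commutatorElement, hA, hB,
      commutatorElement_eq_one_iff_mul_comm, ← Cfsg.Agent.Helper35.sl2u_add,
      ← Cfsg.Agent.Helper35.sl2u_add, add_comm]
  have hcc : ∀ g, g * c = c * g := hkc c hck
  -- c ^ 3 = 1
  have hc3 : c ^ 3 = 1 := by
    have hA3 : A * (A * A) ∈ σ.ker := by
      rw [MonoidHom.mem_ker, map_mul, map_mul, hA, ← Cfsg.Agent.Helper35.sl2u_add,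
        ← Cfsg.Agent.Helper35.sl2u_add]
      have h0 : e0 + (e0 + e0) = 0 := by
        have h3 : (3 : F) = 0 := by
          have := CharP.cast_eq_zero F 3
          exact_mod_cast this
        linear_combination e0 * h3
      rw [h0, Cfsg.Agent.Helper35.sl2u_zero]
    have h1 : ⁅A * A, B⁆ = c * c := by
      rw [Cfsg.Agent.Helper35.stemp_comm_mul_left A A B (by rw [← hc]; exact hcc A), ← hc]
    have h2 : ⁅A * (A * A), B⁆ = c * c * c := by
      rw [Cfsg.Agent.Helper35.stemp_comm_mul_left A (A * A) B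
        (by rw [h1, ← mul_assoc, hcc A, mul_assoc, hcc A, mul_assoc]), h1, ← hc]
    have h3 : ⁅A * (A * A), B⁆ = 1 := by
      rw [commutatorElement_eq_one_iff_mul_comm]
      exact (hkc _ hA3 B).symm
    rw [pow_succ, pow_two, ← h2, h3]
  -- the quotient by ⟨c⟩
  have hN : (Subgroup.zpowers c).Normal := by
    refine ⟨fun n hn g => ?_⟩
    have hnk : n ∈ σ.ker := by
      obtain ⟨k, rfl⟩ := hn
      exact zpow_mem hck k
    rw [hkc n hnk g, mul_inv_cancel_right]
    exact hn
  obtain ⟨π, hπ⟩ : ∃ π : Γ →* Γ ⧸ Subgroup.zpowers c, π = QuotientGroup.mk' (Subgroup.zpowers c) :=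
    ⟨_, rfl⟩
  have hπ1 : ∀ x : Γ, π x = 1 ↔ x ∈ Subgroup.zpowers c := by
    intro x
    rw [hπ]
    exact QuotientGroup.eq_one_iff x
  obtain ⟨T, hT⟩ : ∃ T : Set Γ, T = {A, B} ∪ (σ.ker : Set Γ) := ⟨_, rfl⟩
  have hAB : Commute (π A) (π B) := by
    show π A * π B = π B * π A
    have h1 : A * B = c * (B * A) := by
      rw [hc, commutatorElement_def]
      group
    rw [← map_mul, ← map_mul, h1, map_mul, (hπ1 c).mpr (Subgroup.mem_zpowers c), one_mul]
  have hTc : ∀ x ∈ T, ∀ y ∈ T, Commute (π x) (π y) := by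
    intro x hx y hy
    rw [hT] at hx hy
    rcases hx with (rfl | rfl) | hx
    · rcases hy with (rfl | rfl) | hy
      · exact Commute.refl _
      · exact hAB
      · exact Commute.map (hkc y hy x) π
    · rcases hy with (rfl | rfl) | hy
      · exact hAB.symm
      · exact Commute.refl _
      · exact Commute.map (hkc y hy x) π
    · exact Commute.map (hkc x hx y).symm π
  have hU : ∀ x : Γ, σ x ∈ Cfsg.Agent.Helper35.sl2U F → x ∈ Subgroup.closure T := by
    rintro x ⟨a, ha⟩
    obtain ⟨m, n, rfl⟩ := hspan a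
    have h1 : σ (A ^ m * B ^ n) = σ x := by
      rw [map_mul, map_pow, map_pow, hA, hB, ← sl2u_nsmul', ← sl2u_nsmul',
        ← Cfsg.Agent.Helper35.sl2u_add, ha]
    obtain ⟨k, hk, rfl⟩ := Cfsg.Agent.Helper35.stemp_exists_ker σ _ _ h1
    have hAT : A ∈ T := by rw [hT]; simp
    have hBT : B ∈ T := by rw [hT]; simp
    have hkT : k ∈ T := by rw [hT]; exact Or.inr hk
    exact mul_mem (mul_mem (pow_mem (Subgroup.subset_closure hAT) _)
      (pow_mem (Subgroup.subset_closure hBT) _)) (Subgroup.subset_closure hkT)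
  have hcl : ∀ x y : Γ, x ∈ Subgroup.closure T → y ∈ Subgroup.closure T →
      Commute (π x) (π y) := by
    intro x y hx hy
    induction hx, hy using Subgroup.closure_induction₂ with
    | mem x y hx hy => exact hTc x hx y hy
    | one_left x hx => rw [map_one]; exact Commute.one_left _
    | one_right x hx => rw [map_one]; exact Commute.one_right _
    | mul_left x y z _ _ _ h1 h2 => rw [map_mul]; exact Commute.mul_left h1 h2
    | mul_right y z x _ _ _ h1 h2 => rw [map_mul]; exact Commute.mul_right h1 h2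
    | inv_left x y _ _ h => rw [map_inv]; exact Commute.inv_left h
    | inv_right x y _ _ h => rw [map_inv]; exact Commute.inv_right h
  have hcommU : ∀ x y : Γ, σ x ∈ Cfsg.Agent.Helper35.sl2U F →
      σ y ∈ Cfsg.Agent.Helper35.sl2U F → ⁅x, y⁆ ∈ Subgroup.zpowers c := by
    intro x y hx hy
    rw [← hπ1, map_commutatorElement, commutatorElement_eq_one_iff_commute]
    exact hcl x y (hU x hx) (hU y hy)
  -- the index of the preimage of the unipotent subgroup
  have hidx : ((Cfsg.Agent.Helper35.sl2U F).comap σ).index = 80 := by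
    rw [Subgroup.index_comap_of_surjective _ hsurj]
    have hidx := Subgroup.index_mul_card (Cfsg.Agent.Helper35.sl2U F)
    rw [Cfsg.Agent.Helper35.card_sl2U, Cfsg.Agent.Helper5.card_SL2, Nat.card_eq_fintype_card,
      hF] at hidx
    omega
  -- the kernel lies in ⟨c⟩
  have hkerN : σ.ker ≤ Subgroup.zpowers c := by
    intro z hz
    obtain ⟨h, hmem⟩ := Cfsg.Agent.Helper35.stem_pow_index_mem_commutator
      ((Cfsg.Agent.Helper35.sl2U F).comap σ) z (hcen hz) (hder hz)
    have h1 : commutator ((Cfsg.Agent.Helper35.sl2U F).comap σ) ≤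
        (Subgroup.zpowers c).comap ((Cfsg.Agent.Helper35.sl2U F).comap σ).subtype := by
      rw [_root_.commutator_def, Subgroup.commutator_le]
      intro a _ b _
      exact hcommU a.1 b.1 a.2 b.2
    have h2 : z ^ 80 ∈ Subgroup.zpowers c := by
      have h2' : z ^ ((Cfsg.Agent.Helper35.sl2U F).comap σ).index ∈ Subgroup.zpowers c :=
        h1 hmem
      rw [hidx] at h2'
      exact h2'
    have hcop : Nat.Coprime 80 (orderOf z) := by
      apply Nat.coprime_of_dvd
      intro k hk hk80 hkz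
      have hzpos : orderOf z ≠ 0 := (orderOf_pos z).ne'
      have ho := orderOf_pow_orderOf_div hzpos hkz
      have hmemk : z ^ (orderOf z / k) ∈ σ.ker := pow_mem hz _
      have hk0 : (k : F) = 0 := by
        by_contra hk0
        exact sl2_stem_no_cross σ hσ0 k hk hk0 _ hmemk ho
      have h3k : 3 ∣ k := (CharP.cast_eq_zero_iff F 3 k).mp hk0
      have h380 : 3 ∣ 80 := h3k.trans hk80
      omega
    obtain ⟨m, hm⟩ := exists_pow_eq_self_of_coprime hcop
    rw [← hm]
    exact pow_mem h2 m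
  have h1 := Subgroup.card_dvd_of_le hkerN
  rw [Nat.card_zpowers] at h1
  exact h1.trans (orderOf_dvd_of_pow_eq_one hc3)

end Cfsg.Agent.Helper65.SL29
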