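import Mathlib
import Cfsg.Agent.Helper65.SUGDefs

set_option autoImplicit false

namespace Cfsg.Agent.Helper65

open Matrix
open Cfsg.Agent.Helper5 (frobQ frobQ_apply frobQ_frobQ)
open Cfsg.Agent.Helper13

variable {F : Type*} [Field F] [Fintype F] {q n : ℕ}

/-- STEP: from full on `k` coordinates to full on `k + 1` coordinates. -/
theorem sug_step (hF : Fintype.card F = q ^ 2) (k : ℕ) (hk : k < n) (Φ : Set (Fin n → F))
    (hΦ : SugClosed hF Φ) (hfull : SugFull q Φ k)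
    (hrtl : ∀ x y z : Fin n → F, (∀ i : Fin n, k ≤ i.val → x i = 0) →
      (∀ i : Fin n, k ≤ i.val → y i = 0) → (∀ i : Fin n, i.val < k → z i = 0) →
      Cfsg.hermForm n F q x x = Cfsg.hermForm n F q y y → Cfsg.hermForm n F q x x ≠ 0 →
      y + z ∈ Φ → x + z ∈ Φ)
    (u : Fin n → F) (hu : u ∈ Φ) (hus : ∀ i : Fin n, k < i.val → u i = 0)
    (huk : u ⟨k, hk⟩ ≠ 0) : SugFull q Φ (k + 1) := by
  intro v hv0 hv hvs
  by_cases hvk : v ⟨k, hk⟩ = 0
  · refine hfull v hv0 hv (fun i hi => ?_)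
    rcases Nat.eq_or_lt_of_le hi with h | h
    · have : i = ⟨k, hk⟩ := Fin.ext h.symm
      rw [this]; exact hvk
    · exact hvs i (by omega)
  · have key : ∀ a : Fin n → F, (∀ i : Fin n, k < i.val → a i = 0) →
        (∀ i : Fin n, k ≤ i.val → (a - a ⟨k, hk⟩ • sugE F n k) i = 0) ∧
        Cfsg.hermForm n F q (a - a ⟨k, hk⟩ • sugE F n k) (a - a ⟨k, hk⟩ • sugE F n k)
          = Cfsg.hermForm n F q a a - a ⟨k, hk⟩ * frobQ hF (a ⟨k, hk⟩) := by
      intro a ha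
      constructor
      · intro i hi
        rw [Pi.sub_apply, Pi.smul_apply, sugE_apply, smul_eq_mul]
        rcases Nat.eq_or_lt_of_le hi with h | h
        · have : i = ⟨k, hk⟩ := Fin.ext h.symm
          rw [this]; simp
        · rw [ha i h, if_neg (by omega)]; simp
      · have hzero : (a - a ⟨k, hk⟩ • sugE F n k) ⟨k, hk⟩ = 0 := by
          simp [sugE_apply]
        simp only [uh_sub_left, uh_sub_right hF, uh_smul_left, uh_smul_right hF,
          sug_herm_E_right hF _ k hk, sug_herm_E_left hF _ k hk]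
        rw [hzero]
        simp
    have hl0 : v ⟨k, hk⟩ / u ⟨k, hk⟩ ≠ 0 := div_ne_zero hvk huk
    have hu' : (v ⟨k, hk⟩ / u ⟨k, hk⟩) • u ∈ Φ := hΦ.smul u hu _ hl0
    have hu'k : ((v ⟨k, hk⟩ / u ⟨k, hk⟩) • u) ⟨k, hk⟩ = v ⟨k, hk⟩ := by
      rw [Pi.smul_apply, smul_eq_mul, div_mul_cancel₀ _ huk]
    have hu's : ∀ i : Fin n, k < i.val → ((v ⟨k, hk⟩ / u ⟨k, hk⟩) • u) i = 0 := by
      intro i hi; rw [Pi.smul_apply, hus i hi, smul_zero]
    obtain ⟨kx1, kx2⟩ := key v (fun i hi => hvs i (by omega))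
    obtain ⟨ky1, ky2⟩ := key ((v ⟨k, hk⟩ / u ⟨k, hk⟩) • u) hu's
    rw [hu'k] at ky1 ky2
    have hNv : v ⟨k, hk⟩ * frobQ hF (v ⟨k, hk⟩) ≠ 0 :=
      mul_ne_zero hvk (fun h => hvk ((ufrob_eq_zero hF).1 h))
    have hz : ∀ i : Fin n, i.val < k → (v ⟨k, hk⟩ • sugE F n k) i = 0 := by
      intro i hi
      rw [Pi.smul_apply, sugE_apply, if_neg (by omega), smul_zero]
    have := hrtl _ _ _ kx1 ky1 hz (by rw [kx2, ky2, hv, (hΦ.iso _ hu').2])
      (by rw [kx2, hv, zero_sub]; exact neg_ne_zero.2 hNv)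
      (by rw [sub_add_cancel]; exact hu')
    rwa [sub_add_cancel] at this

end Cfsg.Agent.Helper65
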