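import Mathlib
import Cfsg.Agent.Helper65.SUGDefs

set_option autoImplicit false

namespace Cfsg.Agent.Helper65

open Matrix
open Cfsg.Agent.Helper5 (frobQ frobQ_apply frobQ_frobQ)
open Cfsg.Agent.Helper13
open Cfsg.Agent.Helper44.PSUn

variable {F : Type*} [Field F] [Fintype F] {q n : ℕ}

/-- TOR: the torus element. -/
theorem sug_torus4 (hF : Fintype.card F = q ^ 2) (hn : 4 ≤ n) (mu mu' lam xi : F)
    (hmu : mu * frobQ hF mu = -1) (hmu' : mu' * frobQ hF mu' = -1) (hne : mu ≠ mu')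
    (hlam : lam ≠ 0) (hxi : xi * frobQ hF xi = 1) (hdet : xi ^ 2 * lam = frobQ hF lam) :
    ∃ g : ↥(Cfsg.SU n F q),
      uact g (sugE F n 0) = xi • sugE F n 0 ∧ uact g (sugE F n 1) = xi • sugE F n 1 ∧
      uact g (sugE F n 2 + mu • sugE F n 3) = lam • (sugE F n 2 + mu • sugE F n 3) ∧
      uact g (sugE F n 2 + mu' • sugE F n 3)
        = (frobQ hF lam)⁻¹ • (sugE F n 2 + mu' • sugE F n 3) ∧
      ∀ i : ℕ, 4 ≤ i → uact g (sugE F n i) = sugE F n i := by
  classical
  have hfz : ∀ x : F, x ≠ 0 → frobQ hF x ≠ 0 := fun x hx h => hx ((ufrob_eq_zero hF).1 h)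
  have hEE := fun (i j : ℕ) (hi : i < n) (hj : j < n) => sug_herm_EE (F := F) hF i j hi hj
  have e00 := hEE 0 0 (by omega) (by omega)
  have e01 := hEE 0 1 (by omega) (by omega)
  have e02 := hEE 0 2 (by omega) (by omega)
  have e03 := hEE 0 3 (by omega) (by omega)
  have e10 := hEE 1 0 (by omega) (by omega)
  have e11 := hEE 1 1 (by omega) (by omega)
  have e12 := hEE 1 2 (by omega) (by omega)
  have e13 := hEE 1 3 (by omega) (by omega)
  have e20 := hEE 2 0 (by omega) (by omega)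
  have e21 := hEE 2 1 (by omega) (by omega)
  have e22 := hEE 2 2 (by omega) (by omega)
  have e23 := hEE 2 3 (by omega) (by omega)
  have e30 := hEE 3 0 (by omega) (by omega)
  have e31 := hEE 3 1 (by omega) (by omega)
  have e32 := hEE 3 2 (by omega) (by omega)
  have e33 := hEE 3 3 (by omega) (by omega)
  norm_num at e00 e01 e02 e03 e10 e11 e12 e13 e20 e21 e22 e23 e30 e31 e32 e33
  -- the hyperbolic pair
  have hh0 : (1 : F) + mu * frobQ hF mu' ≠ 0 := by
    intro h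
    apply hne
    have h1 : frobQ hF mu = frobQ hF mu' := by
      linear_combination (frobQ hF mu) * h - (frobQ hF mu') * hmu
    have := congrArg (frobQ hF) h1
    rwa [frobQ_frobQ, frobQ_frobQ] at this
  obtain ⟨h, hhdef⟩ : ∃ h : F, h = 1 + mu * frobQ hF mu' := ⟨_, rfl⟩
  have hh : h ≠ 0 := by rw [hhdef]; exact hh0
  have hfh : frobQ hF h ≠ 0 := hfz h hh
  have hfl : frobQ hF lam ≠ 0 := hfz lam hlam
  have hfrobh : frobQ hF h = 1 + frobQ hF mu * mu' := by
    rw [hhdef, map_add, map_one, map_mul, frobQ_frobQ]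
  obtain ⟨a0, ha0⟩ : ∃ v : Fin n → F, v = sugE F n 0 := ⟨_, rfl⟩
  obtain ⟨a1, ha1⟩ : ∃ v : Fin n → F, v = sugE F n 1 := ⟨_, rfl⟩
  obtain ⟨e', he'⟩ : ∃ v : Fin n → F, v = sugE F n 2 + mu • sugE F n 3 := ⟨_, rfl⟩
  obtain ⟨f', hf'⟩ : ∃ v : Fin n → F, v = sugE F n 2 + mu' • sugE F n 3 := ⟨_, rfl⟩
  have c00 : Cfsg.hermForm n F q a0 a0 = 1 := by rw [ha0]; exact e00
  have c11 : Cfsg.hermForm n F q a1 a1 = 1 := by rw [ha1]; exact e11
  have c01 : Cfsg.hermForm n F q a0 a1 = 0 := by rw [ha0, ha1]; exact e01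
  have c10 : Cfsg.hermForm n F q a1 a0 = 0 := by rw [ha0, ha1]; exact e10
  have c0e : Cfsg.hermForm n F q a0 e' = 0 := by
    rw [ha0, he', uh_add_right hF, uh_smul_right hF, e02, e03]; ring
  have c0f : Cfsg.hermForm n F q a0 f' = 0 := by
    rw [ha0, hf', uh_add_right hF, uh_smul_right hF, e02, e03]; ring
  have c1e : Cfsg.hermForm n F q a1 e' = 0 := by
    rw [ha1, he', uh_add_right hF, uh_smul_right hF, e12, e13]; ring
  have c1f : Cfsg.hermForm n F q a1 f' = 0 := by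
    rw [ha1, hf', uh_add_right hF, uh_smul_right hF, e12, e13]; ring
  have ce0 : Cfsg.hermForm n F q e' a0 = 0 := by
    rw [ha0, he', uh_add_left, uh_smul_left, e20, e30]; ring
  have cf0 : Cfsg.hermForm n F q f' a0 = 0 := by
    rw [ha0, hf', uh_add_left, uh_smul_left, e20, e30]; ring
  have ce1 : Cfsg.hermForm n F q e' a1 = 0 := by
    rw [ha1, he', uh_add_left, uh_smul_left, e21, e31]; ring
  have cf1 : Cfsg.hermForm n F q f' a1 = 0 := by
    rw [ha1, hf', uh_add_left, uh_smul_left, e21, e31]; ring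
  have cee : Cfsg.hermForm n F q e' e' = 0 := by
    rw [he']
    simp only [uh_add_left, uh_add_right hF, uh_smul_left, uh_smul_right hF, e22, e23, e32, e33]
    linear_combination hmu
  have cff : Cfsg.hermForm n F q f' f' = 0 := by
    rw [hf']
    simp only [uh_add_left, uh_add_right hF, uh_smul_left, uh_smul_right hF, e22, e23, e32, e33]
    linear_combination hmu'
  have cef : Cfsg.hermForm n F q e' f' = h := by
    rw [he', hf', hhdef]
    simp only [uh_add_left, uh_add_right hF, uh_smul_left, uh_smul_right hF, e22, e23, e32, e33]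
    ring
  have cfe : Cfsg.hermForm n F q f' e' = frobQ hF h := by
    rw [← cef, uh_conj hF]
  -- the scaled partner
  obtain ⟨f2, hf2⟩ : ∃ v : Fin n → F, v = (frobQ hF h)⁻¹ • f' := ⟨_, rfl⟩
  have hinv : frobQ hF ((frobQ hF h)⁻¹) = h⁻¹ := by rw [map_inv₀, frobQ_frobQ]
  have cef2 : Cfsg.hermForm n F q e' f2 = 1 := by
    rw [hf2, uh_smul_right hF, cef, hinv, inv_mul_cancel₀ hh]
  have cf2e : Cfsg.hermForm n F q f2 e' = 1 := by
    rw [hf2, uh_smul_left, cfe, inv_mul_cancel₀ hfh]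
  have cf2f2 : Cfsg.hermForm n F q f2 f2 = 0 := by
    rw [hf2, uh_smul_left, uh_smul_right hF, cff]; ring
  have c0f2 : Cfsg.hermForm n F q a0 f2 = 0 := by rw [hf2, uh_smul_right hF, c0f]; ring
  have c1f2 : Cfsg.hermForm n F q a1 f2 = 0 := by rw [hf2, uh_smul_right hF, c1f]; ring
  have cf20 : Cfsg.hermForm n F q f2 a0 = 0 := by rw [hf2, uh_smul_left, cf0]; ring
  have cf21 : Cfsg.hermForm n F q f2 a1 = 0 := by rw [hf2, uh_smul_left, cf1]; ring
  have hlm : lam * frobQ hF ((frobQ hF lam)⁻¹) = 1 := by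
    rw [map_inv₀, frobQ_frobQ, mul_inv_cancel₀ hlam]
  -- the matrix
  have hdetA : (dilM q a0 xi * dilM q a1 xi * rotM q e' f2 lam (frobQ hF lam)⁻¹).det = 1 := by
    rw [Matrix.det_mul, Matrix.det_mul, dilM_det a0 xi c00, dilM_det a1 xi c11,
      rotM_det hF e' f2 lam _ cef2]
    field_simp
    linear_combination hdet
  have hisoA : ∀ x y : Fin n → F,
      Cfsg.hermForm n F q ((dilM q a0 xi * dilM q a1 xi * rotM q e' f2 lam (frobQ hF lam)⁻¹) *ᵥ x)
        ((dilM q a0 xi * dilM q a1 xi * rotM q e' f2 lam (frobQ hF lam)⁻¹) *ᵥ y)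
        = Cfsg.hermForm n F q x y := by
    intro x y
    rw [← Matrix.mulVec_mulVec, ← Matrix.mulVec_mulVec, ← Matrix.mulVec_mulVec,
      ← Matrix.mulVec_mulVec, dilM_iso hF a0 xi c00 hxi, dilM_iso hF a1 xi c11 hxi,
      rotM_iso hF e' f2 lam _ cee cf2f2 cef2 hlm]
  have hact : ∀ x : Fin n → F,
      uact (mkSU _ hdetA hisoA) x
        = dilM q a0 xi *ᵥ (dilM q a1 xi *ᵥ (rotM q e' f2 lam (frobQ hF lam)⁻¹ *ᵥ x)) := by
    intro x
    rw [uact_mkSU, ← Matrix.mulVec_mulVec, ← Matrix.mulVec_mulVec]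
  have hD0 : ∀ x : Fin n → F, dilM q a0 xi *ᵥ x
      = x + ((xi - 1) * Cfsg.hermForm n F q x a0) • a0 := dilM_mulVec a0 xi
  have hD1 : ∀ x : Fin n → F, dilM q a1 xi *ᵥ x
      = x + ((xi - 1) * Cfsg.hermForm n F q x a1) • a1 := dilM_mulVec a1 xi
  have hR : ∀ x : Fin n → F, rotM q e' f2 lam (frobQ hF lam)⁻¹ *ᵥ x
      = x + (((frobQ hF lam)⁻¹ - 1) * Cfsg.hermForm n F q x e') • f2
        + ((lam - 1) * Cfsg.hermForm n F q x f2) • e' := rotM_mulVec e' f2 lam _ cf2f2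
  have hsm : ∀ (c : F) (v : Fin n → F), v + (c - 1) • v = c • v := by
    intro c v
    nth_rewrite 1 [← one_smul F v]
    rw [← add_smul]; congr 1; ring
  refine ⟨mkSU _ hdetA hisoA, ?_, ?_, ?_, ?_, ?_⟩
  · have r : rotM q e' f2 lam (frobQ hF lam)⁻¹ *ᵥ a0 = a0 := by
      rw [hR, c0e, c0f2]; simp
    have d1 : dilM q a1 xi *ᵥ a0 = a0 := by rw [hD1, c01]; simp
    have d0 : dilM q a0 xi *ᵥ a0 = xi • a0 := by rw [hD0, c00, mul_one, hsm]
    rw [hact, ← ha0, r, d1, d0]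
  · have r : rotM q e' f2 lam (frobQ hF lam)⁻¹ *ᵥ a1 = a1 := by
      rw [hR, c1e, c1f2]; simp
    have d1 : dilM q a1 xi *ᵥ a1 = xi • a1 := by rw [hD1, c11, mul_one, hsm]
    have d0 : dilM q a0 xi *ᵥ (xi • a1) = xi • a1 := by
      rw [hD0, uh_smul_left, c10]; simp
    rw [hact, ← ha1, r, d1, d0]
  · have r : rotM q e' f2 lam (frobQ hF lam)⁻¹ *ᵥ e' = lam • e' := by
      rw [hR, cee, cef2, mul_zero, zero_smul, add_zero, mul_one, hsm]
    have d1 : dilM q a1 xi *ᵥ (lam • e') = lam • e' := by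
      rw [hD1, uh_smul_left, ce1]; simp
    have d0 : dilM q a0 xi *ᵥ (lam • e') = lam • e' := by
      rw [hD0, uh_smul_left, ce0]; simp
    rw [hact, ← he', r, d1, d0]
  · have hff2 : Cfsg.hermForm n F q f' f2 = 0 := by rw [hf2, uh_smul_right hF, cff]; ring
    have r : rotM q e' f2 lam (frobQ hF lam)⁻¹ *ᵥ f' = (frobQ hF lam)⁻¹ • f' := by
      rw [hR, cfe, hff2, mul_zero, zero_smul, add_zero, hf2, smul_smul]
      have : ((frobQ hF lam)⁻¹ - 1) * frobQ hF h * (frobQ hF h)⁻¹ = (frobQ hF lam)⁻¹ - 1 := by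
        field_simp
      rw [this, hsm]
    have d1 : dilM q a1 xi *ᵥ ((frobQ hF lam)⁻¹ • f') = (frobQ hF lam)⁻¹ • f' := by
      rw [hD1, uh_smul_left, cf1]; simp
    have d0 : dilM q a0 xi *ᵥ ((frobQ hF lam)⁻¹ • f') = (frobQ hF lam)⁻¹ • f' := by
      rw [hD0, uh_smul_left, cf0]; simp
    rw [hact, ← hf', r, d1, d0]
  · intro i hi
    by_cases hin : i < n
    · have d0 := hEE i 0 hin (by omega)
      have d1 := hEE i 1 hin (by omega)
      have d2 := hEE i 2 hin (by omega)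
      have d3 := hEE i 3 hin (by omega)
      rw [if_neg (by omega)] at d0 d1 d2 d3
      have die : Cfsg.hermForm n F q (sugE F n i) e' = 0 := by
        rw [he', uh_add_right hF, uh_smul_right hF, d2, d3]; ring
      have dif' : Cfsg.hermForm n F q (sugE F n i) f2 = 0 := by
        rw [hf2, hf', uh_smul_right hF, uh_add_right hF, uh_smul_right hF, d2, d3]; ring
      have r : rotM q e' f2 lam (frobQ hF lam)⁻¹ *ᵥ (sugE F n i) = sugE F n i := by
        rw [hR, die, dif']; simp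
      have dd1 : dilM q a1 xi *ᵥ (sugE F n i) = sugE F n i := by
        rw [hD1, ha1, d1]; simp
      have dd0 : dilM q a0 xi *ᵥ (sugE F n i) = sugE F n i := by
        rw [hD0, ha0, d0]; simp
      rw [hact, r, dd1, dd0]
    · have hz : sugE F n i = 0 := by
        funext j
        rw [sugE_apply, if_neg (by have := j.isLt; omega)]; rfl
      rw [hz, uact_zero]

end Cfsg.Agent.Helper65
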