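import Mathlib
import Cfsg.Agent.Helper65.SUGDefs

set_option autoImplicit false

namespace Cfsg.Agent.Helper65

open Matrix
open Cfsg.Agent.Helper5 (frobQ frobQ_apply frobQ_frobQ)
open Cfsg.Agent.Helper13

variable {F : Type*} [Field F] [Fintype F] {q n : ℕ}

/-- TPOW: a power of the torus element that is scalar on the second plane. -/
theorem sug_torus_pow (hF : Fintype.card F = q ^ 2) (mu mu' lam : F) (hne : mu ≠ mu')
    (hlam : lam ≠ 0) (g : ↥(Cfsg.SU n F q))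
    (h2 : uact g (sugE F n 2 + mu • sugE F n 3) = lam • (sugE F n 2 + mu • sugE F n 3))
    (h3 : uact g (sugE F n 2 + mu' • sugE F n 3)
      = (frobQ hF lam)⁻¹ • (sugE F n 2 + mu' • sugE F n 3))
    (j : ℕ) (hj : lam ^ j * frobQ hF (lam ^ j) = 1) :
    uact (g ^ j) (sugE F n 2) = lam ^ j • sugE F n 2 := by
  have p2 := sug_pow_eig g _ lam h2 j
  have p3 := sug_pow_eig g _ _ h3 j
  have hinv : ((frobQ hF lam)⁻¹) ^ j = lam ^ j := by
    rw [inv_pow, ← map_pow]
    exact inv_eq_of_mul_eq_one_left hj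
  rw [hinv] at p3
  have hd : mu' - mu ≠ 0 := sub_ne_zero.2 (Ne.symm hne)
  have hdecomp : sugE F n 2 = (mu' - mu)⁻¹ • (mu' • (sugE F n 2 + mu • sugE F n 3)
      - mu • (sugE F n 2 + mu' • sugE F n 3)) := by
    rw [smul_add, smul_add, smul_smul, smul_smul, mul_comm mu' mu, add_sub_add_right_eq_sub,
      ← sub_smul, smul_smul, inv_mul_cancel₀ hd, one_smul]
  have key : uact (g ^ j) ((mu' - mu)⁻¹ • (mu' • (sugE F n 2 + mu • sugE F n 3)
      - mu • (sugE F n 2 + mu' • sugE F n 3)))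
      = lam ^ j • ((mu' - mu)⁻¹ • (mu' • (sugE F n 2 + mu • sugE F n 3)
      - mu • (sugE F n 2 + mu' • sugE F n 3))) := by
    rw [uact_smul, uact_sub, uact_smul, uact_smul, p2, p3, smul_comm mu' (lam ^ j),
      smul_comm mu (lam ^ j), ← smul_sub, smul_comm]
  rw [← hdecomp] at key
  exact key

/-- TORD: the torus element has order dividing `q ^ 2 - 1`. -/
theorem sug_torus_order (hF : Fintype.card F = q ^ 2) (hn : 4 ≤ n) (mu mu' lam xi : F)
    (hne : mu ≠ mu') (hlam : lam ≠ 0) (hxi : xi ≠ 0) (g : ↥(Cfsg.SU n F q))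
    (h0 : uact g (sugE F n 0) = xi • sugE F n 0) (h1 : uact g (sugE F n 1) = xi • sugE F n 1)
    (h2 : uact g (sugE F n 2 + mu • sugE F n 3) = lam • (sugE F n 2 + mu • sugE F n 3))
    (h3 : uact g (sugE F n 2 + mu' • sugE F n 3)
      = (frobQ hF lam)⁻¹ • (sugE F n 2 + mu' • sugE F n 3))
    (h4 : ∀ i : ℕ, 4 ≤ i → uact g (sugE F n i) = sugE F n i) : g ^ (q ^ 2 - 1) = 1 := by
  have hpow : ∀ l : F, l ≠ 0 → l ^ (q ^ 2 - 1) = 1 := by
    intro l hl; rw [← hF]; exact FiniteField.pow_card_sub_one_eq_one l hl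
  have hfl : frobQ hF lam ≠ 0 := fun h => hlam ((ufrob_eq_zero hF).1 h)
  have p0 := sug_pow_eig g _ xi h0 (q ^ 2 - 1)
  rw [hpow xi hxi, one_smul] at p0
  have p1 := sug_pow_eig g _ xi h1 (q ^ 2 - 1)
  rw [hpow xi hxi, one_smul] at p1
  have p2 := sug_pow_eig g _ lam h2 (q ^ 2 - 1)
  rw [hpow lam hlam, one_smul] at p2
  have p3 := sug_pow_eig g _ _ h3 (q ^ 2 - 1)
  rw [hpow _ (inv_ne_zero hfl), one_smul] at p3
  have hd : mu - mu' ≠ 0 := sub_ne_zero.2 hne
  have q3 : uact (g ^ (q ^ 2 - 1)) (sugE F n 3) = sugE F n 3 := by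
    have hdec : sugE F n 3 = (mu - mu')⁻¹ • ((sugE F n 2 + mu • sugE F n 3)
        - (sugE F n 2 + mu' • sugE F n 3)) := by
      rw [add_sub_add_left_eq_sub, ← sub_smul, smul_smul, inv_mul_cancel₀ hd, one_smul]
    have key : uact (g ^ (q ^ 2 - 1)) ((mu - mu')⁻¹ • ((sugE F n 2 + mu • sugE F n 3)
        - (sugE F n 2 + mu' • sugE F n 3))) = (mu - mu')⁻¹ • ((sugE F n 2 + mu • sugE F n 3)
        - (sugE F n 2 + mu' • sugE F n 3)) := by
      rw [uact_smul, uact_sub, p2, p3]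
    rw [← hdec] at key
    exact key
  have q2 : uact (g ^ (q ^ 2 - 1)) (sugE F n 2) = sugE F n 2 := by
    have hdec : sugE F n 2 = (sugE F n 2 + mu • sugE F n 3) - mu • sugE F n 3 := by
      rw [add_sub_cancel_right]
    have key : uact (g ^ (q ^ 2 - 1)) ((sugE F n 2 + mu • sugE F n 3) - mu • sugE F n 3)
        = (sugE F n 2 + mu • sugE F n 3) - mu • sugE F n 3 := by
      rw [uact_sub, uact_smul, p2, q3]
    rw [← hdec] at key
    exact key
  apply uact_ext
  intro i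
  have hi : (Pi.single i 1 : Fin n → F) = sugE F n i.val := (sugE_eq i.val i.isLt).symm
  rw [hi, uact_one]
  obtain h | h | h | h | h : i.val = 0 ∨ i.val = 1 ∨ i.val = 2 ∨ i.val = 3 ∨ 4 ≤ i.val := by
    omega
  · rw [h]; exact p0
  · rw [h]; exact p1
  · rw [h]; exact q2
  · rw [h]; exact q3
  · have := sug_pow_eig g (sugE F n i.val) 1 (by rw [one_smul]; exact h4 _ h) (q ^ 2 - 1)
    rwa [one_pow, one_smul] at this

end Cfsg.Agent.Helper65
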