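import Mathlib
import Cfsg.Agent.Helper65.SUGDefs
import Cfsg.Agent.Helper84.SUGAEXT
import Cfsg.Agent.Helper84.SUGART
import Cfsg.Agent.Helper3.SUGALIFT
import Cfsg.Agent.Helper65.SUGASTEP
import Cfsg.Agent.Helper65.SUGATOR
import Cfsg.Agent.Helper65.SUGATPOW
import Cfsg.Agent.Helper12.SUGASHIFT
import Cfsg.Agent.Helper59.SUGAFILL
import Cfsg.Agent.Helper59.SUGAEXTR
import Cfsg.Agent.Helper59.SUGATWOSQ
import Cfsg.Agent.Helper59.SUGAFILLP
import Cfsg.Agent.Helper59.SUGAPAR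
import Cfsg.Agent.Helper59.SUGAW2
import Cfsg.Agent.Helper80.SUGAGEN

/-!
# `SU_n(q)` is 2-generated for `n ≥ 4`, `q ≥ 3` (helper65; case (A) of S2412)

Generators: `w` (a signed cyclic shift of the standard basis) and `t * g`, where `t` is the
unitary transvection with centre `ε_0 + μ ε_1` (`μ μ^q = -1`) and `g` is a torus element
commuting with `t`, of order prime to the characteristic.  `t` and `g` are powers of `t * g`.
With `Φ` the set of full transvection centres of `M = ⟨w, t g⟩`: the torus fills the root group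
of `ε_2 + μ ε_3`, the shift moves it around, a power of `g` twists it, so `Φ` contains all
isotropic vectors of the first coordinate plane; then an induction on the number of coordinates
(transitivity of the transvection group of `F^k` on vectors of a given norm) gives all isotropic
vectors, and `SU_n(q)` is generated by its transvections.
-/

set_option autoImplicit false
set_option linter.unusedSimpArgs false
set_option linter.unusedSectionVars false
set_option linter.unusedVariables false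

namespace Cfsg.Agent.Helper65

open Matrix
open Cfsg.Agent.Helper5 (frobQ frobQ_apply frobQ_frobQ)
open Cfsg.Agent.Helper13

section sugmain
variable {F : Type*} [Field F] [Fintype F] {q n : ℕ}

theorem sug_shift_pow (w : ↥(Cfsg.SU n F q))
    (hw : ∀ i : ℕ, i + 1 < n → uact w (sugE F n i) = sugE F n (i + 1)) (k i : ℕ)
    (h : i + k < n) : uact (w ^ k) (sugE F n i) = sugE F n (i + k) := by
  induction k with
  | zero => rw [pow_zero, uact_one, add_zero]
  | succ k ih => rw [pow_succ', uact_mul, ih (by omega), hw _ (by omega)]; rfl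

/-- RTL: the glue of RT and LIFT. -/
theorem sug_rtl (hF : Fintype.card F = q ^ 2) (k : ℕ) (hk2 : 2 ≤ k) (hkn : k ≤ n)
    (hcase : 3 ≤ q ∨ 4 ≤ k) (Φ : Set (Fin n → F)) (hΦ : SugClosed hF Φ)
    (hfull : SugFull q Φ k) (x y z : Fin n → F) (hx : ∀ i : Fin n, k ≤ i.val → x i = 0)
    (hy : ∀ i : Fin n, k ≤ i.val → y i = 0) (hz : ∀ i : Fin n, i.val < k → z i = 0)
    (hxy : Cfsg.hermForm n F q x x = Cfsg.hermForm n F q y y)
    (hx0 : Cfsg.hermForm n F q x x ≠ 0) (hyz : y + z ∈ Φ) : x + z ∈ Φ := by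
  have hext0 : ∀ a b : Fin k → F,
      Cfsg.hermForm n F q (sugExt k n a) (sugExt k n b) = Cfsg.hermForm k F q a b := by
    intro a b
    have := Cfsg.Agent.Helper84.sug_ext_herm hF k hkn (0 : Fin n → F) (fun _ _ => rfl) a b
    rwa [add_zero] at this
  have hext := Cfsg.Agent.Helper84.sug_ext_herm hF k hkn z hz
  have hxe : sugExt k n (fun i : Fin k => x ⟨i.val, lt_of_lt_of_le i.isLt hkn⟩) = x :=
    sug_ext_restr k n hkn x hx
  have hye : sugExt k n (fun i : Fin k => y ⟨i.val, lt_of_lt_of_le i.isLt hkn⟩) = y :=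
    sug_ext_restr k n hkn y hy
  generalize (fun i : Fin k => x ⟨i.val, lt_of_lt_of_le i.isLt hkn⟩) = x' at hxe
  generalize (fun i : Fin k => y ⟨i.val, lt_of_lt_of_le i.isLt hkn⟩) = y' at hye
  have h1 : Cfsg.hermForm k F q y' y' = Cfsg.hermForm k F q x' x' := by
    rw [← hext0, ← hext0, hxe, hye, hxy]
  have h2 : Cfsg.hermForm k F q y' y' ≠ 0 := by
    rw [h1, ← hext0, hxe]; exact hx0
  obtain ⟨t, ht, htx⟩ := Cfsg.Agent.Helper84.sug_rt hF k hk2 hcase y' x' h1 h2
  have := Cfsg.Agent.Helper3.sug_lift hF k hkn Φ hΦ hfull z hext0 hext t ht y' (by rw [hye]; exact hyz)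
  rwa [htx, hxe] at this

/-- CHAIN -/
theorem sug_chain (hF : Fintype.card F = q ^ 2) (hq3 : 3 ≤ q) (Φ : Set (Fin n → F))
    (hΦ : SugClosed hF Φ) (h2 : SugFull q Φ 2)
    (hu : ∀ (k : ℕ) (hk : k < n), 2 ≤ k →
      ∃ u ∈ Φ, (∀ i : Fin n, k < i.val → u i = 0) ∧ u ⟨k, hk⟩ ≠ 0) :
    ∀ k : ℕ, 2 ≤ k → k ≤ n → SugFull q Φ k := by
  intro k hk
  induction k, hk using Nat.le_induction with
  | base => intro _; exact h2
  | succ k hk ih =>
    intro hkn
    have hfull := ih (by omega)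
    obtain ⟨u, huΦ, hus, huk⟩ := hu k (by omega) hk
    exact Cfsg.Agent.Helper65.sug_step hF k (by omega) Φ hΦ hfull
      (fun x y z hx hy hz hxy hx0 hyz =>
        sug_rtl hF k hk (by omega) (Or.inl hq3) Φ hΦ hfull x y z hx hy hz hxy hx0 hyz)
      u huΦ hus huk

theorem sug_all (hF : Fintype.card F = q ^ 2) (hq3 : 3 ≤ q) (hn : 2 ≤ n) (Φ : Set (Fin n → F))
    (hΦ : SugClosed hF Φ) (h2 : SugFull q Φ 2)
    (hu : ∀ (k : ℕ) (hk : k < n), 2 ≤ k →
      ∃ u ∈ Φ, (∀ i : Fin n, k < i.val → u i = 0) ∧ u ⟨k, hk⟩ ≠ 0)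
    (v : Fin n → F) (hv0 : v ≠ 0) (hv : Cfsg.hermForm n F q v v = 0) : v ∈ Φ :=
  sug_chain hF hq3 Φ hΦ h2 hu n hn le_rfl v hv0 hv (fun i hi => absurd i.isLt (not_lt.2 hi))

/-- the field parameters of the torus element -/
theorem sug_params (hF : Fintype.card F = q ^ 2) (hq3 : 3 ≤ q) :
    ∃ (lam xi : F) (j : ℕ), lam ≠ 0 ∧ xi * frobQ hF xi = 1 ∧ xi ^ 2 * lam = frobQ hF lam ∧
      (∀ r : F, frobQ hF r = r → ∃ x y : F, (x = 0 ∨ ∃ i : ℕ, x = lam ^ i) ∧
        (y = 0 ∨ ∃ i : ℕ, y = lam ^ i) ∧ r = x * frobQ hF x + y * frobQ hF y) ∧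
      lam ^ j * frobQ hF (lam ^ j) = 1 ∧ xi ^ j ≠ lam ^ j := by
  obtain ⟨rho, hrho, hgen, hord⟩ := Cfsg.Agent.Helper80.sug_gen hF
  obtain ⟨xi, j, h1, h2, h3, h4⟩ := Cfsg.Agent.Helper59.sug_par hF hq3 rho hrho hord
  exact ⟨rho ^ 2, xi, j, pow_ne_zero 2 hrho, h1, h2,
    fun r hr => Cfsg.Agent.Helper59.sug_fill_prop hF rho hgen (fun r hr => Cfsg.Agent.Helper59.sug_two_sq hF r hr) r hr,
    h3, h4⟩

theorem sug_e_iso (hF : Fintype.card F = q ^ 2) (hn : 2 ≤ n) (mu : F)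
    (hmu : mu * frobQ hF mu = -1) :
    Cfsg.hermForm n F q (sugE F n 0 + mu • sugE F n 1) (sugE F n 0 + mu • sugE F n 1) = 0 := by
  simp only [uh_add_left, uh_add_right hF, uh_smul_left, uh_smul_right hF,
    sug_herm_EE (n := n) hF 0 0 (by omega) (by omega), sug_herm_EE (n := n) hF 0 1 (by omega) (by omega),
    sug_herm_EE (n := n) hF 1 0 (by omega) (by omega), sug_herm_EE (n := n) hF 1 1 (by omega) (by omega)]
  simp only [if_true, if_false, one_ne_zero, zero_ne_one, mul_zero, mul_one, add_zero, zero_add]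
  linear_combination hmu

/-- ACORE -/
theorem sug_acore (hF : Fintype.card F = q ^ 2) (hn : 4 ≤ n) (M : Subgroup ↥(Cfsg.SU n F q))
    (w g : ↥(Cfsg.SU n F q)) (hw : w ∈ M) (hg : g ∈ M)
    (hshift : ∀ i : ℕ, i + 1 < n → uact w (sugE F n i) = sugE F n (i + 1))
    (mu lam xi c₀ : F) (hmu : mu * frobQ hF mu = -1) (hc₀ : c₀ ≠ 0)
    (hc₀s : frobQ hF c₀ = -c₀)
    (ht : utv hF (sugE F n 0 + mu • sugE F n 1) c₀ ∈ M)
    (hlam : lam ≠ 0) (hxi : xi * frobQ hF xi = 1)
    (h1 : uact g (sugE F n 1) = xi • sugE F n 1)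
    (h2 : uact g (sugE F n 2 + mu • sugE F n 3) = lam • (sugE F n 2 + mu • sugE F n 3))
    (hfill : ∀ r : F, frobQ hF r = r → ∃ x y : F, (x = 0 ∨ ∃ i : ℕ, x = lam ^ i) ∧
      (y = 0 ∨ ∃ i : ℕ, y = lam ^ i) ∧ r = x * frobQ hF x + y * frobQ hF y)
    (j : ℕ) (hj : lam ^ j * frobQ hF (lam ^ j) = 1)
    (hgj : uact (g ^ j) (sugE F n 2) = lam ^ j • sugE F n 2) (hne : xi ^ j ≠ lam ^ j) :
    SugFull q (sugPhi hF M) 2 ∧ ∀ (k : ℕ) (hk : k < n), 2 ≤ k →
      ∃ u ∈ sugPhi hF M, (∀ i : Fin n, k < i.val → u i = 0) ∧ u ⟨k, hk⟩ ≠ 0 := by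
  have hΦ := sug_phi_closed hF M
  have hmu0 : mu ≠ 0 := by rintro rfl; simp at hmu
  have hee := sug_e_iso (n := n) hF (by omega) mu hmu
  have he0 : sugE F n 0 + mu • sugE F n 1 ≠ 0 := by
    intro h
    have := congrFun h ⟨0, by omega⟩
    simp [sugE_apply] at this
  have hsh : ∀ k : ℕ, k + 1 < n →
      uact (w ^ k) (sugE F n 0 + mu • sugE F n 1) = sugE F n k + mu • sugE F n (k + 1) := by
    intro k hk
    rw [uact_add, uact_smul, sug_shift_pow w hshift k 0 (by omega),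
      sug_shift_pow w hshift k 1 (by omega), zero_add, add_comm 1 k]
  have hwk : ∀ k : ℕ, w ^ k ∈ M := fun k => M.pow_mem hw k
  have h22 := hsh 2 (by omega)
  have he' : sugE F n 2 + mu • sugE F n 3 ∈ sugPhi hF M := by
    refine Cfsg.Agent.Helper59.sug_fill hF M _ ?_ ?_ c₀ hc₀ hc₀s ?_ g hg lam hlam h2 hfill
    · rw [← h22]; exact sug_uact_ne_zero _ _ he0
    · rw [← h22, uact_herm]; exact hee
    · rw [← h22, ← utv_conj hF]
      exact M.mul_mem (M.mul_mem (hwk 2) ht) (M.inv_mem (hwk 2))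
  have he : sugE F n 0 + mu • sugE F n 1 ∈ sugPhi hF M := by
    have := sug_phi_act hF M (w ^ 2)⁻¹ (M.inv_mem (hwk 2)) _ he'
    rwa [← h22, uact_inv_uact] at this
  have hek : ∀ k : ℕ, k + 1 < n → sugE F n k + mu • sugE F n (k + 1) ∈ sugPhi hF M := by
    intro k hk
    rw [← hsh k hk]
    exact sug_phi_act hF M _ (hwk k) _ he
  have hv2 : xi ^ j • sugE F n 1 + mu • (lam ^ j • sugE F n 2) ∈ sugPhi hF M := by
    have := sug_phi_act hF M (g ^ j) (M.pow_mem hg j) _ (hek 1 (by omega))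
    rwa [uact_add, uact_smul, sug_pow_eig g _ xi h1 j, hgj] at this
  have hv3 : xi ^ j • sugE F n 0 + (mu * lam ^ j) • sugE F n 1 ∈ sugPhi hF M := by
    have hw3 : uact w (xi ^ j • sugE F n 0 + (mu * lam ^ j) • sugE F n 1)
        = xi ^ j • sugE F n 1 + mu • (lam ^ j • sugE F n 2) := by
      rw [uact_add, uact_smul, uact_smul, hshift 0 (by omega), hshift 1 (by omega), smul_smul]
    have := sug_phi_act hF M w⁻¹ (M.inv_mem hw) _ hv2
    rwa [← hw3, uact_inv_uact] at this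
  refine ⟨?_, ?_⟩
  · refine Cfsg.Agent.Helper59.sug_w2 hF (by omega) _ hΦ _ _ he hv3 ?_ ?_ ?_
    · intro i hi
      have h0 : i.val ≠ 0 := by omega
      have h1' : i.val ≠ 1 := by omega
      simp [sugE_apply, h0, h1']
    · intro i hi
      have h0 : i.val ≠ 0 := by omega
      have h1' : i.val ≠ 1 := by omega
      simp [sugE_apply, h0, h1']
    · simp only [uh_add_left, uh_add_right hF, uh_smul_left, uh_smul_right hF,
        sug_herm_EE (n := n) hF 0 0 (by omega) (by omega), sug_herm_EE (n := n) hF 0 1 (by omega) (by omega),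
        sug_herm_EE (n := n) hF 1 0 (by omega) (by omega), sug_herm_EE (n := n) hF 1 1 (by omega) (by omega)]
      simp only [if_true, if_false, one_ne_zero, zero_ne_one, mul_zero, mul_one, add_zero,
        zero_add, map_mul]
      have hkey : frobQ hF (xi ^ j) + frobQ hF mu * frobQ hF (lam ^ j) * mu
          = frobQ hF (xi ^ j - lam ^ j) := by
        rw [map_sub]; linear_combination (frobQ hF (lam ^ j)) * hmu
      rw [hkey]
      intro h
      exact hne (sub_eq_zero.1 ((ufrob_eq_zero hF).1 h))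
  · intro k hk hk2
    refine ⟨sugE F n (k - 1) + mu • sugE F n k, ?_, ?_, ?_⟩
    · have := hek (k - 1) (by omega)
      rwa [show k - 1 + 1 = k by omega] at this
    · intro i hi
      have h0 : i.val ≠ k - 1 := by omega
      have h1' : i.val ≠ k := by omega
      simp [sugE_apply, h0, h1']
    · have h0 : k ≠ k - 1 := by omega
      simp [sugE_apply, h0, hmu0]

/-- **`SU_n(q)` is 2-generated for `n ≥ 4`, `q ≥ 3`.** -/
theorem sug_caseA (hF : Fintype.card F = q ^ 2) (hq3 : 3 ≤ q) (hn : 4 ≤ n) :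
    ∃ a b : ↥(Cfsg.SU n F q), Subgroup.closure ({a, b} : Set ↥(Cfsg.SU n F q)) = ⊤ := by
  obtain ⟨lam, xi, j, hlam, hxi, hdet, hfill, hj, hne⟩ := sug_params hF hq3
  obtain ⟨mu, hmu0, hmu⟩ := ufld_exists_norm hF (c := (-1 : F)) (neg_ne_zero.2 one_ne_zero)
    (by rw [map_neg, map_one])
  obtain ⟨z, hz, hzne⟩ := ufld_exists_norm_one hF
  have hz1 : z ≠ 1 := by rintro rfl; exact hzne (map_one _)
  have hmu' : (z * mu) * frobQ hF (z * mu) = -1 := by
    rw [map_mul]; linear_combination (mu * frobQ hF mu) * hz + hmu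
  have hmm : mu ≠ z * mu := by
    intro h
    apply hz1
    have h' : (z - 1) * mu = 0 := by linear_combination -h
    rcases mul_eq_zero.1 h' with h'' | h''
    · exact sub_eq_zero.1 h''
    · exact absurd h'' hmu0
  obtain ⟨w, hshift⟩ := Cfsg.Agent.Helper12.sug_shift (F := F) (q := q) (n := n) hF (by omega)
  obtain ⟨g, h0, h1, h2, h3, h4⟩ :=
    Cfsg.Agent.Helper65.sug_torus4 hF hn mu (z * mu) lam xi hmu hmu' hmm hlam hxi hdet
  obtain ⟨c₀, hc₀, hc₀s⟩ := ufld_exists_skew hF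
  have hee := sug_e_iso (n := n) hF (by omega) mu hmu
  refine ⟨w, utv hF (sugE F n 0 + mu • sugE F n 1) c₀ * g, ?_⟩
  have hwM : w ∈ Subgroup.closure
      ({w, utv hF (sugE F n 0 + mu • sugE F n 1) c₀ * g} : Set ↥(Cfsg.SU n F q)) :=
    Subgroup.subset_closure (by simp)
  have htgM : utv hF (sugE F n 0 + mu • sugE F n 1) c₀ * g ∈ Subgroup.closure
      ({w, utv hF (sugE F n 0 + mu • sugE F n 1) c₀ * g} : Set ↥(Cfsg.SU n F q)) :=
    Subgroup.subset_closure (by simp)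
  generalize Subgroup.closure
      ({w, utv hF (sugE F n 0 + mu • sugE F n 1) c₀ * g} : Set ↥(Cfsg.SU n F q)) = M
      at hwM htgM ⊢
  have hxi0 : xi ≠ 0 := by rintro rfl; simp at hxi
  have hge : uact g (sugE F n 0 + mu • sugE F n 1) = xi • (sugE F n 0 + mu • sugE F n 1) := by
    rw [uact_add, uact_smul, h0, h1, smul_add, smul_comm]
  have h5 : g * utv hF (sugE F n 0 + mu • sugE F n 1) c₀ * g⁻¹
      = utv hF (sugE F n 0 + mu • sugE F n 1) c₀ := by
    rw [utv_conj hF, hge, utv_smul hF xi hxi0, hxi, mul_one]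
  have hcomm : Commute (utv hF (sugE F n 0 + mu • sugE F n 1) c₀) g :=
    (mul_inv_eq_iff_eq_mul.1 h5).symm
  have ht_ord := sug_tv_order hF (sugE F n 0 + mu • sugE F n 1) c₀ hee hc₀s
  have hg_ord := Cfsg.Agent.Helper65.sug_torus_order hF hn mu (z * mu) lam xi hmm hlam hxi0 g h0 h1 h2 h3 h4
  have hq1 : 1 ≤ q ^ 2 := Nat.one_le_pow _ _ (by omega)
  have hcop : Nat.Coprime (q ^ 2) (q ^ 2 - 1) := by
    have h : q ^ 2 = (q ^ 2 - 1) + 1 := by omega
    rw [Nat.coprime_comm]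
    conv_rhs => rw [h]
    simp
  obtain ⟨htz, hgz⟩ := Cfsg.Agent.Helper59.sug_extract _ g hcomm (q ^ 2) (q ^ 2 - 1) hcop ht_ord hg_ord
  have hzM : Subgroup.zpowers (utv hF (sugE F n 0 + mu • sugE F n 1) c₀ * g) ≤ M := by
    rw [Subgroup.zpowers_le]; exact htgM
  have htM := hzM htz
  have hgM := hzM hgz
  have hgj := Cfsg.Agent.Helper65.sug_torus_pow hF mu (z * mu) lam hmm hlam g h2 h3 j hj
  obtain ⟨hfull2, hu⟩ := sug_acore hF hn M w g hwM hgM hshift mu lam xi c₀ hmu hc₀ hc₀s htM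
    hlam hxi h1 h2 hfill j hj hgj hne
  exact sug_top hF (by omega) (by omega) M
    (fun v hv0 hv => sug_all hF hq3 (by omega) _ (sug_phi_closed hF M) hfull2 hu v hv0 hv)

end sugmain

end Cfsg.Agent.Helper65
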