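import Mathlib
import Cfsg.Prelude.Def_Classical
import Cfsg.Agent.Helper36.FieldQ2
import Cfsg.Agent.S0279

/-!
# Change of basis between the antidiagonal and the standard Hermitian form (helper65)

For a field `K` with `q ^ 2` elements, the special isometry group `GJ n K q` of the antidiagonal
form `hJ u v = ∑ i, u i * (v (Fin.rev i)) ^ q` is conjugate in `GL_n(K)` to `Cfsg.SU n K q`.

* `SuBasis.exists_basis` : an invertible matrix `P` with
  `hermForm n K q (P *ᵥ u) (P *ᵥ v) = hJ n K q u v`.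
* `SuBasis.gj_equiv_su` : `GJ n K q ≃* Cfsg.SU n K q`.
* `SuBasis.exists_hom_psu` : a surjection `GJ n K q →* Cfsg.PSU n K q` whose kernel is central and
  has no nontrivial `p`-elements (the hypotheses of
  `Cfsg.Agent.Helper88.isSimple_of_simpleHyp2_surjective`).
-/

set_option autoImplicit false

namespace Cfsg.Agent.Helper65.SuBasis

open Matrix

/-- The antidiagonal Hermitian form `∑ i, u i * (v (Fin.rev i)) ^ q`. -/
def hJ (n : ℕ) (K : Type*) [Field K] (q : ℕ) (u v : Fin n → K) : K :=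
  ∑ i, u i * (v (Fin.rev i)) ^ q

/-- The special isometry group of the antidiagonal Hermitian form. -/
def GJ (n : ℕ) (K : Type*) [Field K] (q : ℕ) : Subgroup (Matrix.SpecialLinearGroup (Fin n) K) :=
  Cfsg.preserving (Cfsg.slToMat n K) (hJ n K q)

variable {K : Type*} [Field K] {n : ℕ}

/-- Diagonal entries of the base change matrix. -/
def pDiag (a d : K) (i : Fin n) : K :=
  if i < Fin.rev i then a else if i = Fin.rev i then 1 else d

/-- Antidiagonal entries of the base change matrix. -/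
def pOff (c : K) (i : Fin n) : K :=
  if i < Fin.rev i then c else if i = Fin.rev i then 0 else 1

/-- The base change matrix: blocks `[[a, c], [1, d]]` on the pairs `(i, rev i)`, `i < rev i`. -/
def pMat (a c d : K) : Matrix (Fin n) (Fin n) K :=
  fun i j => (if j = i then pDiag a d i else 0) + (if j = Fin.rev i then pOff c i else 0)

/-- The antidiagonal permutation matrix. -/
def jMat : Matrix (Fin n) (Fin n) K := fun k l => if l = Fin.rev k then 1 else 0

theorem pMat_key (σ : K →+* K) (a c d : K) (h1 : a * σ a = -1) (h2 : a * σ c + σ d = 1)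
    (h3 : c * σ a + d = 1) (h4 : c * σ c + d * σ d = 0) :
    (pMat a c d : Matrix (Fin n) (Fin n) K)ᵀ * (pMat a c d).map σ = jMat := by
  ext k l
  rw [Matrix.mul_apply]
  have hsum : ∀ f : Fin n → K, ∑ m, (pMat a c d : Matrix (Fin n) (Fin n) K)ᵀ k m * f m =
      pDiag a d k * f k + pOff c (Fin.rev k) * f (Fin.rev k) := by
    intro f
    simp only [Matrix.transpose_apply, pMat, add_mul, Finset.sum_add_distrib, ite_mul, zero_mul]
    congr 1
    · rw [Finset.sum_ite_eq Finset.univ k]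
      simp
    · rw [Finset.sum_eq_single (Fin.rev k)]
      · simp
      · intro m _ hm
        rw [if_neg]
        intro hk
        exact hm (by rw [hk, Fin.rev_rev])
      · intro h
        exact absurd (Finset.mem_univ _) h
  rw [hsum]
  simp only [Matrix.map_apply, pMat, jMat, Fin.rev_rev]
  rcases lt_trichotomy k (Fin.rev k) with h | h | h
  · have hne : k ≠ Fin.rev k := ne_of_lt h
    have e1 : pDiag a d k = a := by simp [pDiag, h]
    have e2 : pOff c k = c := by simp [pOff, h]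
    have e3 : pDiag a d (Fin.rev k) = d := by
      simp [pDiag, Fin.rev_rev, not_lt_of_gt h, hne.symm]
    have e4 : pOff c (Fin.rev k) = 1 := by
      simp [pOff, Fin.rev_rev, not_lt_of_gt h, hne.symm]
    rw [e1, e2, e3, e4]
    by_cases hl1 : l = k
    · subst hl1
      simp only [if_true, if_neg hne, add_zero, zero_add, map_one]
      linear_combination h1
    · by_cases hl2 : l = Fin.rev k
      · subst hl2
        simp only [if_true, if_neg hne.symm, add_zero, zero_add, one_mul]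
        linear_combination h2
      · simp [hl1, hl2]
  · have e1 : pDiag a d k = 1 := by
      simp [pDiag, ← h]
    have e2 : pOff c k = 0 := by
      simp [pOff, ← h]
    rw [← h, e1, e2]
    by_cases hl1 : l = k
    · simp [hl1]
    · simp [hl1]
  · have hne : k ≠ Fin.rev k := ne_of_gt h
    have e1 : pDiag a d k = d := by simp [pDiag, not_lt_of_gt h, hne]
    have e2 : pOff c k = 1 := by simp [pOff, not_lt_of_gt h, hne]
    have e3 : pDiag a d (Fin.rev k) = a := by simp [pDiag, Fin.rev_rev, h]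
    have e4 : pOff c (Fin.rev k) = c := by simp [pOff, Fin.rev_rev, h]
    rw [e1, e2, e3, e4]
    by_cases hl1 : l = k
    · subst hl1
      simp only [if_true, if_neg hne, add_zero, zero_add]
      linear_combination h4
    · by_cases hl2 : l = Fin.rev k
      · subst hl2
        simp only [if_true, if_neg hne.symm, add_zero, zero_add, map_one, mul_one]
        linear_combination h3
      · simp [hl1, hl2]

theorem jMat_mul_self : (jMat : Matrix (Fin n) (Fin n) K) * jMat = 1 := by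
  ext k l
  rw [Matrix.mul_apply]
  simp only [jMat]
  rw [Finset.sum_eq_single (Fin.rev k)]
  · simp [Matrix.one_apply, Fin.rev_rev, eq_comm]
  · intro m _ hm
    simp [hm]
  · intro h
    exact absurd (Finset.mem_univ _) h

theorem form_of_key (σ : K →+* K) (q : ℕ) (hσ : ∀ x, σ x = x ^ q)
    (P : Matrix (Fin n) (Fin n) K) (hP : Pᵀ * P.map σ = jMat) (u v : Fin n → K) :
    Cfsg.hermForm n K q (P *ᵥ u) (P *ᵥ v) = hJ n K q u v := by
  have e1 : ∀ w : Fin n → K, Cfsg.hermForm n K q w (P *ᵥ v) =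
      w ⬝ᵥ (P.map σ *ᵥ (fun j => σ (v j))) := by
    intro w
    unfold Cfsg.hermForm
    simp only [dotProduct]
    refine Finset.sum_congr rfl fun i _ => ?_
    rw [← hσ, RingHom.map_mulVec]
    rfl
  have e2 : ∀ x : Fin n → K, (P *ᵥ u) ⬝ᵥ x = u ⬝ᵥ (Pᵀ *ᵥ x) := by
    intro x
    rw [dotProduct_comm, Matrix.dotProduct_mulVec, ← Matrix.mulVec_transpose, dotProduct_comm]
  rw [e1, e2, Matrix.mulVec_mulVec, hP]
  unfold hJ
  simp only [dotProduct]
  refine Finset.sum_congr rfl fun k _ => ?_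
  congr 1
  rw [Matrix.mulVec, dotProduct]
  simp only [jMat]
  rw [Finset.sum_eq_single (Fin.rev k)]
  · simp [hσ]
  · intro m _ hm
    simp [hm]
  · intro h
    exact absurd (Finset.mem_univ _) h

/-- The base change: an invertible matrix carrying the antidiagonal form to the standard one. -/
theorem exists_basis [Fintype K] {q : ℕ} (hK : Fintype.card K = q ^ 2) (n : ℕ) :
    ∃ P : Matrix (Fin n) (Fin n) K, P.det ≠ 0 ∧
      ∀ u v : Fin n → K, Cfsg.hermForm n K q (P *ᵥ u) (P *ᵥ v) = hJ n K q u v := by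
  obtain ⟨σ, hσ, hσσ, d0, hd0⟩ := Cfsg.Agent.Helper36.exists_conj_general hK
  obtain ⟨a, ha⟩ := Cfsg.Agent.Helper36.exists_norm_neg_one hK
  obtain ⟨t0, ht0⟩ : ∃ t0 : K, t0 + σ t0 ≠ 0 := by
    by_cases h2 : (2 : K) = 0
    · refine ⟨d0, fun h => hd0 ?_⟩
      linear_combination h - d0 * h2
    · refine ⟨1, ?_⟩
      rw [map_one]
      intro h
      apply h2
      linear_combination h
  have hσt : σ (t0 + σ t0) = t0 + σ t0 := by
    rw [map_add, hσσ]
    ring
  obtain ⟨lam, hl⟩ : ∃ lam : K, lam + σ lam = -1 := by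
    refine ⟨-t0 / (t0 + σ t0), ?_⟩
    rw [map_div₀, map_neg, hσt]
    field_simp
    ring
  have h1 : a * σ a = -1 := by
    rw [hσ]
    exact ha
  have hP : (pMat a (lam * a) (lam + 1) : Matrix (Fin n) (Fin n) K)ᵀ *
      (pMat a (lam * a) (lam + 1)).map σ = jMat := by
    apply pMat_key σ a (lam * a) (lam + 1) h1
    · rw [map_mul, map_add, map_one]
      linear_combination (σ lam) * h1
    · linear_combination lam * h1
    · rw [map_mul, map_add, map_one]
      linear_combination (lam * σ lam) * h1 + hl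
  refine ⟨pMat a (lam * a) (lam + 1), ?_, form_of_key σ q hσ _ hP⟩
  intro h0
  have hj : (jMat : Matrix (Fin n) (Fin n) K).det * (jMat : Matrix (Fin n) (Fin n) K).det = 1 := by
    rw [← Matrix.det_mul, jMat_mul_self, Matrix.det_one]
  rw [← hP, Matrix.det_mul, Matrix.det_transpose, h0, zero_mul] at hj
  simp at hj

/-- Conjugation by an invertible matrix, on the special linear group. -/
def conjSL (P : GL (Fin n) K) :
    Matrix.SpecialLinearGroup (Fin n) K ≃* Matrix.SpecialLinearGroup (Fin n) K where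
  toFun A := ⟨(P : Matrix (Fin n) (Fin n) K) * A.1 *
    ((P⁻¹ : GL (Fin n) K) : Matrix (Fin n) (Fin n) K), by
      rw [Matrix.det_units_conj]
      exact A.2⟩
  invFun A := ⟨((P⁻¹ : GL (Fin n) K) : Matrix (Fin n) (Fin n) K) * A.1 *
    (P : Matrix (Fin n) (Fin n) K), by
      rw [Matrix.det_units_conj']
      exact A.2⟩
  left_inv A := by
    apply Subtype.ext
    show ((P⁻¹ : GL (Fin n) K) : Matrix (Fin n) (Fin n) K) * ((P : Matrix (Fin n) (Fin n) K) * A.1 *
      ((P⁻¹ : GL (Fin n) K) : Matrix (Fin n) (Fin n) K)) * (P : Matrix (Fin n) (Fin n) K) = A.1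
    rw [Matrix.mul_assoc, Matrix.mul_assoc, Units.inv_mul, Matrix.mul_one, ← Matrix.mul_assoc,
      Units.inv_mul, Matrix.one_mul]
  right_inv A := by
    apply Subtype.ext
    show (P : Matrix (Fin n) (Fin n) K) * (((P⁻¹ : GL (Fin n) K) : Matrix (Fin n) (Fin n) K) * A.1 *
      (P : Matrix (Fin n) (Fin n) K)) * ((P⁻¹ : GL (Fin n) K) : Matrix (Fin n) (Fin n) K) = A.1
    rw [Matrix.mul_assoc, Matrix.mul_assoc, Units.mul_inv, Matrix.mul_one, ← Matrix.mul_assoc,
      Units.mul_inv, Matrix.one_mul]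
  map_mul' A B := by
    apply Subtype.ext
    show (P : Matrix (Fin n) (Fin n) K) * (A.1 * B.1) *
      ((P⁻¹ : GL (Fin n) K) : Matrix (Fin n) (Fin n) K) =
      ((P : Matrix (Fin n) (Fin n) K) * A.1 * ((P⁻¹ : GL (Fin n) K) : Matrix (Fin n) (Fin n) K)) *
      ((P : Matrix (Fin n) (Fin n) K) * B.1 * ((P⁻¹ : GL (Fin n) K) : Matrix (Fin n) (Fin n) K))
    have h := Units.inv_mul P
    calc (P : Matrix (Fin n) (Fin n) K) * (A.1 * B.1) *
          ((P⁻¹ : GL (Fin n) K) : Matrix (Fin n) (Fin n) K)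
        = (P : Matrix (Fin n) (Fin n) K) * A.1 * (1 : Matrix (Fin n) (Fin n) K) * B.1 *
          ((P⁻¹ : GL (Fin n) K) : Matrix (Fin n) (Fin n) K) := by
          simp only [Matrix.mul_assoc, Matrix.one_mul]
      _ = _ := by
          rw [← h]
          simp only [Matrix.mul_assoc]

theorem conjSL_val (P : GL (Fin n) K) (A : Matrix.SpecialLinearGroup (Fin n) K) :
    (conjSL P A).1 = (P : Matrix (Fin n) (Fin n) K) * A.1 *
      ((P⁻¹ : GL (Fin n) K) : Matrix (Fin n) (Fin n) K) := rfl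

theorem mem_GJ_iff (q : ℕ) (A : Matrix.SpecialLinearGroup (Fin n) K) :
    A ∈ GJ n K q ↔ ∀ u v : Fin n → K, hJ n K q (A.1 *ᵥ u) (A.1 *ᵥ v) = hJ n K q u v :=
  Iff.rfl

theorem mem_SU_iff (q : ℕ) (A : Matrix.SpecialLinearGroup (Fin n) K) :
    A ∈ Cfsg.SU n K q ↔
      ∀ u v : Fin n → K, Cfsg.hermForm n K q (A.1 *ᵥ u) (A.1 *ᵥ v) = Cfsg.hermForm n K q u v :=
  Iff.rfl

theorem mem_iff (q : ℕ) (P : GL (Fin n) K)
    (hP : ∀ u v : Fin n → K, Cfsg.hermForm n K q ((P : Matrix (Fin n) (Fin n) K) *ᵥ u)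
      ((P : Matrix (Fin n) (Fin n) K) *ᵥ v) = hJ n K q u v)
    (A : Matrix.SpecialLinearGroup (Fin n) K) :
    A ∈ GJ n K q ↔ conjSL P A ∈ Cfsg.SU n K q := by
  rw [mem_GJ_iff, mem_SU_iff]
  have hPi : ∀ u : Fin n → K, (P : Matrix (Fin n) (Fin n) K) *ᵥ
      (((P⁻¹ : GL (Fin n) K) : Matrix (Fin n) (Fin n) K) *ᵥ u) = u := by
    intro u
    rw [Matrix.mulVec_mulVec, Units.mul_inv, Matrix.one_mulVec]
  constructor
  · intro hA u v
    have e : ∀ w : Fin n → K, (conjSL P A).1 *ᵥ w = (P : Matrix (Fin n) (Fin n) K) *ᵥ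
        (A.1 *ᵥ (((P⁻¹ : GL (Fin n) K) : Matrix (Fin n) (Fin n) K) *ᵥ w)) := by
      intro w
      rw [conjSL_val, Matrix.mulVec_mulVec, Matrix.mulVec_mulVec]
    rw [e, e, hP, hA, ← hP, hPi, hPi]
  · intro hB u v
    have e : ∀ w : Fin n → K, (P : Matrix (Fin n) (Fin n) K) *ᵥ (A.1 *ᵥ w) =
        (conjSL P A).1 *ᵥ ((P : Matrix (Fin n) (Fin n) K) *ᵥ w) := by
      intro w
      rw [conjSL_val, Matrix.mulVec_mulVec, Matrix.mulVec_mulVec, Matrix.mul_assoc,
        Matrix.mul_assoc, Units.inv_mul, Matrix.mul_one]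
    rw [← hP, e, e, hB, hP]

/-- The isomorphism induced by the base change. -/
def gjEquiv (q : ℕ) (P : GL (Fin n) K)
    (hP : ∀ u v : Fin n → K, Cfsg.hermForm n K q ((P : Matrix (Fin n) (Fin n) K) *ᵥ u)
      ((P : Matrix (Fin n) (Fin n) K) *ᵥ v) = hJ n K q u v) :
    ↥(GJ n K q) ≃* ↥(Cfsg.SU n K q) where
  toFun x := ⟨conjSL P x.1, (mem_iff q P hP x.1).1 x.2⟩
  invFun y := ⟨(conjSL P).symm y.1, (mem_iff q P hP _).2 (by
    rw [MulEquiv.apply_symm_apply]
    exact y.2)⟩
  left_inv x := Subtype.ext ((conjSL P).symm_apply_apply x.1)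
  right_inv y := Subtype.ext ((conjSL P).apply_symm_apply y.1)
  map_mul' x y := Subtype.ext (map_mul (conjSL P) x.1 y.1)

/-- `GJ n K q ≃* SU n K q` for a field with `q ^ 2` elements. -/
theorem gj_equiv_su [Fintype K] {q : ℕ} (hK : Fintype.card K = q ^ 2) (n : ℕ) :
    Nonempty (↥(GJ n K q) ≃* ↥(Cfsg.SU n K q)) := by
  obtain ⟨P, hdet, hP⟩ := exists_basis hK n
  exact ⟨gjEquiv q (Matrix.GeneralLinearGroup.mkOfDetNeZero P hdet) hP⟩

/-- A surjection from `GJ n K q` onto `PSU n K q` whose kernel is central and contains no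
nontrivial `p`-element. -/
theorem exists_hom_psu [Fintype K] {p q : ℕ} [Fact p.Prime] [CharP K p]
    (hK : Fintype.card K = q ^ 2) (n : ℕ) (hn : 3 ≤ n) :
    ∃ f : ↥(GJ n K q) →* Cfsg.PSU n K q, Function.Surjective f ∧
      (∀ z ∈ f.ker, ∀ g : ↥(GJ n K q), g * z = z * g) ∧
      (∀ z ∈ f.ker, ∀ k : ℕ, z ^ p ^ k = 1 → z = 1) := by
  classical
  obtain ⟨e⟩ := gj_equiv_su hK n
  have hp : p.Prime := Fact.out
  have hpq : p ∣ q := by
    have h0 : ((Fintype.card K : ℕ) : K) = 0 := FiniteField.cast_card_eq_zero K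
    have h1 : p ∣ Fintype.card K := (CharP.cast_eq_zero_iff K p _).1 h0
    rw [hK] at h1
    exact hp.dvd_of_dvd_pow h1
  have hker : ∀ z : ↥(GJ n K q),
      z ∈ ((QuotientGroup.mk' (Subgroup.center (Cfsg.SU n K q))).comp e.toMonoidHom).ker →
      e z ∈ Subgroup.center (Cfsg.SU n K q) := by
    intro z hz
    rw [MonoidHom.mem_ker, MonoidHom.comp_apply] at hz
    exact (QuotientGroup.eq_one_iff _).1 hz
  refine ⟨(QuotientGroup.mk' (Subgroup.center (Cfsg.SU n K q))).comp e.toMonoidHom, ?_, ?_, ?_⟩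
  · exact (QuotientGroup.mk'_surjective _).comp e.surjective
  · intro z hz g
    have h := Subgroup.mem_center_iff.1 (hker z hz) (e g)
    apply e.injective
    rw [map_mul, map_mul]
    exact h
  · intro z hz k hzk
    have hc := hker z hz
    have h1 : (⟨e z, hc⟩ : Subgroup.center (Cfsg.SU n K q)) ^ p ^ k = 1 := by
      apply Subtype.ext
      show (e z) ^ p ^ k = 1
      rw [← map_pow, hzk, map_one]
    have h2 : (⟨e z, hc⟩ : Subgroup.center (Cfsg.SU n K q)) ^ Nat.gcd n (q + 1) = 1 := by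
      rw [← Cfsg.Agent.S0279.result hK n hn]
      exact pow_card_eq_one'
    have hcop : Nat.Coprime (p ^ k) (Nat.gcd n (q + 1)) := by
      apply Nat.Coprime.pow_left
      apply Nat.Coprime.coprime_dvd_right (Nat.gcd_dvd_right n (q + 1))
      rw [hp.coprime_iff_not_dvd]
      intro h
      have : p ∣ 1 := (Nat.dvd_add_right hpq).1 h
      exact hp.one_lt.ne' (Nat.dvd_one.1 this)
    have h3 : orderOf (⟨e z, hc⟩ : Subgroup.center (Cfsg.SU n K q)) = 1 := by
      have d1 := orderOf_dvd_of_pow_eq_one h1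
      have d2 := orderOf_dvd_of_pow_eq_one h2
      exact Nat.eq_one_of_dvd_coprimes hcop d1 d2
    have h4 : (⟨e z, hc⟩ : Subgroup.center (Cfsg.SU n K q)) = 1 := orderOf_eq_one_iff.1 h3
    have h5 : e z = 1 := congrArg Subtype.val h4
    exact e.injective (h5.trans (map_one e).symm)

end Cfsg.Agent.Helper65.SuBasis
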