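import Mathlib
import Cfsg.Agent.Helper65.SuBasis
import Cfsg.Agent.Helper99.SuBasic

/-!
# Bridge from helper99's `suG` to `Cfsg.SU` / `Cfsg.PSU` (helper65)

`Cfsg.Agent.Helper99.suG hK n` (antidiagonal form written with `frobQ`) is the group
`Cfsg.Agent.Helper65.SuBasis.GJ n K q`; hence it is isomorphic to `Cfsg.SU n K q` and maps onto
`Cfsg.PSU n K q` with central kernel without `p`-elements.
-/

set_option autoImplicit false

namespace Cfsg.Agent.Helper65.SuBridge

open Cfsg.Agent.Helper65.SuBasis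

variable {K : Type*} [Field K] [Fintype K] {q : ℕ}

theorem suH_eq_hJ (hK : Fintype.card K = q ^ 2) (n : ℕ) (u v : Fin n → K) :
    Cfsg.Agent.Helper99.suH hK n u v = hJ n K q u v := by
  unfold Cfsg.Agent.Helper99.suH hJ
  refine Finset.sum_congr rfl fun i _ => ?_
  rw [Cfsg.Agent.Helper5.frobQ_apply]

theorem suG_eq_GJ (hK : Fintype.card K = q ^ 2) (n : ℕ) :
    Cfsg.Agent.Helper99.suG hK n = GJ n K q := by
  ext g
  rw [Cfsg.Agent.Helper99.mem_suG, mem_GJ_iff]
  simp only [suH_eq_hJ]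

/-- `suG hK n ≃* SU n K q`. -/
theorem suG_equiv_su (hK : Fintype.card K = q ^ 2) (n : ℕ) :
    Nonempty (↥(Cfsg.Agent.Helper99.suG hK n) ≃* ↥(Cfsg.SU n K q)) := by
  rw [suG_eq_GJ]
  exact gj_equiv_su hK n

/-- A surjection from `suG hK n` onto `PSU n K q` whose kernel is central and contains no
nontrivial `p`-element: the hypotheses of `Helper88.isSimple_of_simpleHyp2_surjective`. -/
theorem exists_hom_psu_suG {p : ℕ} [Fact p.Prime] [CharP K p]
    (hK : Fintype.card K = q ^ 2) (n : ℕ) (hn : 3 ≤ n) :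
    ∃ f : ↥(Cfsg.Agent.Helper99.suG hK n) →* Cfsg.PSU n K q, Function.Surjective f ∧
      (∀ z ∈ f.ker, ∀ g : ↥(Cfsg.Agent.Helper99.suG hK n), g * z = z * g) ∧
      (∀ z ∈ f.ker, ∀ k : ℕ, z ^ p ^ k = 1 → z = 1) := by
  rw [suG_eq_GJ]
  exact exists_hom_psu hK n hn

end Cfsg.Agent.Helper65.SuBridge
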