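import Mathlib
import Cfsg.Prelude.Def_GeometricClasses
import Cfsg.Prelude.Def_Classical
import Cfsg.Agent.Helper58.TSDefs
import Cfsg.Agent.Helper65.TSOBDefs
import Cfsg.Agent.Helper98.OPar
import Cfsg.Agent.Helper51.TIORD
import Cfsg.Agent.Helper37.OBPE
import Cfsg.Agent.Helper37.OBEXTMUL
import Cfsg.Agent.Helper37.OBEXTISO
import Cfsg.Agent.Helper37.OBEXTRANGE
import Cfsg.Agent.Helper37.OBRANGEE
import Cfsg.Agent.Helper33.OBGB
import Cfsg.Agent.Helper47.OBCSPLIT
import Cfsg.Agent.Helper33.OBCDVD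
import Cfsg.Agent.Helper47.OBCD
import Cfsg.Agent.Helper46.OBCC
import Cfsg.Agent.Helper65.OBFAM
import Cfsg.Agent.Helper65.OBHEX

set_option autoImplicit false
set_option linter.unusedSectionVars false
set_option linter.unusedVariables false

/-!
# CALL TS (helper58), stage OB: `ts_odd_bad` (helper65; assembly of the sub-CALL OB).

`i` odd: an element `x ∈ Ω(Q)` of order `r` with `a` dual pairs of irreducible blocks: `x` is the
extension (by the identity on the orthogonal complement) of the model isometry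
`(a, b) ↦ (g a, g⁻ᵀ b)` of a hyperbolic `2 i a`-space; it is a commutator `[y, s]` of isometries
because the model element is inverted by a swap `s` (all characteristics).  Every invariant
totally singular subspace splits along `ker (x - 1) ⊕ range (x - 1)`.

Pieces: Helper37 (PE EXTMUL EXTISO EXTRANGE RANGEE), Helper33 (GB CDVD), Helper47 (CSPLIT CD),
Helper46 (CC), Helper65 (FAM, HEX core).  Doubles by Helper51, Helper19, Helper82, Helper66,
Helper33 are on main but not imported.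
-/

namespace Cfsg.Agent.Helper65.TS5973

open Module Cfsg Cfsg.Geo Cfsg.Agent.Helper58.TS Cfsg.Agent.Helper65.TSOB
open Cfsg.Agent.Helper37.OB (ob_PE ob_ext_mul ob_ext_iso ob_ext_range ob_range_E)
open Cfsg.Agent.Helper33.OB (ob_gb ob_cdvd)
open Cfsg.Agent.Helper47.OB (ob_csplit ob_cd)
open Cfsg.Agent.Helper46.OB (ob_cc)
open Cfsg.Agent.Helper65.OB (ob_fam ob_hex_core)
open scoped MatrixGroups Matrix

variable {ι : Type} [Fintype ι] [DecidableEq ι] {F : Type*} [Field F] [Fintype F]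

theorem ob_toLin_pow (M : Matrix ι ι F) (k : ℕ) :
    Matrix.toLin' (M ^ k) = (Matrix.toLin' M) ^ k := by
  induction k with
  | zero => simp [Module.End.one_eq_id]
  | succ k ih => rw [pow_succ, pow_succ, Matrix.toLin'_mul, ih, Module.End.mul_eq_comp]

theorem ob_ext_pow (Q : QuadraticForm F (ι → F)) {n : ℕ} (e f : Fin n → ι → F)
    (h : HypFam Q e f) (Z : HSp n F →ₗ[F] HSp n F) (k : ℕ) :
    (hExt Q e f Z) ^ k = hExt Q e f (Z ^ k) := by
  induction k with
  | zero => rw [pow_zero, pow_zero, Module.End.one_eq_id, Module.End.one_eq_id, hExt_id]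
  | succ k ih =>
    rw [pow_succ, pow_succ, ih, Module.End.mul_eq_comp, Module.End.mul_eq_comp,
      ob_ext_mul Q e f h]

/-- ODD-BAD (stage OB of CALL TS). -/
theorem ts_odd_bad (Q : (ι → F) → F) (hQ : IsNondegenerateQuadraticForm Q) (d δ : ℕ) (hd : 4 ≤ d)
    (hcard : Fintype.card ι = 2 * d) (hδ : TypeDefect Q δ) (p : ℕ) [Fact p.Prime] [CharP F p]
    (q : ℕ) (hq : Fintype.card F = q) (r : ℕ) [Fact r.Prime] (hr2 : 2 < r) (hrp : r ≠ p) (i : ℕ)
    (hi : i = orderOf ((q : ℕ) : ZMod r)) (hodd : Odd i) (a : ℕ) (ha : 1 ≤ a)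
    (had : i * a + δ ≤ d) :
    ∃ x : GL ι F, x ∈ Cfsg.Geo.omegaGL Q ∧ x ^ r = 1 ∧ x ≠ 1 ∧
      ∀ k, InvTS Q (x : Matrix ι ι F) k → ∃ s w, s ≤ a ∧ w + i * a + δ ≤ d ∧ k = i * s + w := by
  classical
  have hpP : p.Prime := Fact.out
  have hrP : r.Prime := Fact.out
  have hrF : (r : F) ≠ 0 := by
    intro h0
    have h1 : p ∣ r := (CharP.cast_eq_zero_iff F p r).1 h0
    rcases (Nat.dvd_prime hrP).1 h1 with h2 | h2
    · exact hpP.one_lt.ne' h2
    · exact hrp h2.symm
  have hi' : i = orderOf ((Fintype.card F : ℕ) : ZMod r) := by rw [hq]; exact hi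
  have hrq : ¬ r ∣ q := by
    intro h0
    obtain ⟨n, -, hn⟩ := FiniteField.card F p
    rw [← hq, hn] at h0
    have h1 : r ∣ p := hrP.dvd_of_dvd_pow h0
    exact hrp ((Nat.prime_dvd_prime_iff_eq hrP hpP).1 h1)
  have hipos : 0 < i := by
    rw [hi]
    exact (Cfsg.Agent.Helper51.TI5955.ord_pos r q hrq).1
  set Qb : QuadraticForm F (ι → F) := Cfsg.Agent.Helper98.op_qf Q hQ with hQb
  have hQbQ : ∀ v, Qb v = Q v := fun v => rfl
  obtain ⟨e, f, hfam⟩ := ob_fam Q hQ d δ (by omega) hcard hδ (i * a) had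
  obtain ⟨X, Y, S, Y', S', hY, hS, hY', hS', hYY', hY'Y, hSS', hS'S, hX, hXr, hXfix⟩ :=
    ob_hex_core (F := F) r (hrP.odd_of_ne_two (by omega)) hrF (ob_gb r hrF i a hi')
  have hmul := ob_ext_mul Qb e f hfam
  -- the matrices
  have hinv : ∀ Z Z' : HSp (i * a) F →ₗ[F] HSp (i * a) F, Z ∘ₗ Z' = LinearMap.id →
      LinearMap.toMatrix' (hExt Qb e f Z) * LinearMap.toMatrix' (hExt Qb e f Z') = 1 := by
    intro Z Z' hZ
    rw [← LinearMap.toMatrix'_comp, ← hmul, hZ, hExt_id, LinearMap.toMatrix'_id]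
  let y : GL ι F := ⟨LinearMap.toMatrix' (hExt Qb e f Y), LinearMap.toMatrix' (hExt Qb e f Y'),
    hinv Y Y' hYY', hinv Y' Y hY'Y⟩
  let s : GL ι F := ⟨LinearMap.toMatrix' (hExt Qb e f S), LinearMap.toMatrix' (hExt Qb e f S'),
    hinv S S' hSS', hinv S' S hS'S⟩
  have hiso : ∀ Z : HSp (i * a) F →ₗ[F] HSp (i * a) F, (∀ u, TSOB.hq (Z u) = TSOB.hq u) →
      ∀ u : ι → F, Q (LinearMap.toMatrix' (hExt Qb e f Z) *ᵥ u) = Q u := by
    intro Z hZ u
    rw [LinearMap.toMatrix'_mulVec]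
    exact ob_ext_iso Qb e f hfam Z hZ u
  have hy : y ∈ Cfsg.isometryGroup F Q := fun u _ => hiso Y hY u
  have hs : s ∈ Cfsg.isometryGroup F Q := fun u _ => hiso S hS u
  let yI : ↥(Cfsg.isometryGroup F Q) := ⟨y, hy⟩
  let sI : ↥(Cfsg.isometryGroup F Q) := ⟨s, hs⟩
  let x : GL ι F := y * s * y⁻¹ * s⁻¹
  have hxmat : (x : Matrix ι ι F) = LinearMap.toMatrix' (hExt Qb e f X) := by
    show LinearMap.toMatrix' (hExt Qb e f Y) * LinearMap.toMatrix' (hExt Qb e f S) *
      LinearMap.toMatrix' (hExt Qb e f Y') * LinearMap.toMatrix' (hExt Qb e f S') = _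
    rw [← LinearMap.toMatrix'_comp, ← LinearMap.toMatrix'_comp, ← LinearMap.toMatrix'_comp,
      ← hmul, ← hmul, ← hmul, hX]
    rfl
  have hxT : Matrix.toLin' (x : Matrix ι ι F) = hExt Qb e f X := by
    rw [hxmat, Matrix.toLin'_toMatrix']
  have hXiso : ∀ u, TSOB.hq (X u) = TSOB.hq u := by
    intro u
    rw [hX]
    simp only [LinearMap.comp_apply]
    rw [hY, hS, hY', hS']
  have hTr : (hExt Qb e f X) ^ r = 1 := by
    rw [ob_ext_pow Qb e f hfam, hXr, Module.End.one_eq_id, hExt_id]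
    rfl
  have hrange : LinearMap.range (hExt Qb e f X - 1) = LinearMap.range (hE e f) :=
    ob_ext_range Qb e f hfam X hXfix
  obtain ⟨hdimE, U, hUle, hU0, hUdim⟩ := ob_range_E Qb e f hfam
  refine ⟨x, ?_, ?_, ?_, ?_⟩
  · have hc : yI * sI * yI⁻¹ * sI⁻¹ ∈ commutator ↥(Cfsg.isometryGroup F Q) := by
      rw [← commutatorElement_def]
      exact Subgroup.commutator_mem_commutator (Subgroup.mem_top yI) (Subgroup.mem_top sI)
    exact Subgroup.mem_map.2 ⟨yI * sI * yI⁻¹ * sI⁻¹, hc, rfl⟩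
  · apply Units.ext
    apply Matrix.toLin'.injective
    rw [Units.val_pow_eq_pow_val, ob_toLin_pow, hxT, hTr]
    simp [Module.End.one_eq_id]
  · intro hx1
    have h1 : hExt Qb e f X = 1 := by
      rw [← hxT, hx1]
      simp [Module.End.one_eq_id]
    rw [h1, sub_self, LinearMap.range_zero] at hrange
    rw [← hrange, finrank_bot] at hdimE
    have : 0 < i * a := Nat.mul_pos hipos ha
    omega
  · rintro k ⟨W, hWk, hW0, hWT⟩
    rw [hxT] at hWT
    set T : Module.End F (ι → F) := hExt Qb e f X with hT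
    have hTiso : ∀ v, Q (T v) = Q v := fun v => ob_ext_iso Qb e f hfam X hXiso v
    have hsplit := ob_csplit T r hrF hTr W hWT
    have hWDinv : (W ⊓ LinearMap.range (T - 1)).map T ≤ W ⊓ LinearMap.range (T - 1) := by
      rintro _ ⟨w, ⟨hwW, u, rfl⟩, rfl⟩
      refine ⟨hWT (Submodule.mem_map_of_mem hwW), T u, ?_⟩
      simp [LinearMap.sub_apply]
    have hdvd := ob_cdvd T r hrF hTr i hi' (W ⊓ LinearMap.range (T - 1)) hWDinv inf_le_right
    have hcd := ob_cd Q hQ T hTiso r hrF hTr (W ⊓ LinearMap.range (T - 1))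
      (fun w hw => hW0 w hw.1) inf_le_right
    have hcc := ob_cc Q hQ d δ hcard hδ T hTiso r hrF hTr (i * a)
      (by rw [hrange]; exact hdimE) ⟨U, by rw [hrange]; exact hUle, fun w hw => hU0 w hw, hUdim⟩
      (W ⊓ LinearMap.ker (T - 1)) (fun w hw => hW0 w hw.1) inf_le_right
    have hdimD : finrank F ↥(LinearMap.range (T - 1)) = 2 * (i * a) := by
      rw [hrange]; exact hdimE
    rw [hdimD] at hcd
    obtain ⟨t, ht⟩ := hdvd
    refine ⟨t, finrank F ↥(W ⊓ LinearMap.ker (T - 1)), ?_, hcc, ?_⟩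
    · rw [ht] at hcd
      have h2 : i * t ≤ i * a := by omega
      exact Nat.le_of_mul_le_mul_left h2 hipos
    · rw [← hWk, hsplit, ht]
      ring

end Cfsg.Agent.Helper65.TS5973
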