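import Mathlib
import Cfsg.Prelude.Def_KGroupFacts
import Cfsg.Agent.Helper65.F25
import Cfsg.Agent.Helper65.AltCover

set_option autoImplicit false

/-!
# Triple covers of `A₆` and `A₇`

Five explicit matrices in `SL₃(F25)` satisfy the relations of the alternating group `A₇` modulo
scalars; the first four generate a triple cover of `A₆`, all five a triple cover of `A₇`.
-/

namespace Cfsg.Agent.Helper65.TA

open Matrix Cfsg.Agent.Helper65
open scoped commutatorElement

/-- The lifts of the generators of the alternating group to `SL₃(F25)`. -/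
def ty : ℕ → Matrix.SpecialLinearGroup (Fin 3) F25
  | 0 => ⟨!![1, 0, 0; 0, F25.ω, 0; 0, 0, F25.ω ^ 2], by rw [Matrix.det_fin_three]; decide⟩
  | 1 => ⟨!![3, 4, 4; 4, 3, 4; 4, 4, 3], by rw [Matrix.det_fin_three]; decide⟩
  | 2 => ⟨!![4, 0, 0; 0, 0, 1; 0, 1, 0], by rw [Matrix.det_fin_three]; decide⟩
  | 3 => ⟨!![0, 0, 4; 0, 4, 0; 4, 0, 0], by rw [Matrix.det_fin_three]; decide⟩
  | 4 => ⟨!![4, 0, 0; 0, 0, 4; 0, 4, 0], by rw [Matrix.det_fin_three]; decide⟩
  | _ => 1

/-- The central element of order three. -/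
def tz : Matrix.SpecialLinearGroup (Fin 3) F25 :=
  ⟨F25.ω • (1 : Matrix (Fin 3) (Fin 3) F25), by
    rw [Matrix.det_smul, Matrix.det_one, mul_one, Fintype.card_fin]
    decide⟩

theorem ty0_cube : ty 0 ^ 3 = 1 := by
  apply Subtype.ext
  rw [Matrix.SpecialLinearGroup.coe_pow]
  decide

theorem ty_sq : ∀ j, 1 ≤ j → j < 5 → ty j * ty j = 1 := by
  intro j h1 h5
  interval_cases j <;>
  · apply Subtype.ext
    rw [Matrix.SpecialLinearGroup.coe_mul]
    decide

theorem ty_braid : ∀ i, i + 1 < 5 → (ty i * ty (i + 1)) ^ 3 = 1 := by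
  intro i hi
  have hi' : i < 4 := by omega
  interval_cases i <;>
  · apply Subtype.ext
    rw [Matrix.SpecialLinearGroup.coe_pow, Matrix.SpecialLinearGroup.coe_mul]
    decide +kernel

theorem ty_far : ∀ i j, i + 1 < j → j < 5 →
    (ty i * ty j) ^ 2 = 1 ∨ (ty i * ty j) ^ 2 = tz ^ 2 := by
  intro i j hij hj
  have hi : i < 3 := by omega
  interval_cases i <;> interval_cases j
  · left
    apply Subtype.ext
    rw [Matrix.SpecialLinearGroup.coe_pow, Matrix.SpecialLinearGroup.coe_mul]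
    decide +kernel
  · right
    apply Subtype.ext
    rw [Matrix.SpecialLinearGroup.coe_pow, Matrix.SpecialLinearGroup.coe_mul,
      Matrix.SpecialLinearGroup.coe_pow]
    decide +kernel
  · left
    apply Subtype.ext
    rw [Matrix.SpecialLinearGroup.coe_pow, Matrix.SpecialLinearGroup.coe_mul]
    decide +kernel
  · left
    apply Subtype.ext
    rw [Matrix.SpecialLinearGroup.coe_pow, Matrix.SpecialLinearGroup.coe_mul]
    decide +kernel
  · left
    apply Subtype.ext
    rw [Matrix.SpecialLinearGroup.coe_pow, Matrix.SpecialLinearGroup.coe_mul]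
    decide +kernel
  · left
    apply Subtype.ext
    rw [Matrix.SpecialLinearGroup.coe_pow, Matrix.SpecialLinearGroup.coe_mul]
    decide +kernel

theorem ty_comm : ty 0 * (ty 2 * ty 3) = tz * (ty 2 * ty 3 * ty 0) := by
  apply Subtype.ext
  simp only [Matrix.SpecialLinearGroup.coe_mul]
  decide +kernel

theorem ty_ncomm : ty 1 * ty 0 ≠ ty 0 * ty 1 := by
  intro h
  have h' := congrArg Subtype.val h
  rw [Matrix.SpecialLinearGroup.coe_mul, Matrix.SpecialLinearGroup.coe_mul] at h'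
  revert h'
  decide +kernel

theorem tz_comm (g : Matrix.SpecialLinearGroup (Fin 3) F25) : g * tz = tz * g := by
  apply Subtype.ext
  rw [Matrix.SpecialLinearGroup.coe_mul, Matrix.SpecialLinearGroup.coe_mul]
  simp [tz]

theorem tz_cube : tz ^ 3 = 1 := by
  apply Subtype.ext
  rw [Matrix.SpecialLinearGroup.coe_pow]
  decide

theorem tz_ne_one : tz ≠ 1 := by
  intro h
  have h' := congrArg Subtype.val h
  revert h'
  decide

theorem ty1_not_mem : ty 1 ∉ Subgroup.zpowers tz := by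
  rintro ⟨k, hk⟩
  apply ty_ncomm
  have hc : Commute (ty 0) (tz ^ k) := (Commute.zpow_right (tz_comm (ty 0)) k)
  have hk' : (fun x => tz ^ x) k = ty 1 := hk
  rw [← hk']
  exact hc.eq.symm

theorem tz_eq_comm : tz = ⁅ty 0, ty 2 * ty 3⁆ := by
  rw [commutatorElement_def, ty_comm]
  group

theorem triple_cover_aux (Γ : Subgroup (Matrix.SpecialLinearGroup (Fin 3) F25)) {A : Type*}
    [Group A] (h0 : ty 0 ∈ Γ) (h2 : ty 2 ∈ Γ) (h3 : ty 3 ∈ Γ) (σ : ↥Γ →* A)
    (hsurj : Function.Surjective σ)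
    (hker : ∀ g : ↥Γ, g ∈ σ.ker ↔ (g : Matrix.SpecialLinearGroup (Fin 3) F25) ∈
      Subgroup.zpowers tz) :
    Cfsg.IsStemExtension σ ∧ Nat.card σ.ker = 3 := by
  have hzΓ : tz ∈ Γ := by
    rw [tz_eq_comm, commutatorElement_def]
    exact Γ.mul_mem (Γ.mul_mem (Γ.mul_mem h0 (Γ.mul_mem h2 h3)) (Γ.inv_mem h0))
      (Γ.inv_mem (Γ.mul_mem h2 h3))
  have hzcomm : (⟨tz, hzΓ⟩ : Γ) ∈ commutator Γ := by
    have h : (⟨tz, hzΓ⟩ : Γ) = ⁅(⟨ty 0, h0⟩ : Γ), ⟨ty 2, h2⟩ * ⟨ty 3, h3⟩⁆ := by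
      apply Subtype.ext
      show tz = _
      rw [tz_eq_comm]
      rfl
    rw [h, _root_.commutator_def]
    exact Subgroup.commutator_mem_commutator (Subgroup.mem_top _) (Subgroup.mem_top _)
  have hkereq : σ.ker = Subgroup.zpowers (⟨tz, hzΓ⟩ : Γ) := by
    ext g
    rw [hker]
    constructor
    · rintro ⟨k, hk⟩
      refine ⟨k, Subtype.ext ?_⟩
      rw [Subgroup.coe_zpow]
      exact hk
    · rintro ⟨k, hk⟩
      refine ⟨k, ?_⟩
      have := congrArg Subtype.val hk
      rw [Subgroup.coe_zpow] at this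
      exact this
  refine ⟨⟨hsurj, ?_, ?_⟩, ?_⟩
  · rw [hkereq, Subgroup.zpowers_le, Subgroup.mem_center_iff]
    intro g
    exact Subtype.ext (tz_comm g.1)
  · rw [hkereq, Subgroup.zpowers_le]
    exact hzcomm
  · have : Fact (Nat.Prime 3) := ⟨Nat.prime_three⟩
    rw [hkereq, Nat.card_zpowers]
    exact orderOf_eq_prime (Subtype.ext tz_cube) (fun h => tz_ne_one (congrArg Subtype.val h))

/-- The triple covers of `A₆` (`m = 1`) and `A₇` (`m = 2`) as stem extensions. -/
theorem triple_cover (m : ℕ) (hm : 1 ≤ m) (hm2 : m ≤ 2) :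
    ∃ (Γ : Type) (_ : Group Γ) (_ : Finite Γ)
      (σ : Γ →* alternatingGroup (Fin (m + 1 + 1 + 3))),
      Cfsg.IsStemExtension σ ∧ Nat.card σ.ker = 3 := by
  have hZc : Subgroup.zpowers tz ≤ Subgroup.center (Matrix.SpecialLinearGroup (Fin 3) F25) := by
    rw [Subgroup.zpowers_le, Subgroup.mem_center_iff]
    exact tz_comm
  obtain ⟨σ, hsurj, hker⟩ := AltCover.alt_cover m ty (Subgroup.zpowers tz) hZc
    (by rw [ty0_cube]; exact Subgroup.one_mem _)
    (fun j h1 hj => by rw [ty_sq j h1 (by omega)]; exact Subgroup.one_mem _)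
    (fun i hi => by rw [ty_braid i (by omega)]; exact Subgroup.one_mem _)
    (fun i j hij hj => by
      rcases ty_far i j hij (by omega) with h | h
      · rw [h]; exact Subgroup.one_mem _
      · rw [h]; exact Subgroup.pow_mem _ (Subgroup.mem_zpowers tz) 2)
    ty1_not_mem
  exact ⟨_, inferInstance, inferInstance, σ, triple_cover_aux _
    (Subgroup.subset_closure (Set.mem_range.mpr ⟨(⟨0, by omega⟩ : Fin (m + 1 + 1 + 1)), rfl⟩))
    (Subgroup.subset_closure (Set.mem_range.mpr ⟨(⟨2, by omega⟩ : Fin (m + 1 + 1 + 1)), rfl⟩))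
    (Subgroup.subset_closure (Set.mem_range.mpr ⟨(⟨3, by omega⟩ : Fin (m + 1 + 1 + 1)), rfl⟩)) σ hsurj hker⟩

end Cfsg.Agent.Helper65.TA
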